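import Cfsg.Agent.Lib.KnownSimple.Leech.Rep
import Cfsg.Agent.Lib.Leech.Basic
import Cfsg.Agent.Lib.Golay.M24Data
import Cfsg.Prelude.Def_SporadicCombinatorics

/-!
# The monomial subgroup of the automorphism group of the lattice

`signP`: sign changes on the words of the code.  `NC`: the automorphisms mapping the vectors `± 8 e_a` among themselves.
Its elements are the signed permutations with permutation part in `M24` and sign set a word of the code,
and `NC` has order `4096 * 244823040`.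
-/

set_option autoImplicit false

namespace Cfsg.Agent.Lib.Conway

open Cfsg Cfsg.Agent.Lib.Compute Cfsg.Agent.Lib.Golay
open Cfsg.Agent.Lib.KnownSimple.Leech

/-- Supports of the words of the code. -/
abbrev CSet : Set (Finset GolayPt) := supports (golayCode : Set (GolayPt → ZMod 2))

/-- The orbit relation of the automorphism group. -/
def Orb (x y : LL) : Prop := ∃ g ∈ Co0, g x = y

theorem Orb.refl (x : LL) : Orb x x := ⟨1, one_mem _, rfl⟩

theorem Orb.symm {x y : LL} (h : Orb x y) : Orb y x := by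
  obtain ⟨g, hg, e⟩ := h
  exact ⟨g⁻¹, inv_mem hg, by rw [← e]; simp⟩

theorem Orb.trans {x y z : LL} (h : Orb x y) (h' : Orb y z) : Orb x z := by
  obtain ⟨g, hg, e⟩ := h
  obtain ⟨g', hg', e'⟩ := h'
  exact ⟨g' * g, mul_mem hg' hg, by rw [Equiv.Perm.mul_apply, e, e']⟩

/-! ### Sign changes -/

/-- The sign change on a set of coordinates. -/
def signV (c : Finset GolayPt) (x : Vec) : Vec := fun i => if i ∈ c then -x i else x i

theorem signV_signV (c : Finset GolayPt) (x : Vec) : signV c (signV c x) = x := by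
  funext i
  simp only [signV]
  split_ifs <;> simp

theorem signV_mem {c : Finset GolayPt} (hc : c ∈ CSet) {x : Vec} (hx : x ∈ leechLattice) : signV c x ∈ leechLattice :=
  Cfsg.Agent.Lib.Leech.mem_leechLattice.2 (Cfsg.Agent.Lib.Leech.sign_mem hc (Cfsg.Agent.Lib.Leech.mem_leechLattice.1 hx))

/-- The sign change as a permutation of the lattice. -/
def signP (c : Finset GolayPt) (hc : c ∈ CSet) : Equiv.Perm LL where
  toFun x := ⟨signV c x.1, signV_mem hc x.2⟩
  invFun x := ⟨signV c x.1, signV_mem hc x.2⟩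
  left_inv x := Subtype.ext (signV_signV c x.1)
  right_inv x := Subtype.ext (signV_signV c x.1)

theorem signP_apply (c : Finset GolayPt) (hc : c ∈ CSet) (x : LL) : ((signP c hc x : LL) : Vec) = signV c x.1 := rfl

theorem sqNorm_signV (c : Finset GolayPt) (x : Vec) : sqNorm (signV c x) = sqNorm x := by
  unfold sqNorm signV
  refine Finset.sum_congr rfl fun i _ => ?_
  split_ifs <;> ring

theorem signP_mem (c : Finset GolayPt) (hc : c ∈ CSet) : signP c hc ∈ Co0 := by
  refine ⟨fun v w => Subtype.ext ?_, fun v => sqNorm_signV c v.1⟩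
  funext i
  change signV c (v.1 + w.1) i = signV c v.1 i + signV c w.1 i
  simp only [signV, Pi.add_apply]
  split_ifs <;> ring

/-! ### The monomial group -/

/-- `g` maps the vectors `± 8 e_a` among themselves. -/
def Pres (g : Equiv.Perm LL) : Prop :=
  ∀ b, ∃ (d : GolayPt) (s : ℤ), (s = 1 ∨ s = -1) ∧ ((g (E8 b) : LL) : Vec) = s • e8 d

theorem mem_Co0_add {g : Equiv.Perm LL} (hg : g ∈ Co0) (x y : LL) : g (x + y) = g x + g y := hg.1 x y

theorem map_zsmul_Co0 {g : Equiv.Perm LL} (hg : g ∈ Co0) (n : ℤ) (x : LL) : g (n • x) = n • g x :=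
  map_zsmul (gHom hg) n x

theorem smul_e8_apply (s : ℤ) (d a : GolayPt) : (s • e8 d) a = if a = d then s * 8 else 0 := by
  simp only [e8, Pi.smul_apply, smul_eq_mul]
  split_ifs <;> ring

/-- Data of an element of `Pres`. -/
structure MonoData (g : Equiv.Perm LL) (π : Equiv.Perm GolayPt) (s : GolayPt → ℤ) : Prop where
  hs : ∀ b, s b = 1 ∨ s b = -1
  hE : ∀ b, ((g (E8 b) : LL) : Vec) = s b • e8 (π b)
  hval : ∀ (x : LL) (b : GolayPt), ((g x : LL) : Vec) (π b) = s b * x.1 b

theorem exists_monoData {g : Equiv.Perm LL} (hg : g ∈ Co0) (hP : Pres g) :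
    ∃ (π : Equiv.Perm GolayPt) (s : GolayPt → ℤ), MonoData g π s := by
  choose d s hs hd using hP
  have himg : ∀ (x : LL) (a : GolayPt), 8 * ((g x : LL) : Vec) a = ∑ b, x.1 b * (s b * (if a = d b then 8 else 0)) := by
    intro x a
    have h1 := congrArg (gHom hg) (smul_E8_apply x)
    rw [map_zsmul, map_sum] at h1
    simp_rw [map_zsmul, gHom_apply] at h1
    have h2 := congrFun (congrArg Subtype.val h1) a
    rw [AddSubmonoidClass.coe_finsetSum, Finset.sum_apply, AddSubgroup.coe_zsmul] at h2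
    simp only [AddSubgroup.coe_zsmul, Pi.smul_apply, smul_eq_mul, hd] at h2
    simp only [e8] at h2
    exact h2
  have dinj : Function.Injective d := by
    intro b b' hbb
    by_contra hne
    have e1 : ((g (E8 b) : LL) : Vec) = (s b * s b') • ((g (E8 b') : LL) : Vec) := by
      rw [hd, hd, ← hbb, smul_smul]
      rcases hs b' with h | h <;> rw [h] <;> simp
    have e2 : g (E8 b) = g ((s b * s b') • E8 b') := by
      have : g ((s b * s b') • E8 b') = gHom hg ((s b * s b') • E8 b') := rfl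
      rw [this, map_zsmul, gHom_apply]
      exact Subtype.ext e1
    have e3 := g.injective e2
    have e4 := congrFun (congrArg Subtype.val e3) b
    rw [AddSubgroup.coe_zsmul] at e4
    change (if b = b then (8 : ℤ) else 0) = (s b * s b') * (if b = b' then 8 else 0) at e4
    rw [if_pos rfl, if_neg hne] at e4
    norm_num at e4
  have dsurj : Function.Surjective d := Finite.injective_iff_surjective.1 dinj
  refine ⟨Equiv.ofBijective d ⟨dinj, dsurj⟩, s, hs, hd, ?_⟩
  intro x b
  have h1 := himg x (d b)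
  rw [Finset.sum_eq_single b] at h1
  · rw [if_pos rfl] at h1
    have h2 : 8 * ((g x : LL) : Vec) (d b) = 8 * (s b * x.1 b) := by
      rw [h1]
      ring
    exact mul_left_cancel₀ (by norm_num) h2
  · intro b' _ hb'
    rw [if_neg (fun h => hb' (dinj h).symm)]
    ring
  · simp

theorem MonoData.hval' {g : Equiv.Perm LL} {π : Equiv.Perm GolayPt} {s : GolayPt → ℤ} (h : MonoData g π s)
    (x : LL) (a : GolayPt) : ((g x : LL) : Vec) a = s (π.symm a) * x.1 (π.symm a) := by
  have h1 := h.hval x (π.symm a)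
  rwa [Equiv.apply_symm_apply] at h1

theorem MonoData.mem_M24 {g : Equiv.Perm LL} {π : Equiv.Perm GolayPt} {s : GolayPt → ℤ} (h : MonoData g π s) : π ∈ M24 := by
  apply mem_M24_of_forall
  intro w hw
  have hQ : Q (fun a => 2 * ((w a).val : ℤ)) := by
    refine ⟨0, w, Or.inl rfl, hw, fun a => by simp, ?_⟩
    rw [← Finset.mul_sum, sum_val_eq_card]
    rcases card_support_code hw with h | h | h | h | h <;> rw [h] <;> norm_num
  obtain ⟨ε, c, hε, hc, h1, _⟩ := mem_L_iff.1 (g ⟨_, mem_L_iff.2 hQ⟩).2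
  have h2 : permWord π w = c := by
    funext a
    have h3 := h1 a
    rw [h.hval'] at h3
    change s (π.symm a) * (2 * ((w (π.symm a)).val : ℤ)) % 4 = _ at h3
    show w (π.symm a) = c a
    rcases zmod2_cases (w (π.symm a)) with ⟨h4, h5⟩ | ⟨h4, h5⟩ <;> rcases zmod2_cases (c a) with ⟨h6, h7⟩ | ⟨h6, h7⟩ <;>
      rcases h.hs (π.symm a) with h8 | h8 <;>
        rw [h5, h7, h8] at h3 <;> rw [h4, h6] <;> rcases hε with rfl | rfl <;> first | rfl | (norm_num at h3)
  rw [h2]
  exact hc

/-- An odd vector of the lattice: all coordinates are `1` modulo `4`. -/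
def oddL : LL := -Spor.leechV

theorem oddL_mod (a : GolayPt) : (oddL.1 a) % 4 = 1 := by
  show (-(if a = none then (-5 : ℤ) else -1)) % 4 = 1
  split_ifs <;> norm_num

/-- The set of negated coordinates. -/
noncomputable def negSet (π : Equiv.Perm GolayPt) (s : GolayPt → ℤ) : Finset GolayPt :=
  Finset.univ.filter fun a => s (π.symm a) = -1

theorem MonoData.negSet_mem {g : Equiv.Perm LL} {π : Equiv.Perm GolayPt} {s : GolayPt → ℤ} (h : MonoData g π s) :
    negSet π s ∈ CSet := by
  obtain ⟨ε, c, hε, hc, h1, _⟩ := mem_L_iff.1 (g oddL).2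
  refine ⟨c, hc, ?_⟩
  ext a
  have h3 := h1 a
  rw [h.hval'] at h3
  have h4 := oddL_mod (π.symm a)
  rw [mem_support₂]
  simp only [negSet, Finset.mem_filter, Finset.mem_univ, true_and]
  obtain ⟨t, ht⟩ : ∃ t, oddL.1 (π.symm a) = 4 * t + 1 := ⟨oddL.1 (π.symm a) / 4, by omega⟩
  rw [ht] at h3
  rcases zmod2_cases (c a) with ⟨h6, h7⟩ | ⟨h6, h7⟩ <;> rcases h.hs (π.symm a) with h8 | h8 <;> rw [h7, h8] at h3 <;>
    rw [h6, h8] <;> rcases hε with rfl | rfl <;> simp <;> omega

theorem MonoData.eq_signedPerm {g : Equiv.Perm LL} {π : Equiv.Perm GolayPt} {s : GolayPt → ℤ} (h : MonoData g π s) (x : LL) :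
    ((g x : LL) : Vec) = signedPerm π (negSet π s) x.1 := by
  funext a
  rw [h.hval']
  unfold signedPerm negSet
  simp only [Finset.mem_filter, Finset.mem_univ, true_and]
  rcases h.hs (π.symm a) with h8 | h8
  · rw [h8]
    simp
  · rw [h8]
    simp

/-- The element attached to a permutation and a word. -/
def monoE (σ : ↥M24) (c : Finset GolayPt) (hc : c ∈ CSet) : Equiv.Perm LL := signP c hc * phi σ

theorem monoE_apply (σ : ↥M24) (c : Finset GolayPt) (hc : c ∈ CSet) (x : LL) :
    ((monoE σ c hc x : LL) : Vec) = signedPerm σ.1 c x.1 := rfl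

theorem monoE_mem (σ : ↥M24) (c : Finset GolayPt) (hc : c ∈ CSet) : monoE σ c hc ∈ Co0 :=
  mul_mem (signP_mem c hc) (phi_mem σ)

theorem signedPerm_e8 (σ : Equiv.Perm GolayPt) (c : Finset GolayPt) (b : GolayPt) :
    signedPerm σ c (e8 b) = (if σ b ∈ c then (-1 : ℤ) else 1) • e8 (σ b) := by
  funext a
  rw [smul_e8_apply]
  unfold signedPerm e8
  have h : σ.symm a = b ↔ a = σ b := by
    rw [Equiv.symm_apply_eq]
  by_cases h1 : a = σ b
  · subst h1
    simp
  · have h2 : σ.symm a ≠ b := fun h3 => h1 (h.1 h3)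
    simp [h1, h2]

theorem monoE_pres (σ : ↥M24) (c : Finset GolayPt) (hc : c ∈ CSet) : Pres (monoE σ c hc) := by
  intro b
  refine ⟨σ.1 b, if σ.1 b ∈ c then (-1 : ℤ) else 1, ?_, ?_⟩
  · split_ifs <;> simp
  · rw [monoE_apply]
    exact signedPerm_e8 σ.1 c b

theorem monoData_exists_eq {g : Equiv.Perm LL} (hg : g ∈ Co0) (hP : Pres g) :
    ∃ (σ : ↥M24) (c : Finset GolayPt) (hc : c ∈ CSet), g = monoE σ c hc := by
  obtain ⟨π, s, h⟩ := exists_monoData hg hP
  refine ⟨⟨π, h.mem_M24⟩, negSet π s, h.negSet_mem, ?_⟩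
  ext x : 1
  exact Subtype.ext (h.eq_signedPerm x)

/-- The monomial subgroup. -/
def NC : Subgroup (Equiv.Perm LL) where
  carrier := {g | g ∈ Co0 ∧ Pres g}
  mul_mem' := by
    rintro a b ⟨ha, hPa⟩ ⟨hb, hPb⟩
    refine ⟨mul_mem ha hb, fun c => ?_⟩
    obtain ⟨d, s, hs, e⟩ := hPb c
    obtain ⟨d', s', hs', e'⟩ := hPa d
    refine ⟨d', s * s', ?_, ?_⟩
    · rcases hs with rfl | rfl <;> rcases hs' with rfl | rfl <;> simp
    · have h1 : b (E8 c) = s • E8 d := Subtype.ext (by rw [e]; rfl)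
      show ((a (b (E8 c)) : LL) : Vec) = _
      rw [h1, map_zsmul_Co0 ha, AddSubgroup.coe_zsmul, e', smul_smul]
  one_mem' := ⟨one_mem _, fun b => ⟨b, 1, Or.inl rfl, by simp [E8]⟩⟩
  inv_mem' := by
    rintro a ⟨ha, hPa⟩
    refine ⟨inv_mem ha, fun b => ?_⟩
    obtain ⟨π, s, h⟩ := exists_monoData ha hPa
    refine ⟨π.symm b, s (π.symm b), h.hs _, ?_⟩
    have h1 := h.hE (π.symm b)
    rw [Equiv.apply_symm_apply] at h1
    have h2 : a (s (π.symm b) • E8 (π.symm b)) = E8 b := by
      rw [map_zsmul_Co0 ha]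
      apply Subtype.ext
      rw [AddSubgroup.coe_zsmul, h1, smul_smul]
      rcases h.hs (π.symm b) with h3 | h3 <;> rw [h3] <;> simp [E8]
    have h3 : a⁻¹ (E8 b) = s (π.symm b) • E8 (π.symm b) := by
      rw [← h2]
      simp
    rw [h3]
    rfl

theorem mem_NC {g : Equiv.Perm LL} : g ∈ NC ↔ g ∈ Co0 ∧ Pres g := Iff.rfl

theorem monoE_mem_NC (σ : ↥M24) (c : Finset GolayPt) (hc : c ∈ CSet) : monoE σ c hc ∈ NC :=
  ⟨monoE_mem σ c hc, monoE_pres σ c hc⟩

theorem empty_CSet : (∅ : Finset GolayPt) ∈ CSet := Spor.empty_mem_supports_golayCode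

theorem phi_eq_monoE (σ : ↥M24) : phi σ = monoE σ ∅ empty_CSet := by
  ext x : 1
  apply Subtype.ext
  funext a
  simp [monoE_apply, signedPerm, phi_apply, permV]

theorem signP_eq_monoE (c : Finset GolayPt) (hc : c ∈ CSet) : signP c hc = monoE 1 c hc := by
  ext x : 1
  apply Subtype.ext
  rfl

theorem phi_mem_NC (σ : ↥M24) : phi σ ∈ NC := by
  rw [phi_eq_monoE]
  exact monoE_mem_NC _ _ _

theorem signP_mem_NC (c : Finset GolayPt) (hc : c ∈ CSet) : signP c hc ∈ NC := by
  rw [signP_eq_monoE]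
  exact monoE_mem_NC _ _ _

/-- Automorphisms fixing one vector `8 e_c` lie in the monomial group. -/
theorem mem_NC_of_fix {g : Equiv.Perm LL} (hg : g ∈ Co0) {c : GolayPt} (hc : g (E8 c) = E8 c) : g ∈ NC :=
  ⟨hg, frame_img hg hc⟩

/-- The order of the monomial group. -/
theorem card_NC : Nat.card ↥NC = 4096 * 244823040 := by
  let F : golayCode × ↥M24 → ↥NC := fun p => ⟨monoE p.2 (support₂ p.1.1) ⟨p.1.1, p.1.2, rfl⟩, monoE_mem_NC _ _ _⟩
  have hF : Function.Bijective F := by
    constructor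
    · rintro ⟨w, σ⟩ ⟨w', σ'⟩ h
      have h0 : monoE σ (support₂ w.1) ⟨w.1, w.2, rfl⟩ = monoE σ' (support₂ w'.1) ⟨w'.1, w'.2, rfl⟩ := congrArg Subtype.val h
      have h1 : ∀ b, signedPerm σ.1 (support₂ w.1) (e8 b) = signedPerm σ'.1 (support₂ w'.1) (e8 b) := fun b => by
        exact congrArg (fun f : Equiv.Perm LL => ((f (E8 b) : LL) : Vec)) h0
      have h2 : ∀ b, σ.1 b = σ'.1 b := by
        intro b
        have h3 := congrFun (h1 b) (σ.1 b)
        rw [signedPerm_e8, signedPerm_e8, smul_e8_apply, smul_e8_apply, if_pos rfl] at h3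
        by_contra hne
        rw [if_neg hne] at h3
        split_ifs at h3 <;> norm_num at h3
      have hσ : σ = σ' := Subtype.ext (Equiv.ext h2)
      subst hσ
      have h3 : support₂ w.1 = support₂ w'.1 := by
        ext a
        have h4 := congrFun (h1 (σ.1.symm a)) a
        rw [signedPerm_e8, signedPerm_e8, smul_e8_apply, smul_e8_apply, Equiv.apply_symm_apply, if_pos rfl] at h4
        by_cases h5 : a ∈ support₂ w.1 <;> by_cases h6 : a ∈ support₂ w'.1 <;> simp [h5, h6] at h4 ⊢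
      have h4 : w = w' := by
        apply Subtype.ext
        funext a
        have h5 : a ∈ support₂ w.1 ↔ a ∈ support₂ w'.1 := by rw [h3]
        rw [mem_support₂, mem_support₂] at h5
        rcases zmod2_cases (w.1 a) with ⟨h6, _⟩ | ⟨h6, _⟩ <;> rcases zmod2_cases (w'.1 a) with ⟨h7, _⟩ | ⟨h7, _⟩ <;>
          rw [h6, h7] at h5 ⊢ <;> simp at h5
      rw [h4]
    · rintro ⟨g, hg, hP⟩
      obtain ⟨σ, c, ⟨w, hw, rfl⟩, e⟩ := monoData_exists_eq hg hP
      exact ⟨(⟨w, hw⟩, σ), Subtype.ext e.symm⟩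
  rw [← Nat.card_congr (Equiv.ofBijective F hF), Nat.card_prod, card_code, card_M24]

end Cfsg.Agent.Lib.Conway
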