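import Cfsg.Agent.Lib.Conway.Pairs

/-!
# Scalar products: general facts and counting by double counting
-/

set_option autoImplicit false

namespace Cfsg.Agent.Lib.Conway

open Cfsg Cfsg.Spor Cfsg.Agent.Lib.Compute Cfsg.Agent.Lib.Golay
open Cfsg.Agent.Lib.KnownSimple.Leech

theorem dotInt_comm (x y : Vec) : dotInt x y = dotInt y x := by
  unfold dotInt
  exact Finset.sum_congr rfl fun i _ => mul_comm _ _

theorem dotInt_neg_right (x y : Vec) : dotInt x (-y) = -dotInt x y := by
  unfold dotInt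
  rw [← Finset.sum_neg_distrib]
  refine Finset.sum_congr rfl fun i _ => ?_
  rw [Pi.neg_apply]
  ring

theorem dotInt_neg_left (x y : Vec) : dotInt (-x) y = -dotInt x y := by
  rw [dotInt_comm, dotInt_neg_right, dotInt_comm]

theorem dotInt_add_right (x y z : Vec) : dotInt x (y + z) = dotInt x y + dotInt x z := by
  unfold dotInt
  rw [← Finset.sum_add_distrib]
  refine Finset.sum_congr rfl fun i _ => ?_
  rw [Pi.add_apply]
  ring

theorem dotInt_sub_right (x y z : Vec) : dotInt x (y - z) = dotInt x y - dotInt x z := by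
  unfold dotInt
  rw [← Finset.sum_sub_distrib]
  refine Finset.sum_congr rfl fun i _ => ?_
  rw [Pi.sub_apply]
  ring

theorem dotInt_add_left (x y z : Vec) : dotInt (x + y) z = dotInt x z + dotInt y z := by
  rw [dotInt_comm, dotInt_add_right, dotInt_comm z x, dotInt_comm z y]

theorem dotInt_sub_left (x y z : Vec) : dotInt (x - y) z = dotInt x z - dotInt y z := by
  rw [dotInt_comm, dotInt_sub_right, dotInt_comm z x, dotInt_comm z y]

theorem dotInt_self (x : Vec) : dotInt x x = sqNorm x := by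
  unfold sqNorm dotInt
  exact Finset.sum_congr rfl fun i _ => (pow_two _).symm

theorem sqNorm_sub (x y : Vec) : sqNorm (x - y) = sqNorm x + sqNorm y - 2 * dotInt x y := by
  rw [← dotInt_self, dotInt_sub_left, dotInt_sub_right, dotInt_sub_right, dotInt_self, dotInt_self, dotInt_comm y x]
  ring

theorem sqNorm_neg (x : Vec) : sqNorm (-x) = sqNorm x := by
  rw [← dotInt_self, dotInt_neg_left, dotInt_neg_right, dotInt_self]
  ring

theorem coe_sub (x y : LL) : ((x - y : LL) : Vec) = x.1 - y.1 := rfl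
theorem coe_add (x y : LL) : ((x + y : LL) : Vec) = x.1 + y.1 := rfl
theorem coe_neg (x : LL) : ((-x : LL) : Vec) = -x.1 := rfl

theorem map_neg_Co0 {g : Equiv.Perm LL} (hg : g ∈ Co0) (x : LL) : g (-x) = -g x :=
  map_neg (gHom hg) x

theorem map_sub_Co0 {g : Equiv.Perm LL} (hg : g ∈ Co0) (x y : LL) : g (x - y) = g x - g y :=
  map_sub (gHom hg) x y

theorem map_add_Co0 {g : Equiv.Perm LL} (hg : g ∈ Co0) (x y : LL) : g (x + y) = g x + g y := hg.1 x y

/-! ### Vectors of small norm -/

theorem eq_zero_of_norm_lt {x : LL} (h : sqNorm x.1 < 32) : x = 0 := by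
  by_contra h0
  have h1 : x.1 ≠ 0 := fun h2 => h0 (Subtype.ext h2)
  have := Cfsg.Agent.Lib.Leech.sq_ge_aux (Cfsg.Agent.Lib.Leech.mem_leechLattice.mp x.2) h1
  omega

theorem eight_dvd_dot (x y : LL) : (8 : ℤ) ∣ dotInt x.1 y.1 := by
  have h1 := Cfsg.Agent.Lib.Leech.sq_dvd_aux (Cfsg.Agent.Lib.Leech.mem_leechLattice.mp x.2)
  have h2 := Cfsg.Agent.Lib.Leech.sq_dvd_aux (Cfsg.Agent.Lib.Leech.mem_leechLattice.mp y.2)
  have h3 := Cfsg.Agent.Lib.Leech.sq_dvd_aux (Cfsg.Agent.Lib.Leech.mem_leechLattice.mp (x + y).2)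
  rw [coe_add, sqNorm_add] at h3
  omega

/-- The possible scalar products of two minimal vectors. -/
theorem dot_cases (v w : LL) (hv : sqNorm v.1 = 32) (hw : sqNorm w.1 = 32) :
    (dotInt v.1 w.1 = 32 ∧ w = v) ∨ (dotInt v.1 w.1 = -32 ∧ w = -v) ∨ dotInt v.1 w.1 = 16 ∨ dotInt v.1 w.1 = -16 ∨
      dotInt v.1 w.1 = 8 ∨ dotInt v.1 w.1 = -8 ∨ dotInt v.1 w.1 = 0 := by
  have h8 := eight_dvd_dot v w
  have h1 : sqNorm (v - w : LL).1 = 64 - 2 * dotInt v.1 w.1 := by
    rw [coe_sub, sqNorm_sub, hv, hw]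
    ring
  have h2 : sqNorm (v + w : LL).1 = 64 + 2 * dotInt v.1 w.1 := by
    rw [coe_add, sqNorm_add, hv, hw]
    ring
  have h3 : v - w = 0 ∨ 32 ≤ sqNorm (v - w : LL).1 := by
    by_cases h : sqNorm (v - w : LL).1 < 32
    · exact Or.inl (eq_zero_of_norm_lt h)
    · exact Or.inr (by omega)
  have h4 : v + w = 0 ∨ 32 ≤ sqNorm (v + w : LL).1 := by
    by_cases h : sqNorm (v + w : LL).1 < 32
    · exact Or.inl (eq_zero_of_norm_lt h)
    · exact Or.inr (by omega)
  rcases h3 with h3 | h3
  · left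
    have e : w = v := (sub_eq_zero.1 h3).symm
    refine ⟨?_, e⟩
    rw [e, dotInt_self, hv]
  rcases h4 with h4 | h4
  · right; left
    have e : w = -v := by
      rw [add_comm] at h4
      exact eq_neg_of_add_eq_zero_left h4
    refine ⟨?_, e⟩
    rw [e, coe_neg, dotInt_neg_right, dotInt_self, hv]
  rw [h1] at h3
  rw [h2] at h4
  obtain ⟨k, hk⟩ := h8
  rw [hk] at h3 h4 ⊢
  have h5 : -2 ≤ k := by omega
  have h6 : k ≤ 2 := by omega
  interval_cases k <;> simp

/-! ### Finiteness -/

theorem finite_32 : {x : LL | sqNorm x.1 = 32}.Finite := by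
  have h := Cfsg.Agent.Lib.Leech.count32
  have h1 : {x : GolayPt → ℤ | x ∈ leechLattice ∧ sqNorm x = ((32 : ℕ) : ℤ)} = Subtype.val '' {v : LL | sqNorm v.1 = 32} := by
    ext x
    constructor
    · rintro ⟨hx, hn⟩
      exact ⟨⟨x, hx⟩, by simpa using hn, rfl⟩
    · rintro ⟨v, hv, rfl⟩
      exact ⟨v.2, by simpa using hv⟩
  rw [h1, Set.ncard_image_of_injective _ Subtype.val_injective] at h
  exact Set.finite_of_ncard_ne_zero (by omega)

theorem ncard_32 : {x : LL | sqNorm x.1 = 32}.ncard = 196560 := by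
  have h := Cfsg.Agent.Lib.Leech.count32
  have h1 : {x : GolayPt → ℤ | x ∈ leechLattice ∧ sqNorm x = ((32 : ℕ) : ℤ)} = Subtype.val '' {v : LL | sqNorm v.1 = 32} := by
    ext x
    constructor
    · rintro ⟨hx, hn⟩
      exact ⟨⟨x, hx⟩, by simpa using hn, rfl⟩
    · rintro ⟨v, hv, rfl⟩
      exact ⟨v.2, by simpa using hv⟩
  rw [h1, Set.ncard_image_of_injective _ Subtype.val_injective] at h
  exact h

theorem ncard_48 : {x : LL | sqNorm x.1 = 48}.ncard = 16773120 := by
  have h := Cfsg.Agent.Lib.Leech.count48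
  have h1 : {x : GolayPt → ℤ | x ∈ leechLattice ∧ sqNorm x = ((48 : ℕ) : ℤ)} = Subtype.val '' {v : LL | sqNorm v.1 = 48} := by
    ext x
    constructor
    · rintro ⟨hx, hn⟩
      exact ⟨⟨x, hx⟩, by simpa using hn, rfl⟩
    · rintro ⟨v, hv, rfl⟩
      exact ⟨v.2, by simpa using hv⟩
  rw [h1, Set.ncard_image_of_injective _ Subtype.val_injective] at h
  exact h

/-! ### Minimal vectors with a given scalar product -/

/-- The minimal vectors with a given scalar product with `v`. -/
def XD (v : LL) (d : ℤ) : Set LL := {w | sqNorm w.1 = 32 ∧ dotInt v.1 w.1 = d}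

theorem XD_image {g : Equiv.Perm LL} (hg : g ∈ Co0) (v : LL) (d : ℤ) : g '' XD v d = XD (g v) d := by
  ext y
  constructor
  · rintro ⟨w, ⟨h1, h2⟩, rfl⟩
    exact ⟨(hg.2 w).trans h1, by rw [dot_inv hg]; exact h2⟩
  · rintro ⟨h1, h2⟩
    refine ⟨g⁻¹ y, ⟨?_, ?_⟩, by simp⟩
    · exact ((inv_mem hg).2 y).trans h1
    · have h3 := dot_inv hg v (g⁻¹ y)
      rw [show g (g⁻¹ y) = y by simp] at h3
      rw [← h3]
      exact h2

theorem ncard_XD_eq {v v' : LL} (hv : sqNorm v.1 = 32) (hv' : sqNorm v'.1 = 32) (d : ℤ) : (XD v d).ncard = (XD v' d).ncard := by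
  obtain ⟨g, hg, e⟩ := (orb32 v hv).trans (orb32 v' hv').symm
  rw [← e, ← XD_image hg, Set.ncard_image_of_injective _ g.injective]

/-- The count by double counting. -/
theorem double_count {N : ℤ} {d : ℤ} (hN : N = 64 + 2 * d) {T : Set LL} (hT : T = {x : LL | sqNorm x.1 = N}) (hfin : T.Finite) {b : ℕ}
    (hb : ∀ u ∈ T, {v : LL | sqNorm v.1 = 32 ∧ sqNorm (u - v : LL).1 = 32}.ncard = b) :
    196560 * (XD leechU d).ncard = T.ncard * b := by
  classical
  have h32 := finite_32
  set s := h32.toFinset with hs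
  set t := hfin.toFinset with ht
  have hs1 : s.card = 196560 := by
    rw [← ncard_32, Set.ncard_eq_toFinset_card _ h32]
  have ht1 : t.card = T.ncard := by
    rw [Set.ncard_eq_toFinset_card _ hfin]
  let r : LL → LL → Prop := fun v u => sqNorm (u - v : LL).1 = 32
  have hm : ∀ v ∈ s, (t.bipartiteAbove r v).card = (XD leechU d).ncard := by
    intro v hv
    have hv' : sqNorm v.1 = 32 := by simpa [hs] using hv
    rw [ncard_XD_eq (by rfl : sqNorm leechU.1 = 32) hv' d, ← Set.ncard_coe_finset]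
    have e : ((t.bipartiteAbove r v : Finset LL) : Set LL) = (fun w => v + w) '' XD v d := by
      ext u
      simp only [Finset.bipartiteAbove, Finset.coe_filter, Set.mem_ofPred_eq, ht, Set.Finite.mem_toFinset]
      constructor
      · rintro ⟨h1, h2⟩
        have h3 : sqNorm u.1 = N := by rw [hT] at h1; exact h1
        refine ⟨u - v, ⟨h2, ?_⟩, by simp⟩
        rw [coe_sub, dotInt_sub_right, dotInt_self, hv']
        have h4 := sqNorm_sub u.1 v.1
        rw [h3, hv', ← coe_sub, h2, dotInt_comm] at h4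
        omega
      · rintro ⟨w, ⟨h1, h2⟩, rfl⟩
        refine ⟨?_, by simpa [r] using h1⟩
        rw [hT]
        show sqNorm (v.1 + w.1) = N
        rw [sqNorm_add, hv', h1, h2, hN]
        ring
    rw [e, Set.ncard_image_of_injective _ (add_right_injective v)]
  have hn : ∀ u ∈ t, (s.bipartiteBelow r u).card = b := by
    intro u hu
    have hu' : u ∈ T := by simpa [ht] using hu
    rw [← hb u hu', ← Set.ncard_coe_finset]
    congr 1
    ext v
    simp [Finset.bipartiteBelow, hs, r]
  have := Finset.card_mul_eq_card_mul r hm hn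
  rw [hs1, ht1] at this
  exact this

/-! ### Decompositions of a vector of norm 64 -/

/-- The minimal vectors with minimal difference from `u`. -/
def PS (u : LL) : Set LL := {v | sqNorm v.1 = 32 ∧ sqNorm (u - v : LL).1 = 32}

theorem PS_image {g : Equiv.Perm LL} (hg : g ∈ Co0) (u : LL) : g '' PS u = PS (g u) := by
  ext y
  constructor
  · rintro ⟨w, ⟨h1, h2⟩, rfl⟩
    refine ⟨(hg.2 w).trans h1, ?_⟩
    rw [← map_sub_Co0 hg, hg.2]
    exact h2
  · rintro ⟨h1, h2⟩
    refine ⟨g⁻¹ y, ⟨?_, ?_⟩, by simp⟩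
    · exact ((inv_mem hg).2 y).trans h1
    · have h3 := (inv_mem hg).2 (g u - y)
      rw [map_sub_Co0 (inv_mem hg)] at h3
      rw [show g⁻¹ (g u) = u by simp] at h3
      rw [h3]
      exact h2

theorem ncard_PS_image {g : Equiv.Perm LL} (hg : g ∈ Co0) (u : LL) : (PS (g u)).ncard = (PS u).ncard := by
  rw [← PS_image hg, Set.ncard_image_of_injective _ g.injective]

/-- The shape of a vector. -/
def shapeV (j : GolayPt) (s : ℤ) : Vec := fun a => if a = none then 4 else if a = j then s else 0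

theorem sum_shapeV {j : GolayPt} (hj : j ≠ none) (s : ℤ) : ∑ a, shapeV j s a = 4 + s := by
  have h : ∀ a, shapeV j s a = (if a = none then 4 else 0) + (if a = j then s else 0) := by
    intro a
    unfold shapeV
    by_cases h1 : a = none
    · have : a ≠ j := by rw [h1]; exact hj.symm
      simp [h1, hj.symm]
    · simp [h1]
  simp_rw [h]
  rw [Finset.sum_add_distrib, Finset.sum_ite_eq', Finset.sum_ite_eq']
  simp

theorem sq_shapeV {j : GolayPt} (hj : j ≠ none) {s : ℤ} (hs : s = 4 ∨ s = -4) : sqNorm (shapeV j s) = 32 := by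
  have h : ∀ a, shapeV j s a ^ 2 = (if a = none then 16 else 0) + (if a = j then 16 else 0) := by
    intro a
    unfold shapeV
    by_cases h1 : a = none
    · have : a ≠ j := by rw [h1]; exact hj.symm
      simp [h1, hj.symm]
    · by_cases h2 : a = j
      · subst h2
        rcases hs with rfl | rfl <;> simp [h1]
      · simp [h1, h2]
  unfold sqNorm
  simp_rw [h]
  rw [Finset.sum_add_distrib, Finset.sum_ite_eq', Finset.sum_ite_eq']
  simp

theorem mem_shapeV {j : GolayPt} (hj : j ≠ none) {s : ℤ} (hs : s = 4 ∨ s = -4) : shapeV j s ∈ leechLattice := by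
  refine mem_L_iff.2 ⟨0, 0, Or.inl rfl, zero_mem _, fun i => ?_, ?_⟩
  · unfold shapeV
    rcases hs with rfl | rfl <;> split_ifs <;> simp
  · rw [sum_shapeV hj]
    rcases hs with rfl | rfl <;> norm_num

theorem ncard_PS_E8 : (PS (E8 none)).ncard = 46 := by
  classical
  let P : Finset (GolayPt × ℤ) := (Finset.univ.erase none) ×ˢ ({4, -4} : Finset ℤ)
  have e : Subtype.val '' PS (E8 none) = ((P.image fun p => shapeV p.1 p.2 : Finset Vec) : Set Vec) := by
    ext x
    simp only [Set.mem_image, Finset.coe_image, Set.mem_image, Finset.mem_coe, P, Finset.mem_product, Finset.mem_erase,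
      Finset.mem_univ, and_true, Finset.mem_insert, Finset.mem_singleton, Prod.exists]
    constructor
    · rintro ⟨v, ⟨h1, h2⟩, rfl⟩
      have h3 : v.1 none = 4 := by
        rw [coe_sub, sqNorm_sub, h1, show ((E8 none : LL) : Vec) = e8 none from rfl, sqNorm_e8 none, dotInt_comm, dot_e8] at h2
        omega
      obtain ⟨j, hj, s, hs, hx⟩ := four_shape v h1 h3
      exact ⟨j, s, ⟨hj, hs⟩, funext fun a => (hx a).symm⟩
    · rintro ⟨j, s, ⟨hj, hs⟩, rfl⟩
      refine ⟨⟨_, mem_shapeV hj hs⟩, ⟨sq_shapeV hj hs, ?_⟩, rfl⟩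
      rw [coe_sub, sqNorm_sub, show ((E8 none : LL) : Vec) = e8 none from rfl, sqNorm_e8 none]
      show 64 + sqNorm (shapeV j s) - 2 * dotInt (e8 none) (shapeV j s) = 32
      rw [sq_shapeV hj hs, dotInt_comm, dot_e8]
      show 64 + 32 - 2 * (8 * shapeV j s none) = 32
      simp [shapeV]
  have h1 := congrArg Set.ncard e
  rw [Set.ncard_image_of_injective _ Subtype.val_injective, Set.ncard_coe_finset, Finset.card_image_of_injOn] at h1
  · rw [h1]
    rfl
  · rintro ⟨j, s⟩ hp ⟨j', s'⟩ hp' h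
    simp only [P, Finset.coe_product, Set.mem_prod, Finset.mem_coe, Finset.mem_erase, Finset.mem_univ, and_true,
      Finset.mem_insert, Finset.mem_singleton] at hp hp'
    have h' : shapeV j s = shapeV j' s' := h
    have h2 := congrFun h' j
    have h3 := congrFun h' j'
    simp only [shapeV, if_neg hp.1, if_neg hp'.1, if_true] at h2 h3
    have hjj : j = j' := by
      by_contra hne
      rw [if_neg hne] at h2
      rcases hp.2 with rfl | rfl <;> norm_num at h2
    subst hjj
    rw [if_pos rfl] at h2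
    rw [h2]

theorem ncard_PS_64 (u : LL) (hu : sqNorm u.1 = 64) : (PS u).ncard = 46 := by
  obtain ⟨g, hg, e⟩ := orb64 u hu
  rw [← ncard_PS_image hg, e, ncard_PS_E8]

/-- The number of minimal vectors orthogonal to a minimal vector. -/
theorem ncard_XD_0 : (XD leechU 0).ncard = 93150 := by
  have hfin : {x : LL | sqNorm x.1 = 64}.Finite := Set.finite_of_ncard_ne_zero (by rw [ncard_norm64]; norm_num)
  have h := double_count (N := 64) (d := 0) (by norm_num) rfl hfin (b := 46) (fun u hu => ncard_PS_64 u hu)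
  rw [ncard_norm64] at h
  omega

end Cfsg.Agent.Lib.Conway
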