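import Cfsg.Agent.Lib.KnownSimple.Leech.Rep

/-!
# Checks of the generators on a table of vectors, cut into chunks
-/

set_option autoImplicit false

namespace Cfsg.Agent.Lib.Conway

open Cfsg Cfsg.Spor Cfsg.Agent.Lib.Compute Cfsg.Agent.Lib.Golay
open Cfsg.Agent.Lib.KnownSimple Cfsg.Agent.Lib.KnownSimple.PE Cfsg.Agent.Lib.KnownSimple.Leech

variable {G : Subgroup (Equiv.Perm LL)} {n : ℕ} (R : LRep G n)

/-- One element of the check for a matrix. -/
noncomputable def gS (S : List (List (ℕ × ℤ))) (f : ℕ → ℕ) (i : ℕ) : Bool :=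
  !Nat.blt i n || (Nat.blt (f i) n && allBelow (fun j => decide (dotS (rowOf S j) (vecZ R.tab i) = Int.mul 8 (vecZ R.tab (f i) j))) 24)

/-- One element of the check for a permutation of the coordinates. -/
noncomputable def gP (p f : ℕ → ℕ) (i : ℕ) : Bool :=
  !Nat.blt i n || (Nat.blt (f i) n && allBelow (fun j => decide (vecZ R.tab (f i) (p j) = vecZ R.tab i j)) 24)

theorem chkS_of_chunks {S : List (List (ℕ × ℤ))} {f : ℕ → ℕ} {s m : ℕ} (hn : n ≤ m * s)
    (h : ∀ c, c < m → chunk (gS R S f) s c = true) : R.chkS S f = true := by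
  have h1 := (allBelow_iff _ _).1 (allBelow_of_chunks h)
  refine (allBelow_iff _ _).2 fun i hi => ?_
  have hb : Nat.blt i n = true := by rw [Nat.blt_eq]; exact hi
  have h2 := h1 i (by omega)
  simp only [gS, hb, Bool.not_true, Bool.false_or] at h2
  exact h2

theorem chkP_of_chunks {p f : ℕ → ℕ} {s m : ℕ} (hn : n ≤ m * s)
    (h : ∀ c, c < m → chunk (gP R p f) s c = true) : R.chkP p f = true := by
  have h1 := (allBelow_iff _ _).1 (allBelow_of_chunks h)
  refine (allBelow_iff _ _).2 fun i hi => ?_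
  have hb : Nat.blt i n = true := by rw [Nat.blt_eq]; exact hi
  have h2 := h1 i (by omega)
  simp only [gP, hb, Bool.not_true, Bool.false_or] at h2
  exact h2

/-- All the chunks. -/
theorem chunks22 {g : ℕ → Bool} {s : ℕ} (h0 : chunk g s 0 = true) (h1 : chunk g s 1 = true) (h2 : chunk g s 2 = true) (h3 : chunk g s 3 = true) (h4 : chunk g s 4 = true) (h5 : chunk g s 5 = true) (h6 : chunk g s 6 = true) (h7 : chunk g s 7 = true) (h8 : chunk g s 8 = true) (h9 : chunk g s 9 = true) (h10 : chunk g s 10 = true) (h11 : chunk g s 11 = true) (h12 : chunk g s 12 = true) (h13 : chunk g s 13 = true) (h14 : chunk g s 14 = true) (h15 : chunk g s 15 = true) (h16 : chunk g s 16 = true) (h17 : chunk g s 17 = true) (h18 : chunk g s 18 = true) (h19 : chunk g s 19 = true) (h20 : chunk g s 20 = true) (h21 : chunk g s 21 = true) :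
    ∀ c, c < 22 → chunk g s c = true := by
  intro c hc
  interval_cases c <;> assumption

end Cfsg.Agent.Lib.Conway
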