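import Cfsg.Agent.Lib.Compute.Simple2
import Cfsg.Agent.Lib.Char.Burnside

/-!
# Simple groups from primitive actions with simple point stabilisers, continued
-/

set_option autoImplicit false

namespace Cfsg.Agent.Lib.Conway.SimpleKit

open MulAction
open Cfsg.Agent.Lib.Compute
open scoped commutatorElement Pointwise

variable {G X : Type*} [Group G] [MulAction G X]

/-- Reduction to regular normal subgroups. -/
theorem simple_of_no_regular [Finite G] [Finite X] [Nontrivial G] [FaithfulSMul G X]
    [IsPreprimitive G X] (x : X) (hsimple : IsSimpleGroup (stabilizer G x))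
    (hreg : ∀ N : Subgroup G, N.Normal → N ≠ ⊥ → Nat.card N = Nat.card X → False) : IsSimpleGroup G := by
  have : Nonempty X := ⟨x⟩
  refine ⟨fun N hN => ?_⟩
  by_cases hbot : N = ⊥
  · exact Or.inl hbot
  right
  have hT : IsPretransitive N X := isPretransitive_of_normal_of_preprimitive N hbot
  have hnorm : (N.subgroupOf (stabilizer G x)).Normal := Subgroup.normal_subgroupOf
  rcases hsimple.eq_bot_or_eq_top_of_normal _ hnorm with hb | ht
  · exfalso
    have hst : stabilizer N x = ⊥ := by
      rw [eq_bot_iff]
      intro n hn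
      rw [Subgroup.mem_bot]
      have h1 : (⟨(n : G), hn⟩ : stabilizer G x) ∈ N.subgroupOf (stabilizer G x) := by
        rw [Subgroup.mem_subgroupOf]
        exact n.2
      rw [hb, Subgroup.mem_bot] at h1
      apply Subtype.ext
      exact congrArg (fun z : stabilizer G x => (z : G)) h1
    apply hreg N hN hbot
    have h1 := (stabilizer N x).card_mul_index
    rw [index_stabilizer, orbit_eq_univ, Set.ncard_univ, hst, Subgroup.card_bot, one_mul] at h1
    exact h1.symm
  · rw [eq_top_iff]
    intro g _
    obtain ⟨n, hn⟩ := MulAction.exists_smul_eq N x (g • x)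
    have hn' : (n : G) • x = g • x := hn
    have h3 : (n : G)⁻¹ * g ∈ stabilizer G x := by
      rw [mem_stabilizer_iff, mul_smul, ← hn']
      simp
    have h4 : (⟨(n : G)⁻¹ * g, h3⟩ : stabilizer G x) ∈ N.subgroupOf (stabilizer G x) := by
      rw [ht]; trivial
    rw [Subgroup.mem_subgroupOf] at h4
    have h5 : g = (n : G) * ((n : G)⁻¹ * g) := by group
    rw [h5]
    exact N.mul_mem n.2 h4

/-- The degree divides the order of a nontrivial characteristic subgroup of a normal subgroup. -/
theorem card_dvd_of_char [Finite G] [Finite X] [Nonempty X] [FaithfulSMul G X] [IsPreprimitive G X]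
    (N : Subgroup G) [N.Normal] (K : Subgroup N) [K.Characteristic] (hK : K ≠ ⊥) : Nat.card X ∣ Nat.card K := by
  have hm : (K.map N.subtype).Normal := ConjAct.normal_of_characteristic_of_normal
  have hne : K.map N.subtype ≠ ⊥ := by
    intro h
    exact hK ((Subgroup.map_eq_bot_iff_of_injective _ N.subtype_injective).1 h)
  have hT := isPretransitive_of_normal_of_preprimitive (X := X) (K.map N.subtype) hne
  have h5 := card_dvd_of_isPretransitive (G := G) (X := X) (K.map N.subtype)
  have h6 : Nat.card (K.map N.subtype) = Nat.card K :=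
    Nat.card_congr (K.equivMapOfInjective _ N.subtype_injective).toEquiv.symm
  rwa [h6] at h5

/-- No regular normal subgroups in degrees `p ^ a * q ^ b`. -/
theorem no_regular_paqb [Finite G] [Finite X] [Nonempty X] [FaithfulSMul G X] [IsPreprimitive G X]
    {p q a b : ℕ} (hp : p.Prime) (hq : q.Prime) (hpq : p ≠ q) (ha : 0 < a) (hb : 0 < b) (hX : Nat.card X = p ^ a * q ^ b)
    (N : Subgroup G) (hN : N.Normal) (hc : Nat.card N = Nat.card X) : False := by
  have : Fact p.Prime := ⟨hp⟩
  have hsol : Group.IsSolvable N := Cfsg.Agent.Lib.Char.isSolvable_of_card p q a b hp hq (hc.trans hX)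
  have hqb : 1 < q ^ b := Nat.one_lt_pow (by omega) hq.one_lt
  have hpa : 1 < p ^ a := Nat.one_lt_pow (by omega) hp.one_lt
  have hcard : Nat.card N = p ^ a * q ^ b := hc.trans hX
  have hcl : 1 < Nat.card N := by
    rw [hcard]
    nlinarith
  have hnt : Nontrivial N := Finite.one_lt_card_iff_nontrivial.1 hcl
  have hcomm : commutator N = ⊥ := by
    by_contra h
    have h1 := card_dvd_of_char (X := X) N (commutator N) h
    rw [← hc] at h1
    have h2 : commutator N = ⊤ :=
      Subgroup.eq_top_of_card_eq _ (Nat.dvd_antisymm (Subgroup.card_subgroup_dvd_card _) h1)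
    exact (Group.IsSolvable.commutator_lt_top_of_nontrivial N).ne h2
  have hcomm' : ∀ x y : N, y * x * y⁻¹ = x := by
    intro x y
    have h1 : ⁅y, x⁆ ∈ commutator N := Subgroup.commutator_mem_commutator (Subgroup.mem_top y) (Subgroup.mem_top x)
    rw [hcomm, Subgroup.mem_bot, commutatorElement_def] at h1
    have h2 : y * x * y⁻¹ = x := by
      calc y * x * y⁻¹ = y * x * y⁻¹ * x⁻¹ * x := by group
        _ = x := by rw [h1, one_mul]
    exact h2
  obtain ⟨P⟩ : Nonempty (Sylow p N) := inferInstance
  have hPn : (P : Subgroup N).Normal := ⟨fun x hx g => by rw [hcomm' x g]; exact hx⟩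
  have hPc : (P : Subgroup N).Characteristic := P.characteristic_of_normal hPn
  have hpq' : ¬ p ∣ q ^ b := fun h => hpq ((Nat.prime_dvd_prime_iff_eq hp hq).1 (hp.dvd_of_dvd_pow h))
  have hfact : (Nat.card N).factorization p = a := by
    rw [hcard, Nat.factorization_mul (pow_ne_zero _ hp.ne_zero) (by omega), Finsupp.add_apply,
      hp.factorization_pow, Nat.factorization_eq_zero_of_not_dvd hpq']
    simp
  have hPcard : Nat.card P = p ^ a := by
    rw [P.card_eq_multiplicity, hfact]
  have hPne : (P : Subgroup N) ≠ ⊥ := by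
    intro h
    have h1 : Nat.card (P : Subgroup N) = 1 := by rw [h, Subgroup.card_bot]
    have h2 : Nat.card (P : Subgroup N) = p ^ a := hPcard
    omega
  have h5 := card_dvd_of_char (X := X) N (P : Subgroup N) hPne
  have h6 : Nat.card (P : Subgroup N) = p ^ a := hPcard
  rw [hX, h6] at h5
  have h7 : p ^ a * q ^ b ∣ p ^ a * 1 := by simpa using h5
  have h8 := Nat.dvd_of_mul_dvd_mul_left (pow_pos hp.pos a) h7
  have h9 := Nat.le_of_dvd (by norm_num) h8
  omega

/-- The sign of a fixed point free involution. -/
theorem sign_of_involution {α : Type*} [Fintype α] [DecidableEq α] {σ : Equiv.Perm α} (h2 : σ * σ = 1)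
    (hf : ∀ a, σ a ≠ a) {m : ℕ} (hm : Odd m) (hc : Fintype.card α = 2 * m) : Equiv.Perm.sign σ = -1 := by
  have hne : σ ≠ 1 := by
    intro h
    have hm0 : 0 < m := hm.pos
    have : Nonempty α := by
      apply Fintype.card_pos_iff.1
      omega
    obtain ⟨a⟩ := this
    apply hf a
    rw [h]
    rfl
  have hord : orderOf σ = 2 := orderOf_eq_prime (by rw [pow_two]; exact h2) hne
  obtain ⟨n, hn⟩ := Equiv.Perm.cycleType_prime_order (σ := σ) (by rw [hord]; exact Nat.prime_two)
  rw [hord] at hn
  have h3 : σ.cycleType.sum = σ.support.card := Equiv.Perm.sum_cycleType σ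
  have h4 : σ.support = Finset.univ := by
    ext a
    simp [Equiv.Perm.mem_support, hf a]
  rw [h4, Finset.card_univ, hc, hn, Multiset.sum_replicate, smul_eq_mul] at h3
  have h5 : n + 1 = m := by omega
  rw [Equiv.Perm.sign_of_cycleType, hn, Multiset.sum_replicate, Multiset.card_replicate, smul_eq_mul, h5]
  exact Odd.neg_one_pow (Even.add_odd (even_two.mul_left m) hm)

/-- No regular normal subgroups in degrees `2 * m`, `m` odd. -/
theorem no_regular_two_odd [Finite G] [Finite X] [Nonempty X] [FaithfulSMul G X] [IsPreprimitive G X]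
    {m : ℕ} (hm : Odd m) (hm1 : 1 < m) (hX : Nat.card X = 2 * m)
    (N : Subgroup G) (hN : N.Normal) (hc : Nat.card N = Nat.card X) : False := by
  classical
  have := Fintype.ofFinite N
  have hcard : Nat.card N = 2 * m := hc.trans hX
  have hfc : Fintype.card N = 2 * m := by rw [← Nat.card_eq_fintype_card]; exact hcard
  have : Fact (Nat.Prime 2) := ⟨Nat.prime_two⟩
  obtain ⟨t, ht⟩ := exists_prime_orderOf_dvd_card' (G := N) 2 (by rw [hcard]; exact dvd_mul_right _ _)
  let sg : N →* ℤˣ := Equiv.Perm.sign.comp (MulAction.toPermHom N N)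
  have hsgt : sg t = -1 := by
    show Equiv.Perm.sign (MulAction.toPerm t) = -1
    refine sign_of_involution (m := m) ?_ ?_ hm hfc
    · refine Equiv.ext fun a => ?_
      show t * (t * a) = a
      rw [← mul_assoc, ← pow_two, ← ht, pow_orderOf_eq_one, one_mul]
    · intro a h
      have h1 : t * a = a := h
      have h2 : t = 1 := by simpa using h1
      rw [h2, orderOf_one] at ht
      omega
  have hsurj : Function.Surjective sg := fun u => by
    rcases Int.units_eq_one_or u with rfl | rfl
    · exact ⟨1, map_one _⟩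
    · exact ⟨t, hsgt⟩
  have hidx : sg.ker.index = 2 := by
    rw [Subgroup.index_ker, MonoidHom.range_eq_top_of_surjective _ hsurj, Subgroup.card_top, Nat.card_eq_fintype_card]
    decide
  have hK : Nat.card sg.ker = m := by
    have h1 := sg.ker.card_mul_index
    rw [hidx, hcard] at h1
    omega
  have hchar : sg.ker.Characteristic := by
    rw [Subgroup.characteristic_iff_le_comap]
    intro φ x hx
    rw [Subgroup.mem_comap, MonoidHom.mem_ker]
    have h1 : (⟨x, hx⟩ : sg.ker) ^ Nat.card sg.ker = 1 := pow_card_eq_one'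
    rw [hK] at h1
    have h2 : x ^ m = 1 := by
      have := congrArg Subtype.val h1
      simpa using this
    have h3 : (sg (φ.toMonoidHom x)) ^ m = 1 := by
      rw [← map_pow, ← map_pow, h2, map_one, map_one]
    rcases Int.units_eq_one_or (sg (φ.toMonoidHom x)) with h4 | h4
    · exact h4
    · rw [h4, hm.neg_one_pow] at h3
      exact absurd h3 (by decide)
  have hne : sg.ker ≠ ⊥ := by
    intro h
    rw [h, Subgroup.card_bot] at hK
    omega
  have h5 := card_dvd_of_char (X := X) N sg.ker hne
  rw [hX, hK] at h5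
  have h6 := Nat.le_of_dvd (by omega) h5
  omega

/-- Primitivity from the orbits of a point stabiliser. -/
theorem preprimitive_of_classes [Finite X] [IsPretransitive G X] (x : X) {r : ℕ} (f : X → Fin r)
    (hx : ∀ y, f y = f x → y = x) (htrans : ∀ y y', f y = f y' → ∃ g : G, g • x = x ∧ g • y = y')
    (c : Fin r → ℕ) (hc : ∀ k, {y | f y = k}.ncard = c k)
    (hdiv : ∀ T : Finset (Fin r), f x ∈ T → (∑ k ∈ T, c k) ∣ Nat.card X → T = {f x} ∨ T = Finset.univ) :
    IsPreprimitive G X := by
  classical
  have := Fintype.ofFinite X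
  refine IsPreprimitive.of_isTrivialBlock_base x fun {B} hxB hB => ?_
  -- the block is a union of classes
  have hinv : ∀ y ∈ B, ∀ y', f y = f y' → y' ∈ B := by
    intro y hy y' hf
    obtain ⟨g, hg1, hg2⟩ := htrans y y' hf
    have h1 : g • B = B := by
      apply hB.smul_eq_of_nonempty
      refine ⟨x, ?_, hxB⟩
      rw [← hg1]
      exact Set.smul_mem_smul_set hxB
    rw [← hg2, ← h1]
    exact Set.smul_mem_smul_set hy
  let T : Finset (Fin r) := (Set.toFinset B).image f
  have hT : ∀ y, f y ∈ T ↔ y ∈ B := by
    intro y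
    simp only [T, Finset.mem_image, Set.mem_toFinset]
    constructor
    · rintro ⟨a, ha, e⟩
      exact hinv a ha y e
    · intro h
      exact ⟨y, h, rfl⟩
  have hsum : B.ncard = ∑ k ∈ T, c k := by
    rw [Set.ncard_eq_toFinset_card']
    rw [Finset.card_eq_sum_card_fiberwise (f := f) (t := T) (fun a ha => by
      simp only [T, Finset.coe_image]
      exact ⟨a, ha, rfl⟩)]
    refine Finset.sum_congr rfl fun k hk => ?_
    rw [← hc k, Set.ncard_eq_toFinset_card']
    congr 1
    ext y
    simp only [Finset.mem_filter, Set.mem_toFinset, Set.mem_ofPred_eq]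
    constructor
    · rintro ⟨_, h⟩
      exact h
    · intro h
      refine ⟨?_, h⟩
      rw [← hT, h]
      exact hk
  have hd := hB.ncard_dvd_card ⟨x, hxB⟩
  rw [hsum] at hd
  rcases hdiv T ((hT x).2 hxB) hd with h | h
  · left
    intro a ha b hb
    have h1 : f a ∈ T := (hT a).2 ha
    have h2 : f b ∈ T := (hT b).2 hb
    rw [h, Finset.mem_singleton] at h1 h2
    rw [hx a h1, hx b h2]
  · right
    rw [Set.eq_univ_iff_forall]
    intro a
    rw [← hT, h]
    exact Finset.mem_univ _

end Cfsg.Agent.Lib.Conway.SimpleKit
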