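import Cfsg.Agent.Lib.Conway.RepUse
import Cfsg.Agent.Lib.Conway.SimpleKit
import Cfsg.Agent.Lib.Golay.SimpleGroups
import Cfsg.Agent.Lib.KnownSimple.MathieuOut
import Cfsg.Prelude.Def_Sporadic

/-!
# Simplicity of groups acting on tables of vectors
-/

set_option autoImplicit false

namespace Cfsg.Agent.Lib.Conway.TabSimple

open Cfsg Cfsg.Spor Cfsg.Agent.Lib.Compute Cfsg.Agent.Lib.Golay MulAction
open Cfsg.Agent.Lib.KnownSimple Cfsg.Agent.Lib.KnownSimple.PE Cfsg.Agent.Lib.KnownSimple.Leech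
open Cfsg.Agent.Lib.Conway

/-- `M22` is simple. -/
theorem simple_M22' : IsSimpleGroup ↥Spor.M22 := by
  have h := Cfsg.Agent.Lib.Golay.simple_M22
  have p23 : pt 23 = none := by decide
  have p0 : pt 0 = some 0 := by decide
  have e : stabL (GE []) (([0, 23] : List ℕ).map pt) = Spor.M22 := by
    ext σ
    constructor
    · rintro ⟨h1, h2⟩
      have h1' : σ ∈ M24 := by rwa [GE_nil] at h1
      have h3 := h2 (pt 23) (by simp)
      have h4 := h2 (pt 0) (by simp)
      rw [p23] at h3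
      rw [p0] at h4
      exact ⟨⟨h1', h3⟩, h4⟩
    · rintro ⟨⟨h1, h2⟩, h3⟩
      refine ⟨by rwa [GE_nil], fun x hx => ?_⟩
      simp only [List.map_cons, List.map_nil, List.mem_cons, List.not_mem_nil, or_false] at hx
      rcases hx with rfl | rfl
      · rw [p0]
        exact h3
      · rw [p23]
        exact h2
  rw [← e]
  exact h

variable {G : Subgroup (Equiv.Perm LL)} {n : ℕ} (R : LRep G n)

theorem rep_apply_eq {g : ↥G} {i j : Fin n} (h : g.1 (R.vec i) = R.vec j) : R.rep g i = j :=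
  R.vec_inj (by rw [← R.rep_spec, h])

include R in
theorem ncard_fin (P : ℕ → Bool) : {i : Fin n | P i = true}.ncard = countBelow P n := by
  rw [← TabUse.ncard_filter R P, Set.ncard_image_of_injective _ R.vec_inj]

theorem pretrans (h : ∀ i j : Fin n, ∃ g : ↥G, g.1 (R.vec i) = R.vec j) : IsPretransitive ↥R.rep.range (Fin n) :=
  ⟨fun i j => by
    obtain ⟨g, e⟩ := h i j
    exact ⟨⟨R.rep g, g, rfl⟩, rep_apply_eq R e⟩⟩

/-- Primitivity from the orbits of a point stabiliser. -/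
theorem prim_of_classes (h : ∀ i j : Fin n, ∃ g : ↥G, g.1 (R.vec i) = R.vec j) (x : Fin n) {r : ℕ} (f : Fin n → Fin r)
    (hx : ∀ y, f y = f x → y = x)
    (htrans : ∀ y y', f y = f y' → ∃ g : ↥G, g.1 (R.vec x) = R.vec x ∧ g.1 (R.vec y) = R.vec y')
    (c : Fin r → ℕ) (hc : ∀ k, {y | f y = k}.ncard = c k)
    (hdiv : ∀ T : Finset (Fin r), f x ∈ T → (∑ k ∈ T, c k) ∣ n → T = {f x} ∨ T = Finset.univ) :
    IsPreprimitive ↥R.rep.range (Fin n) := by
  have := pretrans R h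
  refine SimpleKit.preprimitive_of_classes x f hx (fun y y' e => ?_) c hc (fun T hT hd => hdiv T hT ?_)
  · obtain ⟨g, e1, e2⟩ := htrans y y' e
    exact ⟨⟨R.rep g, g, rfl⟩, rep_apply_eq R e1, rep_apply_eq R e2⟩
  · rwa [Nat.card_fin] at hd

theorem nontrivial_stab (h : ∀ i j : Fin n, ∃ g : ↥G, g.1 (R.vec i) = R.vec j) (b : Fin n) (hc : n < Nat.card ↥R.rep.range) :
    Nontrivial ↥(stabilizer ↥R.rep.range b) := by
  have := pretrans R h
  have h1 := (stabilizer ↥R.rep.range b).card_mul_index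
  rw [index_stabilizer, orbit_eq_univ, Set.ncard_univ, Nat.card_fin] at h1
  by_contra hne
  rw [not_nontrivial_iff_subsingleton] at hne
  rw [Nat.card_of_subsingleton (1 : ↥(stabilizer ↥R.rep.range b)), one_mul] at h1
  omega

/-- The data of a point stabiliser isomorphic to `M22`. -/
structure StabM22 (b : Fin n) : Prop where
  hphi : ∀ π : ↥M24, π.1 ∈ Spor.M22 → phi π ∈ G
  hfix : ∀ π : ↥M24, π.1 ∈ Spor.M22 → phi π (R.vec b) = R.vec b
  hstab : ∀ g : ↥G, g.1 (R.vec b) = R.vec b → ∃ π : ↥M24, π.1 ∈ Spor.M22 ∧ g.1 = phi π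

variable {R} {b : Fin n} (s : StabM22 R b)

/-- `M22` in the group. -/
noncomputable def th0 : ↥Spor.M22 →* ↥G :=
  MonoidHom.codRestrict (phi.comp (Subgroup.inclusion MathieuOut.M22_le)) G
    (fun π => s.hphi (Subgroup.inclusion MathieuOut.M22_le π) π.2)

theorem th0_val (π : ↥Spor.M22) : (th0 s π).1 = phi (Subgroup.inclusion MathieuOut.M22_le π) := rfl

/-- `M22` in the stabiliser. -/
noncomputable def th : ↥Spor.M22 →* ↥(stabilizer ↥R.rep.range b) :=
  MonoidHom.codRestrict (R.rep.rangeRestrict.comp (th0 s)) (stabilizer ↥R.rep.range b) (fun π => by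
    rw [mem_stabilizer_iff]
    exact rep_apply_eq R (s.hfix _ π.2))

theorem th_val (π : ↥Spor.M22) : ((th s π).1.1 : Equiv.Perm (Fin n)) = R.rep (th0 s π) := rfl

theorem th_surj : Function.Surjective (th s) := by
  rintro ⟨⟨_, g, rfl⟩, hfix⟩
  rw [mem_stabilizer_iff] at hfix
  have h1 : R.rep g b = b := hfix
  have h2 : g.1 (R.vec b) = R.vec b := by
    rw [R.rep_spec, h1]
  obtain ⟨π, hπ, e⟩ := s.hstab g h2
  refine ⟨⟨π.1, hπ⟩, ?_⟩
  have h3 : th0 s ⟨π.1, hπ⟩ = g := by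
    apply Subtype.ext
    rw [th0_val, e]
    rfl
  apply Subtype.ext
  apply Subtype.ext
  show R.rep (th0 s ⟨π.1, hπ⟩) = R.rep g
  rw [h3]

include s in
theorem simple_stab [Nontrivial ↥(stabilizer ↥R.rep.range b)] : IsSimpleGroup ↥(stabilizer ↥R.rep.range b) := by
  have := simple_M22'
  exact IsSimpleGroup.isSimpleGroup_of_surjective (th s) (th_surj s)

theorem th_inj [Nontrivial ↥(stabilizer ↥R.rep.range b)] : Function.Injective (th s) := by
  have := simple_M22'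
  rw [← MonoidHom.ker_eq_bot_iff]
  rcases IsSimpleGroup.eq_bot_or_eq_top_of_normal (th s).ker (MonoidHom.normal_ker _) with h | h
  · exact h
  · exfalso
    obtain ⟨a, c, hne⟩ := exists_pair_ne ↥(stabilizer ↥R.rep.range b)
    obtain ⟨x, rfl⟩ := th_surj s a
    obtain ⟨y, rfl⟩ := th_surj s c
    apply hne
    have h1 : x ∈ (th s).ker := by rw [h]; trivial
    have h2 : y ∈ (th s).ker := by rw [h]; trivial
    rw [MonoidHom.mem_ker] at h1 h2
    rw [h1, h2]

include s in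
theorem rep_inj [Nontrivial ↥(stabilizer ↥R.rep.range b)] : Function.Injective R.rep := by
  rw [← MonoidHom.ker_eq_bot_iff, eq_bot_iff]
  intro g hg
  rw [MonoidHom.mem_ker] at hg
  rw [Subgroup.mem_bot]
  have h1 : g.1 (R.vec b) = R.vec b := by
    rw [R.rep_spec, hg]
    rfl
  obtain ⟨π, hπ, e⟩ := s.hstab g h1
  have h3 : th0 s ⟨π.1, hπ⟩ = g := by
    apply Subtype.ext
    rw [th0_val, e]
    rfl
  have h4 : th s ⟨π.1, hπ⟩ = 1 := by
    apply Subtype.ext
    apply Subtype.ext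
    show R.rep (th0 s ⟨π.1, hπ⟩) = 1
    rw [h3, hg]
  have h5 : (⟨π.1, hπ⟩ : ↥Spor.M22) = 1 := th_inj s (by rw [h4, map_one])
  rw [← h3, h5, map_one]

/-- The group is isomorphic to the group of permutations. -/
noncomputable def repIso (h : Function.Injective R.rep) : ↥G ≃* ↥R.rep.range := R.rep.ofInjective h

/-- Conjugate subgroups. -/
noncomputable def conjIso {A : Subgroup ↥Co0} {B : Subgroup (Equiv.Perm LL)} (hB : B ≤ Co0) {k : Equiv.Perm LL} (hk : k ∈ Co0)
    (h : ∀ a : ↥Co0, a ∈ A ↔ k * a.1 * k⁻¹ ∈ B) : ↥A ≃* ↥B where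
  toFun a := ⟨k * a.1.1 * k⁻¹, (h a.1).1 a.2⟩
  invFun y := ⟨⟨k⁻¹ * y.1 * k, mul_mem (mul_mem (inv_mem hk) (hB y.2)) hk⟩, (h _).2 (by
    have : k * (k⁻¹ * y.1 * k) * k⁻¹ = y.1 := by group
    show k * (k⁻¹ * y.1 * k) * k⁻¹ ∈ B
    rw [this]
    exact y.2)⟩
  left_inv a := by
    apply Subtype.ext
    apply Subtype.ext
    show k⁻¹ * (k * a.1.1 * k⁻¹) * k = a.1.1
    group
  right_inv y := by
    apply Subtype.ext
    show k * (k⁻¹ * y.1 * k) * k⁻¹ = y.1
    group
  map_mul' a c := by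
    apply Subtype.ext
    show k * (a.1.1 * c.1.1) * k⁻¹ = k * a.1.1 * k⁻¹ * (k * c.1.1 * k⁻¹)
    group

/-- Fixing through a conjugation. -/
theorem conj_fix_iff {k g : Equiv.Perm LL} {v z : LL} (e : k v = z) : (k * g * k⁻¹) z = z ↔ g v = v := by
  subst e
  simp [Equiv.Perm.mul_apply]

end Cfsg.Agent.Lib.Conway.TabSimple
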