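import Cfsg.Agent.Lib.Conway.McLUse
import Cfsg.Agent.Lib.Conway.TabSimple

/-!
# The McLaughlin group is simple
-/

set_option autoImplicit false

namespace Cfsg.Agent.Lib.Conway.ML

open Cfsg Cfsg.Spor Cfsg.Agent.Lib.Compute Cfsg.Agent.Lib.Golay MulAction
open Cfsg.Agent.Lib.KnownSimple Cfsg.Agent.Lib.KnownSimple.PE Cfsg.Agent.Lib.KnownSimple.Leech
open Cfsg.Agent.Lib.Conway Cfsg.Agent.Lib.Conway.TabSimple
open Cfsg.Agent.Lib.KnownSimple.Leech.McL (hh L0 L1 top lev1 tab cK ciK)

/-- The base point. -/
def x0 : Fin 2025 := ⟨2024, by norm_num⟩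

theorem vec_x0 : R.vec x0 = leechU' := U'_eq

theorem stabData : StabM22 R x0 where
  hphi π hπ := McL.phi_mem_G hπ
  hfix π hπ := by
    rw [vec_x0]
    exact (phi_fix hπ).2.2
  hstab g h := by
    rw [vec_x0] at h
    exact stab_M22 (R.hG g.2) g.2.1.2 g.2.2 h

theorem card_range : Nat.card ↥R.rep.range = 898128000 := McL.card_H

theorem trans_vec (i j : Fin 2025) : ∃ g : ↥Spor.McL, g.1 (R.vec i) = R.vec j := by
  obtain ⟨g, _, e⟩ := TabUse.trans_of_level R (le_refl _) top.2
    ((allBelow_iff _ _).1 full0 i i.isLt) ((allBelow_iff _ _).1 full0 j j.isLt)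
  exact ⟨g, e⟩

instance nt : Nontrivial ↥(stabilizer ↥R.rep.range x0) :=
  nontrivial_stab R trans_vec x0 (by rw [card_range]; norm_num)

/-- The classes. -/
noncomputable def cls (i : Fin 2025) : Fin 4 :=
  if i.val = 2024 then 0 else if Pd 0 i = true then 1 else if Pd 16 i = true then 2 else 3

theorem Pd_x0 (d : ℤ) (hd : d = 0 ∨ d = 16 ∨ d = 8) : Pd d 2024 = false := by
  rcases hd with rfl | rfl | rfl <;> decide +kernel

theorem cnt99 : countBelow (fun i => Nat.beq i 2024) 2025 = 1 := by decide +kernel

theorem chkAll : allBelow (fun i => Nat.beq i 2024 || (Pd 0 i || (Pd 16 i || Pd 8 i))) 2025 = true := by decide +kernel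

theorem cases_i (i : Fin 2025) : i.val = 2024 ∨ Pd 0 i = true ∨ Pd 16 i = true ∨ Pd 8 i = true := by
  have h := (allBelow_iff _ _).1 chkAll i i.isLt
  simp only [Bool.or_eq_true] at h
  rcases h with h | h
  · exact Or.inl (Nat.eq_of_beq_eq_true h)
  · exact Or.inr h

theorem Pd_uniq {d d' : ℤ} {i : ℕ} (h : Pd d i = true) (h' : Pd d' i = true) : d = d' :=
  (of_decide_eq_true h).symm.trans (of_decide_eq_true h')

theorem cls_hc (k : Fin 4) : {y | cls y = k}.ncard = ![1, 330, 462, 1232] k := by
  fin_cases k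
  · have : {y : Fin 2025 | cls y = 0} = {y : Fin 2025 | (fun i => Nat.beq i 2024) y.val = true} := by
      ext y
      simp only [Set.mem_ofPred_eq, cls]
      split_ifs with h1 h2 h3
      · simp [h1]
      · simp [h1, Nat.beq_eq]
      · simp [h1, Nat.beq_eq]
      · simp [h1, Nat.beq_eq]
    show {y : Fin 2025 | cls y = 0}.ncard = 1
    rw [this]
    exact (ncard_fin R _).trans cnt99
  · have : {y : Fin 2025 | cls y = 1} = {y : Fin 2025 | Pd 0 y.val = true} := by
      ext y
      simp only [Set.mem_ofPred_eq, cls]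
      split_ifs with h1 h2 h3
      · simp only [h1, Pd_x0 0 (Or.inl rfl)]
        simp
      · simp [h2]
      · simp [h2]
      · simp [h2]
    show {y : Fin 2025 | cls y = 1}.ncard = 330
    rw [this, ncard_fin R, cnt0]
  · have : {y : Fin 2025 | cls y = 2} = {y : Fin 2025 | Pd 16 y.val = true} := by
      ext y
      simp only [Set.mem_ofPred_eq, cls]
      split_ifs with h1 h2 h3
      · simp only [h1, Pd_x0 16 (Or.inr (Or.inl rfl))]
        simp
      · have : Pd 16 y = false := by
          rw [Bool.eq_false_iff]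
          exact fun h => absurd (Pd_uniq h2 h) (by norm_num)
        simp [this]
      · simp [h3]
      · simp [h3]
    show {y : Fin 2025 | cls y = 2}.ncard = 462
    rw [this, ncard_fin R, cnt16]
  · have : {y : Fin 2025 | cls y = 3} = {y : Fin 2025 | Pd 8 y.val = true} := by
      ext y
      simp only [Set.mem_ofPred_eq, cls]
      split_ifs with h1 h2 h3
      · simp only [h1, Pd_x0 8 (Or.inr (Or.inr rfl))]
        simp
      · have : Pd 8 y = false := by
          rw [Bool.eq_false_iff]
          exact fun h => absurd (Pd_uniq h2 h) (by norm_num)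
        simp [this]
      · have : Pd 8 y = false := by
          rw [Bool.eq_false_iff]
          exact fun h => absurd (Pd_uniq h3 h) (by norm_num)
        simp [this]
      · rcases cases_i y with h | h | h | h
        · exact absurd h h1
        · exact absurd h h2
        · exact absurd h h3
        · simp [h]
    show {y : Fin 2025 | cls y = 3}.ncard = 1232
    rw [this, ncard_fin R, cnt8]

theorem cls_x0 : cls x0 = 0 := rfl

theorem cls_hx (y : Fin 2025) (h : cls y = cls x0) : y = x0 := by
  rw [cls_x0] at h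
  unfold cls at h
  split_ifs at h with h1 h2 h3
  · exact Fin.ext h1
  all_goals exact absurd h (by decide)

theorem cls_d (y : Fin 2025) (h : y.val ≠ 2024) : ∃ d : ℤ, (d = 0 ∨ d = 16 ∨ d = 8) ∧ Pd d y = true ∧
    (cls y = if d = 0 then 1 else if d = 16 then 2 else 3) := by
  rcases cases_i y with h1 | h1 | h1 | h1
  · exact absurd h1 h
  · refine ⟨0, Or.inl rfl, h1, ?_⟩
    unfold cls
    rw [if_neg h, if_pos h1]
    rfl
  · refine ⟨16, Or.inr (Or.inl rfl), h1, ?_⟩
    have h2 : ¬ Pd 0 y = true := fun h3 => absurd (Pd_uniq h3 h1) (by norm_num)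
    unfold cls
    rw [if_neg h, if_neg h2, if_pos h1]
    rfl
  · refine ⟨8, Or.inr (Or.inr rfl), h1, ?_⟩
    have h2 : ¬ Pd 0 y = true := fun h3 => absurd (Pd_uniq h3 h1) (by norm_num)
    have h3 : ¬ Pd 16 y = true := fun h4 => absurd (Pd_uniq h4 h1) (by norm_num)
    unfold cls
    rw [if_neg h, if_neg h2, if_neg h3]
    rfl

theorem cls_trans (y y' : Fin 2025) (h : cls y = cls y') :
    ∃ g : ↥Spor.McL, g.1 (R.vec x0) = R.vec x0 ∧ g.1 (R.vec y) = R.vec y' := by
  have key : ∃ g : ↥Spor.McL, R.rep g ∈ hh.K 9 ∧ g.1 (R.vec y) = R.vec y' := by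
    by_cases h1 : y.val = 2024
    · by_cases h2 : y'.val = 2024
      · have : y = y' := Fin.ext (h1.trans h2.symm)
        subst this
        exact ⟨1, by rw [map_one]; exact one_mem _, rfl⟩
      · obtain ⟨d, hd, _, e⟩ := cls_d y' h2
        have e0 : cls y = 0 := by
          unfold cls
          rw [if_pos h1]
        rw [e0, e] at h
        exfalso
        revert h
        split_ifs <;> decide
    · by_cases h2 : y'.val = 2024
      · obtain ⟨d, hd, _, e⟩ := cls_d y h1
        have e0 : cls y' = 0 := by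
          unfold cls
          rw [if_pos h2]
        rw [e0, e] at h
        exfalso
        revert h
        split_ifs <;> decide
      · obtain ⟨d, hd, hp, e⟩ := cls_d y h1
        obtain ⟨d', hd', hp', e'⟩ := cls_d y' h2
        have hdd : d = d' := by
          rw [e, e'] at h
          rcases hd with rfl | rfl | rfl <;> rcases hd' with rfl | rfl | rfl <;>
            first | rfl | (exfalso; revert h; norm_num; done) | (exfalso; revert h; decide)
        subst hdd
        have hmem : ∀ i : Fin 2025, R.vec i ∈ XC leechU w0 := fun i => by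
          rw [XC_base]
          exact ⟨i, rfl⟩
        refine orbit_trans hd (hmem y) (hmem y') ?_ ?_
        · rw [dot_U'_vec]
          exact of_decide_eq_true hp
        · rw [dot_U'_vec]
          exact of_decide_eq_true hp'
  obtain ⟨g, hg, e⟩ := key
  exact ⟨g, by rw [vec_x0]; exact fix_U' hg, e⟩

theorem prim : IsPreprimitive ↥R.rep.range (Fin 2025) :=
  prim_of_classes R trans_vec x0 cls cls_hx cls_trans ![1, 330, 462, 1232] cls_hc (by
    rw [cls_x0]
    decide +kernel)

/-- The group of permutations is simple. -/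
theorem simple_range : IsSimpleGroup ↥R.rep.range := by
  have := prim
  have hnt : Nontrivial ↥R.rep.range := by
    rw [← Finite.one_lt_card_iff_nontrivial, card_range]
    norm_num
  refine SimpleKit.simple_of_no_regular (G := ↥R.rep.range) (X := Fin 2025) x0 (simple_stab stabData) fun N hN _ hc => ?_
  exact SimpleKit.no_regular_paqb (X := Fin 2025) (p := 3) (q := 5) (a := 4) (b := 2) (by norm_num) (by norm_num) (by norm_num)
    (by norm_num) (by norm_num) (by rw [Nat.card_fin]; norm_num) N hN hc

theorem rep_injective : Function.Injective R.rep := rep_inj stabData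

/-- The group is simple. -/
theorem simple_McL : IsSimpleGroup ↥Spor.McL := by
  have := simple_range
  exact (repIso rep_injective).isSimpleGroup

theorem card_McL : Nat.card ↥Spor.McL = 898128000 :=
  (Nat.card_congr (repIso rep_injective).toEquiv).trans card_range

/-- The main statement. -/
theorem S0404_aux (v w : LL) (hv : sqNorm v.1 = 32) (hw : sqNorm w.1 = 32) (hvw : dotInt v.1 w.1 = -8) :
    IsMcL ↥(MulAction.stabilizer ↥Co0 v ⊓ MulAction.stabilizer ↥Co0 w) := by
  have hu : sqNorm (v + w : LL).1 = 48 := by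
    rw [coe_add, sqNorm_add, hv, hw, hvw]
    norm_num
  have hd : dotInt (v + w : LL).1 v.1 = 24 := by
    rw [coe_add, dotInt_add_left, dotInt_self, hv, dotInt_comm, hvw]
    norm_num
  obtain ⟨k, hk, e₁, e₂⟩ := C3.orb_pair (v + w) v hu hv hd
  have e₃ : k w = w0 := by
    have h1 := map_add_Co0 hk v w
    rw [e₁, e₂] at h1
    show k w = -leechV - leechU
    rw [h1]
    abel
  have hiso : ↥(MulAction.stabilizer ↥Co0 v ⊓ MulAction.stabilizer ↥Co0 w) ≃* ↥Spor.McL := by
    refine conjIso (B := Spor.McL) (fun _ hg => hg.1.1) hk fun a => ?_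
    have h1 := conj_fix_iff (g := a.1) e₂
    have h2 := conj_fix_iff (g := a.1) e₃
    rw [Subgroup.mem_inf, mem_stabilizer_iff, mem_stabilizer_iff]
    have mem : k * a.1 * k⁻¹ ∈ Co0 := mul_mem (mul_mem hk a.2) (inv_mem hk)
    constructor
    · rintro ⟨h3, h4⟩
      have h5 : (k * a.1 * k⁻¹) leechU = leechU := h1.2 h3
      have h6 : (k * a.1 * k⁻¹) w0 = w0 := h2.2 h4
      rw [map_sub_Co0 mem, map_neg_Co0 mem, h5] at h6
      have h7 : (k * a.1 * k⁻¹) leechV = leechV := by
        have h8 : -(k * a.1 * k⁻¹) leechV = -leechV := sub_left_injective h6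
        exact neg_injective h8
      exact ⟨⟨mem, h7⟩, h5⟩
    · rintro ⟨⟨h3, h4⟩, h5⟩
      have h4' : (k * a.1 * k⁻¹) leechV = leechV := h4
      have h5' : (k * a.1 * k⁻¹) leechU = leechU := h5
      constructor
      · exact h1.1 h5'
      · apply h2.1
        rw [map_sub_Co0 mem, map_neg_Co0 mem, h4', h5']
  constructor
  · have := simple_McL
    exact hiso.isSimpleGroup
  · exact (Nat.card_congr hiso.toEquiv).trans card_McL

end Cfsg.Agent.Lib.Conway.ML
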