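import Cfsg.Agent.Lib.Conway.Order

/-!
# Pairs of minimal vectors with scalar product zero
-/

set_option autoImplicit false

namespace Cfsg.Agent.Lib.Conway

open Cfsg Cfsg.Spor Cfsg.Agent.Lib.Compute Cfsg.Agent.Lib.Golay Cfsg.Agent.Lib.M24
open Cfsg.Agent.Lib.KnownSimple.Leech

/-- A minimal vector with a coordinate four at infinity has shape `(4, ± 4, 0²²)`. -/
theorem four_shape (x : LL) (hn : sqNorm x.1 = 32) (h4 : x.1 none = 4) :
    ∃ j, j ≠ none ∧ ∃ s : ℤ, (s = 4 ∨ s = -4) ∧ ∀ a, x.1 a = if a = none then 4 else if a = j then s else 0 := by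
  have hle : sqNorm x.1 ≤ 64 := by omega
  obtain ⟨ε, c, hε, hc, h1, _⟩ := mem_L_iff.1 x.2
  rcases hε with rfl | rfl
  · have hs := even_sq h1 hle
    have h6 := Finset.card_le_card (even_S6_sub h1 hle)
    rw [hn] at hs
    have hmem : (none : GolayPt) ∈ fS x.1 4 := mem_fS.2 (Or.inl h4)
    have hpos : 0 < (fS x.1 4).card := Finset.card_pos.2 ⟨_, hmem⟩
    rcases card_support_code hc with hA | hA | hA | hA | hA <;> rw [hA] at hs h6
    · have h2 : (fS x.1 4).card = 2 := by omega
      have h3 : (fS x.1 6).card = 0 := by omega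
      have h8 : (fS x.1 8).card = 0 := by omega
      obtain ⟨p, q, hpq, e⟩ := Finset.card_eq_two.1 h2
      have hvals : ∀ a, a ≠ none → (a ∉ fS x.1 4 → x.1 a = 0) := by
        intro a _ ha
        rcases even_vals h1 hle a with ⟨h5, _⟩ | ⟨_, h5⟩
        · exact absurd h5 (by rw [Finset.card_eq_zero.1 hA]; simp)
        · rcases h5 with h5 | h5 | h5 | h5 | h5
          · exact h5
          · exact absurd (mem_fS.2 (Or.inl h5)) ha
          · exact absurd (mem_fS.2 (Or.inr h5)) ha
          · exact absurd (Finset.card_pos.2 ⟨a, mem_fS.2 (Or.inl h5)⟩) (by omega)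
          · exact absurd (Finset.card_pos.2 ⟨a, mem_fS.2 (Or.inr h5)⟩) (by omega)
      have key : ∃ j, j ≠ none ∧ fS x.1 4 = {none, j} := by
        rw [e] at hmem ⊢
        rcases Finset.mem_insert.1 hmem with h5 | h5
        · exact ⟨q, by rw [h5]; exact hpq.symm, by rw [h5]⟩
        · have hq : q = none := (Finset.mem_singleton.1 h5).symm
          exact ⟨p, hq ▸ hpq, by rw [hq]; exact Finset.pair_comm _ _⟩
      obtain ⟨j, hj, e2⟩ := key
      refine ⟨j, hj, x.1 j, ?_, ?_⟩
      · have h5 : j ∈ fS x.1 4 := by rw [e2]; simp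
        exact mem_fS.1 h5
      · intro a
        split_ifs with h5 h7
        · rw [h5, h4]
        · rw [h7]
        · apply hvals a h5
          rw [e2]
          simp [h5, h7]
    all_goals omega
  · exfalso
    have h5 := h1 none
    rw [h4] at h5
    rcases zmod2_cases (c none) with ⟨_, h7⟩ | ⟨_, h7⟩ <;> rw [h7] at h5 <;> norm_num at h5

theorem dot_e8 (y : Vec) (b : GolayPt) : dotInt y (e8 b) = 8 * y b := by
  unfold dotInt e8
  rw [Finset.sum_eq_single b]
  · simp
    ring
  · intro a _ ha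
    simp [ha]
  · simp

/-- The monomial group fixes the vector `8 e_∞` and moves all `(4, ± 4, 0²²)` to `(4, 4, 0²²)`. -/
theorem shape_to_U (x : LL) {j : GolayPt} (hj : j ≠ none) {s : ℤ} (hs : s = 4 ∨ s = -4)
    (hx : ∀ a, x.1 a = if a = none then 4 else if a = j then s else 0) :
    ∃ n ∈ Co0, n (E8 none) = E8 none ∧ n x = leechU := by
  obtain ⟨r, hr1, hr2⟩ : ∃ r : GolayPt, r ≠ none ∧ r ≠ j := by
    by_cases h : j = some 1
    · exact ⟨some 2, by simp, by rw [h]; decide⟩
    · exact ⟨some 1, by simp, fun h' => h h'.symm⟩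
  obtain ⟨σ, h1, h2, _⟩ := exists_three (p := none) (q := j) (r := r) (p' := none) (q' := some 0) (r' := some 1)
    hj.symm hr1.symm hr2.symm (by simp) (by simp) (by decide)
  have h1' : σ.1.symm none = none := by rw [Equiv.symm_apply_eq, h1]
  have e0 : ∀ a, σ.1.symm a = none ↔ a = none := fun a => by
    rw [Equiv.symm_apply_eq, h1]
  have ej : ∀ a, σ.1.symm a = j ↔ a = some 0 := fun a => by
    rw [Equiv.symm_apply_eq, h2]
  have hy : ∀ a, (phi σ x).1 a = if a = none then 4 else if a = some 0 then s else 0 := by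
    intro a
    rw [phi_apply]
    show x.1 (σ.1.symm a) = _
    rw [hx]
    simp only [e0, ej]
  rcases hs with rfl | rfl
  · refine ⟨phi σ, phi_mem σ, by rw [phi_E8, h1], Subtype.ext ?_⟩
    funext a
    rw [hy]
    show _ = vecU a
    unfold vecU
    by_cases h5 : a = none
    · simp [h5]
    · by_cases h6 : a = some 0
      · simp [h6]
      · simp [h5, h6]
  · obtain ⟨k, hk1, hk2⟩ := exists_word_sep (j := some 0) (b := none) (by simp)
    have hk1' : (some 0 : GolayPt) ∈ (enc.finOf (word k) : Finset GolayPt) := enc.mem_finOf.2 hk1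
    have hk2' : (none : GolayPt) ∉ (enc.finOf (word k) : Finset GolayPt) := by
      intro h
      have := enc.mem_finOf.1 h
      rw [show enc.idx (none : GolayPt) = idx none from rfl, hk2] at this
      exact Bool.noConfusion this
    refine ⟨signP _ (finOf_word_mem k) * phi σ, mul_mem (signP_mem _ _) (phi_mem σ), ?_, Subtype.ext ?_⟩
    · rw [Equiv.Perm.mul_apply, phi_E8, h1]
      apply Subtype.ext
      funext a
      rw [signP_apply]
      show signV _ (e8 none) a = e8 none a
      unfold signV e8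
      by_cases h5 : a = none
      · rw [h5, if_neg hk2']
      · simp [h5]
    · funext a
      rw [Equiv.Perm.mul_apply, signP_apply]
      show signV _ (phi σ x).1 a = vecU a
      unfold signV vecU
      rw [hy]
      by_cases h5 : a = none
      · rw [h5, if_neg hk2']
        simp
      · by_cases h6 : a = some 0
        · rw [h6, if_pos hk1']
          simp
        · simp [h5, h6]

/-- A pair of orthogonal minimal vectors is moved to a standard position. -/
theorem pair_rep (v w : LL) (hv : sqNorm v.1 = 32) (hw : sqNorm w.1 = 32) (hd : dotInt v.1 w.1 = 0) :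
    ∃ g ∈ Co0, g v = leechU ∧ g (v + w) = E8 none := by
  have hu : sqNorm (v + w : LL).1 = 64 := by
    show sqNorm (v.1 + w.1) = 64
    rw [sqNorm_add, hv, hw, hd]
    norm_num
  obtain ⟨g₀, hg₀, e₀⟩ := orb64 (v + w) hu
  have h1 : dotInt (g₀ v).1 (e8 none) = dotInt v.1 (v + w : LL).1 := by
    have := dot_inv hg₀ v (v + w)
    rw [e₀] at this
    exact this
  have h2 : dotInt v.1 (v + w : LL).1 = 32 := by
    show dotInt v.1 (v.1 + w.1) = 32
    have : dotInt v.1 (v.1 + w.1) = sqNorm v.1 + dotInt v.1 w.1 := by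
      unfold dotInt sqNorm
      rw [← Finset.sum_add_distrib]
      refine Finset.sum_congr rfl fun i _ => ?_
      rw [Pi.add_apply]
      ring
    rw [this, hv, hd]
    norm_num
  rw [dot_e8, h2] at h1
  have h4 : (g₀ v).1 none = 4 := by omega
  obtain ⟨j, hj, s, hs, hx⟩ := four_shape (g₀ v) ((hg₀.2 v).trans hv) h4
  obtain ⟨n, hn, e1, e2⟩ := shape_to_U (g₀ v) hj hs hx
  exact ⟨n * g₀, mul_mem hn hg₀, e2, by rw [Equiv.Perm.mul_apply, e₀, e1]⟩

/-- Transitivity on orthogonal pairs of minimal vectors. -/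
theorem pair_trans (v w v' w' : LL) (hv : sqNorm v.1 = 32) (hw : sqNorm w.1 = 32) (hd : dotInt v.1 w.1 = 0)
    (hv' : sqNorm v'.1 = 32) (hw' : sqNorm w'.1 = 32) (hd' : dotInt v'.1 w'.1 = 0) :
    ∃ g ∈ Co0, g v = v' ∧ g w = w' := by
  obtain ⟨g₁, h₁, e₁, f₁⟩ := pair_rep v w hv hw hd
  obtain ⟨g₂, h₂, e₂, f₂⟩ := pair_rep v' w' hv' hw' hd'
  have hm : g₂⁻¹ * g₁ ∈ Co0 := mul_mem (inv_mem h₂) h₁
  have a1 : (g₂⁻¹ * g₁) v = v' := by
    rw [Equiv.Perm.mul_apply, e₁, ← e₂]
    simp
  have a2 : (g₂⁻¹ * g₁) (v + w) = v' + w' := by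
    rw [Equiv.Perm.mul_apply, f₁, ← f₂]
    simp
  refine ⟨_, hm, a1, ?_⟩
  have a3 := hm.1 v w
  rw [a2, a1] at a3
  exact (add_left_cancel a3).symm

end Cfsg.Agent.Lib.Conway
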