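import Cfsg.Agent.Lib.KnownSimple.Leech.Top3
import Cfsg.Agent.Lib.Conway.Pairs

/-!
# Tables of vectors: general facts
-/

set_option autoImplicit false

namespace Cfsg.Agent.Lib.Conway

open Cfsg Cfsg.Spor Cfsg.Agent.Lib.Compute Cfsg.Agent.Lib.Golay
open Cfsg.Agent.Lib.KnownSimple Cfsg.Agent.Lib.KnownSimple.PE Cfsg.Agent.Lib.KnownSimple.Leech

namespace TabUse

variable {G : Subgroup (Equiv.Perm LL)} {n : ℕ} (R : LRep G n)

theorem vec_norm (i : Fin n) : sqNorm (R.vec i).1 = 32 := by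
  have hnorm := (allBelow_iff _ _).1 R.hnorm i i.isLt
  rw [Bool.and_eq_true] at hnorm
  have hn1 : dotZ R.tab i i = 32 := of_decide_eq_true hnorm.1
  rw [LRep.sqNorm_eq_dot, ← R.dotZ_eq]
  exact hn1

theorem vec_tests (i : Fin n) : testsOK R.tests (toF (R.vec i).1) = true := by
  have hnorm := (allBelow_iff _ _).1 R.hnorm i i.isLt
  rw [Bool.and_eq_true] at hnorm
  rw [testsOK_congr R.hcols (y := toF (R.vec i).1) (z := vecZ R.tab i) fun j hj => R.vec_pt i hj]
  exact hnorm.2

theorem exists_vec {x : LL} (hn : sqNorm x.1 = 32) (h : testsOK R.tests (toF x.1) = true) : ∃ i, R.vec i = x := by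
  have h2 := shape_check (classP_congr R.hcols) R.hA R.hB R.hC x.2 hn
  unfold classP at h2
  rw [h, bcond_true] at h2
  obtain ⟨k, hk, h3⟩ := memberOK_spec h2
  refine ⟨⟨k, hk⟩, Subtype.ext ?_⟩
  funext a
  have h4 := h3 (idx a) (idx_lt a)
  show vecZ R.tab k (idx a) = x.1 a
  rw [h4]
  show x.1 (pt (idx a)) = x.1 a
  rw [pt_idx]

/-- The set of vectors of the table. -/
theorem range_vec : Set.range R.vec = {x : LL | sqNorm x.1 = 32 ∧ testsOK R.tests (toF x.1) = true} := by
  ext x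
  constructor
  · rintro ⟨i, rfl⟩
    exact ⟨vec_norm R i, vec_tests R i⟩
  · rintro ⟨h1, h2⟩
    exact exists_vec R h1 h2

theorem ncard_range : (Set.range R.vec).ncard = n := by
  rw [← Set.image_univ, Set.ncard_image_of_injective _ R.vec_inj, Set.ncard_univ, Nat.card_fin]

/-- An element of the range of the representation gives an element of the group. -/
theorem exists_of_range {t : Equiv.Perm (Fin n)} (ht : t ∈ R.rep.range) : ∃ g : ↥G, R.rep g = t := ht

/-- Counting in a table by a predicate. -/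
theorem ncard_filter (P : ℕ → Bool) : (R.vec '' {i : Fin n | P i = true}).ncard = countBelow P n := by
  rw [Set.ncard_image_of_injective _ R.vec_inj, countBelow_eq, ← Set.ncard_coe_finset]
  have e : (((Finset.range n).filter fun i => P i = true : Finset ℕ) : Set ℕ) = Fin.val '' {i : Fin n | P i = true} := by
    ext k
    simp only [Finset.coe_filter, Finset.mem_range, Set.mem_ofPred_eq, Set.mem_image]
    constructor
    · rintro ⟨h1, h2⟩
      exact ⟨⟨k, h1⟩, h2, rfl⟩
    · rintro ⟨i, h2, rfl⟩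
      exact ⟨i.isLt, h2⟩
  rw [e, Set.ncard_image_of_injective _ Fin.val_injective]

theorem vec_dot (i j : Fin n) : dotInt (R.vec i).1 (R.vec j).1 = dotZ R.tab i j := (R.dotZ_eq i j).symm

variable [NeZero n]

theorem coe_idx (i : Fin n) : (encFin n).pt i.val = i := by
  rw [LRep.coe_pt i.val i.isLt]

/-- Transitivity from a transversal. -/
theorem trans_of_reach {K : Subgroup (Equiv.Perm (Fin n))} {b : ℕ} {D : ℕ → Bool} (hK : K ≤ R.rep.range)
    (h : ∀ y, y < n → D y = true → ∃ t ∈ K, t ((encFin n).pt b) = (encFin n).pt y) {i j : Fin n} (hi : D i = true) (hj : D j = true) :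
    ∃ g : ↥G, R.rep g ∈ K ∧ g.1 (R.vec i) = R.vec j := by
  obtain ⟨s, hs, e1⟩ := h i i.isLt hi
  obtain ⟨t, ht, e2⟩ := h j j.isLt hj
  obtain ⟨g, hg⟩ := hK (K.mul_mem ht (K.inv_mem hs))
  refine ⟨g, ?_, ?_⟩
  · show R.rep g ∈ K
    rw [hg]
    exact K.mul_mem ht (K.inv_mem hs)
  · rw [R.rep_spec, hg]
    congr 1
    rw [coe_idx] at e1 e2
    rw [← e1, Equiv.Perm.mul_apply, show s⁻¹ (s ((encFin n).pt b)) = (encFin n).pt b from s.symm_apply_apply _, e2]

/-- Transitivity from a level of a chain. -/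
theorem trans_of_level {K K' : Subgroup (Equiv.Perm (Fin n))} {L : Lev} (hK : K ≤ R.rep.range)
    (h : LevelSem (encFin n) K K' L) {i j : Fin n} (hi : tb L.D i = true) (hj : tb L.D j = true) :
    ∃ g : ↥G, R.rep g ∈ K ∧ g.1 (R.vec i) = R.vec j := by
  refine trans_of_reach R (b := L.b) (D := tb L.D) hK (fun y hy hD => ?_) hi hj
  obtain ⟨t, h1, h2, _⟩ := h.trans y hy hD
  exact ⟨t, h1, h2⟩

/-- Transitivity from a tree. -/
theorem trans_of_treeOK {K : Subgroup (Equiv.Perm (Fin n))} {L : Lev} (hK : K ≤ R.rep.range) (hg : GensIn (encFin n) K L)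
    (ht : L.treeOK n = true) {i j : Fin n} (hi : tb L.D i = true) (hj : tb L.D j = true) :
    ∃ g : ↥G, R.rep g ∈ K ∧ g.1 (R.vec i) = R.vec j := by
  refine trans_of_reach R (b := L.b) (D := tb L.D) hK (fun y hy hD => ?_) hi hj
  obtain ⟨t, h1, h2, _⟩ := trans_of_tree hg ht y hy hD
  exact ⟨t, h1, h2⟩

/-- A fixed point gives a fixed vector. -/
theorem vec_fix {g : ↥G} {b : ℕ} (hb : b < n) (h : R.rep g ((encFin n).pt b) = (encFin n).pt b) :
    g.1 (R.vec ⟨b, hb⟩) = R.vec ⟨b, hb⟩ := by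
  rw [R.rep_spec]
  rw [LRep.coe_pt b hb] at h
  rw [h]

end TabUse

end Cfsg.Agent.Lib.Conway
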