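import Cfsg.Agent.Lib.KnownSimple.Leech.Co3.Main
import Cfsg.Agent.Lib.Conway.RepUse
import Cfsg.Agent.Lib.Conway.Census0

/-!
# The third Conway group acting on 552 vectors; consequences
-/

set_option autoImplicit false

namespace Cfsg.Agent.Lib.Conway

open Cfsg Cfsg.Spor Cfsg.Agent.Lib.Compute Cfsg.Agent.Lib.Golay
open Cfsg.Agent.Lib.KnownSimple Cfsg.Agent.Lib.KnownSimple.PE Cfsg.Agent.Lib.KnownSimple.Leech

namespace C3

/-- The table. -/
noncomputable abbrev R : LRep Spor.Co3 552 := Cfsg.Agent.Lib.KnownSimple.Leech.Co3.R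

theorem tests_iff (x : LL) : testsOK R.tests (toF x.1) = true ↔ dotInt x.1 leechV.1 = -24 := by
  rw [testsOK_iff]
  have hc := R.hcols
  have h1 : dotS rowV (toF x.1) = dotInt x.1 leechV.1 :=
    LRep.dotS_toF (R.hcols (rowV, -24) (by simp [R, Cfsg.Agent.Lib.KnownSimple.Leech.Co3.R, Cfsg.Agent.Lib.KnownSimple.Leech.Co3.tests])) rowV_pt x
  constructor
  · intro h
    rw [← h1]
    exact h (rowV, -24) (by simp [R, Cfsg.Agent.Lib.KnownSimple.Leech.Co3.R, Cfsg.Agent.Lib.KnownSimple.Leech.Co3.tests])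
  · intro h t ht
    simp only [R, Cfsg.Agent.Lib.KnownSimple.Leech.Co3.R, Cfsg.Agent.Lib.KnownSimple.Leech.Co3.tests, List.mem_cons, List.not_mem_nil, or_false] at ht
    rw [ht]
    show dotS rowV (toF x.1) = -24
    rw [h1, h]

/-- The full top level. -/
theorem full0 : allBelow (tb Cfsg.Agent.Lib.KnownSimple.Leech.Co3.L0.D) 552 = true := by decide +kernel

theorem trans552 {x y : LL} (hx : sqNorm x.1 = 32) (hxd : dotInt x.1 leechV.1 = -24) (hy : sqNorm y.1 = 32)
    (hyd : dotInt y.1 leechV.1 = -24) : ∃ g : ↥Spor.Co3, g.1 x = y := by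
  obtain ⟨i, rfl⟩ := TabUse.exists_vec R hx ((tests_iff x).2 hxd)
  obtain ⟨j, rfl⟩ := TabUse.exists_vec R hy ((tests_iff y).2 hyd)
  obtain ⟨g, _, e⟩ := TabUse.trans_of_level R (le_refl _) Cfsg.Agent.Lib.KnownSimple.Leech.Co3.top.2
    ((allBelow_iff _ _).1 full0 i i.isLt) ((allBelow_iff _ _).1 full0 j j.isLt)
  exact ⟨g, e⟩

theorem neg_V_norm : sqNorm (-leechV : LL).1 = 48 := by
  rw [coe_neg, sqNorm_neg]
  rfl

/-- Minimal vectors with minimal difference to a vector of norm 48. -/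
theorem dot_of_PS {u v : LL} (hu : sqNorm u.1 = 48) (hv : sqNorm v.1 = 32) (h : sqNorm (u - v : LL).1 = 32) : dotInt u.1 v.1 = 24 := by
  rw [coe_sub, sqNorm_sub, hu, hv] at h
  omega

theorem PS_of_dot {u v : LL} (hu : sqNorm u.1 = 48) (hv : sqNorm v.1 = 32) (h : dotInt u.1 v.1 = 24) : sqNorm (u - v : LL).1 = 32 := by
  rw [coe_sub, sqNorm_sub, hu, hv, h]
  norm_num

theorem U_dot_V : dotInt leechU.1 leechV.1 = -24 := by decide +kernel

/-- Standard position of a vector of norm 48 and a decomposition. -/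
theorem orb_pair (u v : LL) (hu : sqNorm u.1 = 48) (hv : sqNorm v.1 = 32) (hd : dotInt u.1 v.1 = 24) :
    ∃ g ∈ Co0, g u = -leechV ∧ g v = leechU := by
  obtain ⟨g₀, hg₀, e₀⟩ := orb48 u hu
  have h1 : dotInt (g₀ v).1 leechV.1 = -24 := by
    have h2 := dot_inv hg₀ u v
    rw [e₀, coe_neg, dotInt_neg_left, hd, dotInt_comm] at h2
    omega
  obtain ⟨h, e⟩ := trans552 ((hg₀.2 v).trans hv) h1 (by rfl : sqNorm leechU.1 = 32) U_dot_V
  refine ⟨h.1 * g₀, mul_mem h.2.1 hg₀, ?_, e⟩
  rw [Equiv.Perm.mul_apply, e₀, map_neg_Co0 h.2.1, show h.1 leechV = leechV from h.2.2]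

/-- The number of decompositions. -/
theorem ncard_PS_V : (PS (-leechV)).ncard = 552 := by
  have e : PS (-leechV) = Set.range R.vec := by
    rw [TabUse.range_vec]
    ext x
    constructor
    · rintro ⟨h1, h2⟩
      refine ⟨h1, (tests_iff x).2 ?_⟩
      have h3 := dot_of_PS neg_V_norm h1 h2
      rw [coe_neg, dotInt_neg_left, dotInt_comm] at h3
      omega
    · rintro ⟨h1, h2⟩
      refine ⟨h1, PS_of_dot neg_V_norm h1 ?_⟩
      have h3 := (tests_iff x).1 h2
      rw [coe_neg, dotInt_neg_left, dotInt_comm, h3]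
      norm_num
  rw [e, TabUse.ncard_range]

theorem ncard_PS_48 (u : LL) (hu : sqNorm u.1 = 48) : (PS u).ncard = 552 := by
  obtain ⟨g, hg, e⟩ := orb48 u hu
  rw [← ncard_PS_image hg, e, ncard_PS_V]

/-- The number of minimal vectors with scalar product `-8`. -/
theorem ncard_XD_8 : (XD leechU (-8)).ncard = 47104 := by
  have hfin : {x : LL | sqNorm x.1 = 48}.Finite := Set.finite_of_ncard_ne_zero (by rw [ncard_48]; norm_num)
  have h := double_count (N := 48) (d := -8) (by norm_num) rfl hfin (b := 552) (fun u hu => ncard_PS_48 u hu)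
  rw [ncard_48] at h
  omega

/-- Negation maps the minimal vectors of scalar product `d` to those of scalar product `-d`. -/
theorem XD_neg (v : LL) (d : ℤ) : (XD v (-d)).ncard = (XD v d).ncard := by
  have e : XD v (-d) = (fun w : LL => -w) '' XD v d := by
    ext y
    constructor
    · rintro ⟨h1, h2⟩
      refine ⟨-y, ⟨?_, ?_⟩, by simp⟩
      · rw [coe_neg, sqNorm_neg]
        exact h1
      · rw [coe_neg, dotInt_neg_right, h2]
        ring
    · rintro ⟨w, ⟨h1, h2⟩, rfl⟩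
      refine ⟨?_, ?_⟩
      · rw [coe_neg, sqNorm_neg]
        exact h1
      · rw [coe_neg, dotInt_neg_right, h2]
  rw [e, Set.ncard_image_of_injective _ neg_injective]

theorem finite_XD (v : LL) (d : ℤ) : (XD v d).Finite := finite_32.subset fun _ h => h.1

/-- The number of minimal vectors with scalar product `-16`. -/
theorem ncard_XD_16 : (XD leechU (-16)).ncard = 4600 := by
  classical
  have h32 := finite_32
  have hU : sqNorm leechU.1 = 32 := rfl
  set s := h32.toFinset with hs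
  have hs1 : s.card = 196560 := by
    rw [← ncard_32, Set.ncard_eq_toFinset_card _ h32]
  let f : LL → ℤ := fun w => dotInt leechU.1 w.1
  let T : Finset ℤ := {32, -32, 16, -16, 8, -8, 0}
  have hmaps : ∀ w ∈ s, f w ∈ T := by
    intro w hw
    have hw' : sqNorm w.1 = 32 := by simpa [hs] using hw
    simp only [T, f, Finset.mem_insert, Finset.mem_singleton]
    rcases dot_cases leechU w hU hw' with h | h | h | h | h | h | h
    · exact Or.inl h.1
    · exact Or.inr (Or.inl h.1)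
    · exact Or.inr (Or.inr (Or.inl h))
    · exact Or.inr (Or.inr (Or.inr (Or.inl h)))
    · exact Or.inr (Or.inr (Or.inr (Or.inr (Or.inl h))))
    · exact Or.inr (Or.inr (Or.inr (Or.inr (Or.inr (Or.inl h)))))
    · exact Or.inr (Or.inr (Or.inr (Or.inr (Or.inr (Or.inr h)))))
  have hfib : ∀ d : ℤ, (s.filter fun w => f w = d).card = (XD leechU d).ncard := by
    intro d
    rw [← Set.ncard_coe_finset]
    congr 1
    ext w
    simp [hs, f, XD]
  have hsum := Finset.card_eq_sum_card_fiberwise hmaps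
  rw [hs1] at hsum
  simp only [T] at hsum
  rw [Finset.sum_insert (by decide), Finset.sum_insert (by decide), Finset.sum_insert (by decide),
    Finset.sum_insert (by decide), Finset.sum_insert (by decide), Finset.sum_insert (by decide), Finset.sum_singleton] at hsum
  simp only [hfib] at hsum
  have h32' : (XD leechU 32).ncard = 1 := by
    have : XD leechU 32 = {leechU} := by
      ext w
      constructor
      · rintro ⟨h1, h2⟩
        rcases dot_cases leechU w hU h1 with h | h | h | h | h | h | h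
        · exact h.2
        all_goals (first | omega | (have := h.1; omega))
      · rintro rfl
        exact ⟨hU, by rw [dotInt_self]; exact hU⟩
    rw [this, Set.ncard_singleton]
  have h32'' : (XD leechU (-32)).ncard = 1 := by rw [XD_neg, h32']
  have h8' : (XD leechU 8).ncard = 47104 := by
    have := XD_neg leechU 8
    rw [← this]
    exact ncard_XD_8
  have h16' : (XD leechU 16).ncard = (XD leechU (-16)).ncard := (XD_neg leechU 16).symm
  rw [h32', h32'', h8', ncard_XD_8, ncard_XD_0, h16'] at hsum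
  omega

/-! ### The statements on pairs -/

/-- The stabiliser of a vector of norm 48 is transitive on its decompositions. -/
theorem pair_trans48 (u v v' : LL) (hu : sqNorm u.1 = 48) (hv : sqNorm v.1 = 32 ∧ sqNorm (u - v : LL).1 = 32)
    (hv' : sqNorm v'.1 = 32 ∧ sqNorm (u - v' : LL).1 = 32) : ∃ g ∈ Co0, g u = u ∧ g v = v' := by
  obtain ⟨g₁, h₁, e₁, f₁⟩ := orb_pair u v hu hv.1 (dot_of_PS hu hv.1 hv.2)
  obtain ⟨g₂, h₂, e₂, f₂⟩ := orb_pair u v' hu hv'.1 (dot_of_PS hu hv'.1 hv'.2)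
  refine ⟨g₂⁻¹ * g₁, mul_mem (inv_mem h₂) h₁, ?_, ?_⟩
  · rw [Equiv.Perm.mul_apply, e₁, ← e₂]
    simp
  · rw [Equiv.Perm.mul_apply, f₁, ← f₂]
    simp

/-- Transitivity on pairs of minimal vectors with scalar product `-8`. -/
theorem pair_trans8 (v w w' : LL) (hv : sqNorm v.1 = 32) (hw : sqNorm w.1 = 32) (hw' : sqNorm w'.1 = 32)
    (hd : dotInt v.1 w.1 = -8) (hd' : dotInt v.1 w'.1 = -8) : ∃ g ∈ Co0, g v = v ∧ g w = w' := by
  have hu : sqNorm (v + w : LL).1 = 48 := by
    rw [coe_add, sqNorm_add, hv, hw, hd]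
    norm_num
  have hu' : sqNorm (v + w' : LL).1 = 48 := by
    rw [coe_add, sqNorm_add, hv, hw', hd']
    norm_num
  have k : ∀ w₁ : LL, dotInt v.1 w₁.1 = -8 → dotInt (v + w₁ : LL).1 v.1 = 24 := by
    intro w₁ h
    rw [coe_add, dotInt_add_left, dotInt_self, hv, dotInt_comm, h]
    norm_num
  obtain ⟨g₁, h₁, e₁, f₁⟩ := orb_pair (v + w) v hu hv (k w hd)
  obtain ⟨g₂, h₂, e₂, f₂⟩ := orb_pair (v + w') v hu' hv (k w' hd')
  have hm : g₂⁻¹ * g₁ ∈ Co0 := mul_mem (inv_mem h₂) h₁
  have a1 : (g₂⁻¹ * g₁) v = v := by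
    rw [Equiv.Perm.mul_apply, f₁, ← f₂]
    simp
  have a2 : (g₂⁻¹ * g₁) (v + w) = v + w' := by
    rw [Equiv.Perm.mul_apply, e₁, ← e₂]
    simp
  refine ⟨_, hm, a1, ?_⟩
  have a3 := hm.1 v w
  rw [a2, a1] at a3
  exact (add_left_cancel a3).symm

/-- Passing to sets of vectors of the space. -/
theorem ncard_vec_XD (v : Vec) (hv : v ∈ leechLattice) (d : ℤ) :
    {w : Vec | w ∈ leechLattice ∧ sqNorm w = 32 ∧ dotInt v w = d}.ncard = (XD ⟨v, hv⟩ d).ncard := by
  have h1 : {w : Vec | w ∈ leechLattice ∧ sqNorm w = 32 ∧ dotInt v w = d} = Subtype.val '' XD ⟨v, hv⟩ d := by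
    ext x
    constructor
    · rintro ⟨hx, hn, hdd⟩
      exact ⟨⟨x, hx⟩, ⟨hn, hdd⟩, rfl⟩
    · rintro ⟨w, ⟨hn, hdd⟩, rfl⟩
      exact ⟨w.2, hn, hdd⟩
  rw [h1, Set.ncard_image_of_injective _ Subtype.val_injective]

/-- The census of the minimal vectors. -/
theorem census (v : Vec) (hv : v ∈ leechLattice) (hvn : sqNorm v = 32) :
    {w : Vec | w ∈ leechLattice ∧ sqNorm w = 32 ∧ dotInt v w = -16}.ncard = 4600 ∧
    {w : Vec | w ∈ leechLattice ∧ sqNorm w = 32 ∧ dotInt v w = -8}.ncard = 47104 ∧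
    {w : Vec | w ∈ leechLattice ∧ sqNorm w = 32 ∧ dotInt v w = 0}.ncard = 93150 := by
  have hU : sqNorm leechU.1 = 32 := by decide +kernel
  have hvn' : sqNorm (⟨v, hv⟩ : LL).1 = 32 := hvn
  rw [ncard_vec_XD v hv, ncard_vec_XD v hv, ncard_vec_XD v hv, ncard_XD_eq hvn' hU, ncard_XD_eq hvn' hU, ncard_XD_eq hvn' hU,
    ncard_XD_16, ncard_XD_8, ncard_XD_0]
  exact ⟨rfl, rfl, rfl⟩

end C3

end Cfsg.Agent.Lib.Conway
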