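import Cfsg.Agent.Lib.Conway.Co3Use
import Cfsg.Agent.Lib.Conway.Trees.Data

/-!
# The McLaughlin group acting on 275 vectors
-/

set_option autoImplicit false

namespace Cfsg.Agent.Lib.Conway

open Cfsg Cfsg.Spor Cfsg.Agent.Lib.Compute Cfsg.Agent.Lib.Golay
open Cfsg.Agent.Lib.KnownSimple Cfsg.Agent.Lib.KnownSimple.PE Cfsg.Agent.Lib.KnownSimple.Leech
open Cfsg.Agent.Lib.KnownSimple.Leech.Co3 (hh L1 L2 top lev1 lev2 tab cK ciK)

namespace C3

/-- The summands. -/
def XM (u v : LL) : Set LL := {x | sqNorm x.1 = 32 ∧ sqNorm (u - x : LL).1 = 32 ∧ dotInt v.1 x.1 = 16}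

theorem XM_image {g : Equiv.Perm LL} (hg : g ∈ Co0) (u v : LL) : g '' XM u v = XM (g u) (g v) := by
  ext y
  constructor
  · rintro ⟨w, ⟨h1, h2, h3⟩, rfl⟩
    refine ⟨(hg.2 w).trans h1, ?_, ?_⟩
    · rw [← map_sub_Co0 hg, hg.2]
      exact h2
    · rw [dot_inv hg]
      exact h3
  · rintro ⟨h1, h2, h3⟩
    refine ⟨g⁻¹ y, ⟨((inv_mem hg).2 y).trans h1, ?_, ?_⟩, by simp⟩
    · have h4 := (inv_mem hg).2 (g u - y)
      rw [map_sub_Co0 (inv_mem hg)] at h4
      rw [show g⁻¹ (g u) = u by simp] at h4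
      rw [h4]
      exact h2
    · have h4 := dot_inv (inv_mem hg) (g v) y
      rw [show g⁻¹ (g v) = v by simp] at h4
      rw [h4]
      exact h3

theorem V_V : dotInt leechV.1 leechV.1 = 48 := by decide +kernel
theorem dot_UV : dotInt leechU.1 leechV.1 = -24 := by decide +kernel
theorem U_eq : R.vec ⟨529, by norm_num⟩ = leechU := R.vec_eq (by norm_num) rowU_pt (by decide +kernel)

theorem dot_U_vec (i : Fin 552) : dotInt leechU.1 (R.vec i).1 = dotZ R.tab i 529 := by
  rw [dotInt_comm, ← U_eq, TabUse.vec_dot]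

theorem table_iff (x : LL) : (sqNorm x.1 = 32 ∧ sqNorm (-leechV - x : LL).1 = 32) ↔ ∃ i, R.vec i = x := by
  constructor
  · rintro ⟨h1, h2⟩
    apply TabUse.exists_vec R h1
    rw [tests_iff]
    have h3 := dot_of_PS neg_V_norm h1 h2
    rw [coe_neg, dotInt_neg_left, dotInt_comm] at h3
    omega
  · rintro ⟨i, rfl⟩
    have h1 := TabUse.vec_norm R i
    refine ⟨h1, PS_of_dot neg_V_norm h1 ?_⟩
    have h3 := (tests_iff _).1 (TabUse.vec_tests R i)
    rw [coe_neg, dotInt_neg_left, dotInt_comm, h3]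
    norm_num

/-- The predicate for the summands. -/
noncomputable def P16 (i : ℕ) : Bool := decide (dotZ tab i 529 = 16)

theorem XM0_eq : XM (-leechV) leechU = R.vec '' {i : Fin 552 | P16 i = true} := by
  ext x
  constructor
  · rintro ⟨h1, h2, h3⟩
    obtain ⟨i, rfl⟩ := (table_iff x).1 ⟨h1, h2⟩
    refine ⟨i, ?_, rfl⟩
    rw [dot_U_vec] at h3
    exact decide_eq_true h3
  · rintro ⟨i, hi, rfl⟩
    obtain ⟨h1, h2⟩ := (table_iff _).2 ⟨i, rfl⟩
    refine ⟨h1, h2, ?_⟩
    rw [dot_U_vec]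
    exact of_decide_eq_true hi

theorem count16 : countBelow P16 552 = 275 := by decide +kernel

theorem ncard_XM0 : (XM (-leechV) leechU).ncard = 275 := by
  rw [XM0_eq, TabUse.ncard_filter, count16]

/-- The point stabiliser of the table. -/
theorem K12_le : hh.K 12 ≤ R.rep.range := hh.K_le (by norm_num)
theorem K9_le : hh.K 9 ≤ R.rep.range := hh.K_le (by norm_num)

theorem fix_U {g : ↥Spor.Co3} (hg : R.rep g ∈ hh.K 12) : g.1 leechU = leechU := by
  have h1 := TabUse.vec_fix R (b := 529) (by norm_num) (g := g) (top.2.fixK _ hg)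
  rwa [U_eq] at h1

theorem fix_V (g : ↥Spor.Co3) : g.1 (-leechV) = -leechV := by
  rw [map_neg_Co0 g.2.1, show g.1 leechV = leechV from g.2.2]

theorem cD1 : allBelow (fun j => bcond (decide (dotZ tab j 529 = 8)) (tb L1.D j) true) 552 = true := by decide +kernel

theorem mem_D1 {j : Fin 552} (h : dotZ tab j 529 = 8) : tb L1.D j = true := by
  have h1 := (allBelow_iff _ _).1 cD1 j j.isLt
  rwa [decide_eq_true h, bcond_true] at h1

/-- The reflection of the table. -/
theorem tau_dot_U {x : LL} (h : dotInt leechU.1 x.1 = 16) : dotInt leechU.1 (-leechV - x : LL).1 = 8 := by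
  rw [coe_sub, coe_neg, dotInt_sub_right, dotInt_neg_right, dot_UV, h]
  norm_num

theorem tau_tau (x : LL) : (-leechV - (-leechV - x) : LL) = x := by abel

theorem mem_XM_tau {x : LL} (h : x ∈ XM (-leechV) leechU) : ∃ j : Fin 552, R.vec j = (-leechV - x) ∧ dotZ tab j 529 = 8 := by
  obtain ⟨h1, h2, h3⟩ := h
  have h4 : sqNorm (-leechV - (-leechV - x) : LL).1 = 32 := by
    rw [tau_tau]
    exact h1
  obtain ⟨j, hj⟩ := (table_iff (-leechV - x)).1 ⟨h2, h4⟩
  refine ⟨j, hj, ?_⟩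
  have h5 := dot_U_vec j
  rw [hj, tau_dot_U h3] at h5
  exact h5.symm

theorem trans_XM0 {x x' : LL} (hx : x ∈ XM (-leechV) leechU) (hx' : x' ∈ XM (-leechV) leechU) :
    ∃ g : ↥Spor.Co3, R.rep g ∈ hh.K 12 ∧ g.1 x = x' := by
  obtain ⟨j, hj, h1⟩ := mem_XM_tau hx
  obtain ⟨j', hj', h2⟩ := mem_XM_tau hx'
  obtain ⟨g, hg, e⟩ := TabUse.trans_of_level R K12_le lev1 (mem_D1 h1) (mem_D1 h2)
  refine ⟨g, hg, ?_⟩
  rw [hj, hj'] at e
  have h3 := map_sub_Co0 g.2.1 (-leechV) x
  rw [e, fix_V] at h3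
  exact sub_right_injective h3.symm

/-- The statement on the 275 summands. -/
theorem S1580_aux (u v : LL) (hu : sqNorm u.1 = 48) (hv : sqNorm v.1 = 32 ∧ sqNorm (u - v : LL).1 = 32) :
    (XM u v).ncard = 275 ∧ ∀ x ∈ XM u v, ∀ x' ∈ XM u v, ∃ g ∈ Co0, g u = u ∧ g v = v ∧ g x = x' := by
  obtain ⟨h, hh', e₁, e₂⟩ := orb_pair u v hu hv.1 (dot_of_PS hu hv.1 hv.2)
  have himg := XM_image hh' u v
  rw [e₁, e₂] at himg
  refine ⟨?_, fun x hx x' hx' => ?_⟩
  · rw [← ncard_XM0, ← himg, Set.ncard_image_of_injective _ h.injective]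
  · have h1 : h x ∈ XM (-leechV) leechU := by
      rw [← himg]
      exact ⟨x, hx, rfl⟩
    have h2 : h x' ∈ XM (-leechV) leechU := by
      rw [← himg]
      exact ⟨x', hx', rfl⟩
    obtain ⟨g, hg, e⟩ := trans_XM0 h1 h2
    refine ⟨h⁻¹ * g.1 * h, mul_mem (mul_mem (inv_mem hh') g.2.1) hh', ?_, ?_, ?_⟩
    · simp only [Equiv.Perm.mul_apply]
      rw [e₁, fix_V, ← e₁]
      simp
    · simp only [Equiv.Perm.mul_apply]
      rw [e₂, fix_U hg, ← e₂]
      simp
    · simp only [Equiv.Perm.mul_apply]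
      rw [e]
      simp

/-! ### The rank three action -/

/-- The tree of the second orbit. -/
noncomputable def Lb : Lev :=
  { b := 0, D := TreeData.D_C3b, arr := TreeData.A_C3b, w := 17, m := 131071, mp := 1023, bn := 10, mg := 15, bd := 14,
    fs := Cfsg.Agent.Lib.KnownSimple.Leech.bc cK 9, gs := Cfsg.Agent.Lib.KnownSimple.Leech.bc ciK 9 }

theorem treeB : Lb.treeOK 552 = true := by decide +kernel

theorem gensB : GensIn (encFin 552) (hh.K 9) Lb := hh.gens (by norm_num) rfl rfl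

/-- The base vector of the orbit on the table. -/
noncomputable abbrev a0 : LL := R.vec ⟨46, by norm_num⟩

theorem a0_dotU : dotZ tab 46 529 = 8 := by decide +kernel

/-- The base vector of the set of summands. -/
noncomputable abbrev x0 : LL := -leechV - a0

theorem x0_mem : x0 ∈ XM (-leechV) leechU := by
  have h1 : a0 ∈ Set.range R.vec := ⟨_, rfl⟩
  have h2 : sqNorm a0.1 = 32 := TabUse.vec_norm R _
  have h3 := (table_iff a0).2 h1
  refine ⟨h3.2, ?_, ?_⟩
  · show sqNorm (-leechV - (-leechV - a0) : LL).1 = 32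
    rw [tau_tau]
    exact h2
  · show dotInt leechU.1 (-leechV - a0 : LL).1 = 16
    rw [coe_sub, coe_neg, dotInt_sub_right, dotInt_neg_right, dot_UV, dot_U_vec]
    show _ - dotZ tab 46 529 = 16
    rw [a0_dotU]
    norm_num

/-- The scalar product after the reflection. -/
theorem dot_tau {x y : LL} (hx : dotInt x.1 leechV.1 = -24) (hy : dotInt y.1 leechV.1 = -24) :
    dotInt (-leechV - x : LL).1 (-leechV - y : LL).1 = dotInt x.1 y.1 := by
  have e : dotInt (-leechV - x : LL).1 (-leechV - y : LL).1 = dotInt leechV.1 leechV.1 + dotInt y.1 leechV.1 + dotInt x.1 leechV.1 + dotInt x.1 y.1 := by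
    rw [coe_sub, coe_sub, coe_neg]
    unfold dotInt
    rw [← Finset.sum_add_distrib, ← Finset.sum_add_distrib, ← Finset.sum_add_distrib]
    refine Finset.sum_congr rfl fun a _ => ?_
    simp only [Pi.sub_apply, Pi.neg_apply]
    ring
  rw [e, V_V, hx, hy]
  ring

theorem dotV_of_XM {x : LL} (h : x ∈ XM (-leechV) leechU) : dotInt x.1 leechV.1 = -24 := by
  have h3 := dot_of_PS neg_V_norm h.1 h.2.1
  rw [coe_neg, dotInt_neg_left, dotInt_comm] at h3
  omega

/-- The predicates. -/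
noncomputable def P8x (i : ℕ) : Bool := decide (dotZ tab i 529 = 8) && decide (dotZ tab i 46 = 8)
/-- The predicates. -/
noncomputable def P16x (i : ℕ) : Bool := decide (dotZ tab i 529 = 8) && decide (dotZ tab i 46 = 16) && !(Nat.beq i 46)

theorem count8x : countBelow P8x 552 = 112 := by decide +kernel
theorem count16x : countBelow P16x 552 = 162 := by decide +kernel

theorem cL2 : allBelow (fun j => bcond (P8x j) (tb L2.D j) true) 552 = true := by decide +kernel
theorem cLb : allBelow (fun j => bcond (P16x j) (tb Lb.D j) true) 552 = true := by decide +kernel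
theorem cval : allBelow (fun j => bcond (decide (dotZ tab j 529 = 8)) (P8x j || P16x j || Nat.beq j 46) true) 552 = true := by decide +kernel

theorem fix_a0 {g : ↥Spor.Co3} (hg : R.rep g ∈ hh.K 9) : g.1 a0 = a0 :=
  TabUse.vec_fix R (b := 46) (by norm_num) (g := g) (lev1.fixK _ hg)

theorem fix_x0 {g : ↥Spor.Co3} (hg : R.rep g ∈ hh.K 9) : g.1 x0 = x0 := by
  rw [map_sub_Co0 g.2.1, fix_V, fix_a0 hg]

theorem XM_of_table {a : LL} (h1 : ∃ j, R.vec j = a) (h2 : dotInt leechU.1 a.1 = 8) : (-leechV - a) ∈ XM (-leechV) leechU := by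
  have h3 := (table_iff a).2 h1
  refine ⟨h3.2, ?_, ?_⟩
  · rw [tau_tau]
    exact h3.1
  · rw [coe_sub, coe_neg, dotInt_sub_right, dotInt_neg_right, dot_UV, h2]
    norm_num

/-- The reflection of the set of vectors with a given scalar product with the base point. -/
theorem tau_iff (y : LL) (d : ℤ) : (y ∈ XM (-leechV) leechU ∧ dotInt x0.1 y.1 = d) ↔
    ∃ j : Fin 552, R.vec j = -leechV - y ∧ dotZ tab j 529 = 8 ∧ dotZ tab j 46 = d := by
  constructor
  · rintro ⟨hy, hd⟩
    obtain ⟨j, hj, h1⟩ := mem_XM_tau hy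
    refine ⟨j, hj, h1, ?_⟩
    have h2 := TabUse.vec_dot R j ⟨46, by norm_num⟩
    have h3 := dot_tau (dotV_of_XM x0_mem) (dotV_of_XM hy)
    rw [hd, tau_tau, ← hj, dotInt_comm] at h3
    rw [h3] at h2
    exact h2.symm
  · rintro ⟨j, hj, h1, h2⟩
    have h3 := dot_U_vec j
    rw [hj] at h3
    have hm := XM_of_table (a := -leechV - y) ⟨j, hj⟩ (h3.trans h1)
    rw [tau_tau] at hm
    refine ⟨hm, ?_⟩
    have h4 := TabUse.vec_dot R j ⟨46, by norm_num⟩
    have h5 := dot_tau (dotV_of_XM x0_mem) (dotV_of_XM hm)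
    rw [tau_tau, ← hj, dotInt_comm] at h5
    rw [← h5, h4]
    exact h2

theorem trans_rank3 {y y' : LL} (hy : y ∈ XM (-leechV) leechU) (hy' : y' ∈ XM (-leechV) leechU) (hne : y ≠ x0) (hne' : y' ≠ x0)
    (hd : dotInt x0.1 y.1 = dotInt x0.1 y'.1) : ∃ g : ↥Spor.Co3, R.rep g ∈ hh.K 9 ∧ g.1 y = y' := by
  obtain ⟨j, hj, h1, h2⟩ := (tau_iff y _).1 ⟨hy, rfl⟩
  obtain ⟨j', hj', h1', h2'⟩ := (tau_iff y' _).1 ⟨hy', rfl⟩
  rw [← hd] at h2'
  have hnj : ∀ {i : Fin 552} {z : LL}, R.vec i = -leechV - z → z ≠ x0 → i.val ≠ 46 := by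
    intro i z hi hz h46
    apply hz
    have h3 : i = ⟨46, by norm_num⟩ := Fin.ext h46
    rw [h3] at hi
    have h4 : -leechV - (R.vec ⟨46, by norm_num⟩) = -leechV - (-leechV - z) := by rw [hi]
    rw [tau_tau] at h4
    exact h4.symm
  have hn1 := hnj hj hne
  have hn2 := hnj hj' hne'
  have key : ∃ g : ↥Spor.Co3, R.rep g ∈ hh.K 9 ∧ g.1 (R.vec j) = R.vec j' := by
    have hv := (allBelow_iff _ _).1 cval j j.isLt
    rw [show decide (dotZ tab j 529 = 8) = true from decide_eq_true h1, bcond_true] at hv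
    have hj46 : Nat.beq (j : ℕ) 46 = false := by
      rw [Bool.eq_false_iff]
      exact fun h => hn1 (Nat.eq_of_beq_eq_true h)
    have hj46' : Nat.beq (j' : ℕ) 46 = false := by
      rw [Bool.eq_false_iff]
      exact fun h => hn2 (Nat.eq_of_beq_eq_true h)
    rw [hj46, Bool.or_false, Bool.or_eq_true] at hv
    rcases hv with hv | hv
    · have h8 : dotZ tab j 46 = 8 := by
        unfold P8x at hv
        rw [Bool.and_eq_true] at hv
        exact of_decide_eq_true hv.2
      have hv' : P8x j' = true := by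
        unfold P8x
        rw [Bool.and_eq_true]
        exact ⟨decide_eq_true h1', decide_eq_true (h2'.trans (h2.symm.trans h8))⟩
      have d1 := (allBelow_iff _ _).1 cL2 j j.isLt
      have d2 := (allBelow_iff _ _).1 cL2 j' j'.isLt
      rw [hv, bcond_true] at d1
      rw [hv', bcond_true] at d2
      exact TabUse.trans_of_level R K9_le lev2 d1 d2
    · have h8 : dotZ tab j 46 = 16 := by
        unfold P16x at hv
        rw [Bool.and_eq_true, Bool.and_eq_true] at hv
        exact of_decide_eq_true hv.1.2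
      have hv' : P16x j' = true := by
        unfold P16x
        rw [Bool.and_eq_true, Bool.and_eq_true]
        refine ⟨⟨decide_eq_true h1', decide_eq_true (h2'.trans (h2.symm.trans h8))⟩, ?_⟩
        rw [hj46']
        rfl
      have d1 := (allBelow_iff _ _).1 cLb j j.isLt
      have d2 := (allBelow_iff _ _).1 cLb j' j'.isLt
      rw [hv, bcond_true] at d1
      rw [hv', bcond_true] at d2
      exact TabUse.trans_of_treeOK R K9_le gensB treeB d1 d2
  obtain ⟨g, hg, e⟩ := key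
  refine ⟨g, hg, ?_⟩
  rw [hj, hj'] at e
  have h3 := map_sub_Co0 g.2.1 (-leechV) y
  rw [e, fix_V] at h3
  exact sub_right_injective h3.symm

/-- The numbers of points in the orbits. -/
theorem ncard_Y8 : {y : LL | y ∈ XM (-leechV) leechU ∧ dotInt x0.1 y.1 = 8}.ncard = 112 := by
  have e : (fun y : LL => -leechV - y) '' {y : LL | y ∈ XM (-leechV) leechU ∧ dotInt x0.1 y.1 = 8} = R.vec '' {i : Fin 552 | P8x i = true} := by
    ext a
    constructor
    · rintro ⟨y, hy, rfl⟩
      obtain ⟨j, hj, h1, h2⟩ := (tau_iff y 8).1 hy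
      refine ⟨j, ?_, hj⟩
      show P8x j = true
      unfold P8x
      rw [Bool.and_eq_true]
      exact ⟨decide_eq_true h1, decide_eq_true h2⟩
    · rintro ⟨j, hj, rfl⟩
      have hj' : P8x j = true := hj
      unfold P8x at hj'
      rw [Bool.and_eq_true] at hj'
      refine ⟨-leechV - R.vec j, (tau_iff _ 8).2 ⟨j, (tau_tau _).symm, of_decide_eq_true hj'.1, of_decide_eq_true hj'.2⟩, tau_tau _⟩
  have h1 := congrArg Set.ncard e
  rw [Set.ncard_image_of_injective _ sub_right_injective, TabUse.ncard_filter] at h1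
  rw [h1]
  exact count8x

theorem ncard_Y16 : {y : LL | y ∈ XM (-leechV) leechU ∧ y ≠ x0 ∧ dotInt x0.1 y.1 = 16}.ncard = 162 := by
  have e : (fun y : LL => -leechV - y) '' {y : LL | y ∈ XM (-leechV) leechU ∧ y ≠ x0 ∧ dotInt x0.1 y.1 = 16} = R.vec '' {i : Fin 552 | P16x i = true} := by
    ext a
    constructor
    · rintro ⟨y, ⟨hy1, hy2, hy3⟩, rfl⟩
      obtain ⟨j, hj, h1, h2⟩ := (tau_iff y 16).1 ⟨hy1, hy3⟩
      refine ⟨j, ?_, hj⟩
      show P16x j = true
      unfold P16x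
      rw [Bool.and_eq_true, Bool.and_eq_true]
      refine ⟨⟨decide_eq_true h1, decide_eq_true h2⟩, ?_⟩
      have h46 : Nat.beq (j : ℕ) 46 = false := by
        rw [Bool.eq_false_iff]
        intro h
        apply hy2
        have h3 : j = ⟨46, by norm_num⟩ := Fin.ext (Nat.eq_of_beq_eq_true h)
        rw [h3] at hj
        have h4 : -leechV - (R.vec ⟨46, by norm_num⟩) = -leechV - (-leechV - y) := by rw [hj]
        rw [tau_tau] at h4
        exact h4.symm
      rw [h46]
      rfl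
    · rintro ⟨j, hj, rfl⟩
      have hj' : P16x j = true := hj
      unfold P16x at hj'
      rw [Bool.and_eq_true, Bool.and_eq_true] at hj'
      have h1 := (tau_iff (-leechV - R.vec j) 16).2 ⟨j, (tau_tau _).symm, of_decide_eq_true hj'.1.1, of_decide_eq_true hj'.1.2⟩
      refine ⟨-leechV - R.vec j, ⟨h1.1, ?_, h1.2⟩, tau_tau _⟩
      intro h2
      have h3 : R.vec j = a0 := sub_right_injective h2
      have h4 : j = ⟨46, by norm_num⟩ := R.vec_inj h3
      have h5 := hj'.2
      rw [h4] at h5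
      exact absurd (h5.symm.trans (rfl : (!Nat.beq 46 46) = false)) (by decide)
  have h1 := congrArg Set.ncard e
  rw [Set.ncard_image_of_injective _ sub_right_injective, TabUse.ncard_filter] at h1
  rw [h1]
  exact count16x

/-- The statement on the rank three action. -/
theorem S1581_aux (u v x : LL) (hu : sqNorm u.1 = 48) (hv : sqNorm v.1 = 32 ∧ sqNorm (u - v : LL).1 = 32) (hx : x ∈ XM u v) :
    {y : LL | y ∈ XM u v ∧ dotInt x.1 y.1 = 8}.ncard = 112 ∧ {y : LL | y ∈ XM u v ∧ y ≠ x ∧ dotInt x.1 y.1 = 16}.ncard = 162 ∧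
      ∀ y ∈ XM u v, ∀ y' ∈ XM u v, y ≠ x → y' ≠ x → dotInt x.1 y.1 = dotInt x.1 y'.1 →
        ∃ g ∈ Co0, g u = u ∧ g v = v ∧ g x = x ∧ g y = y' := by
  obtain ⟨h₀, hh₀, e₁', e₂'⟩ := orb_pair u v hu hv.1 (dot_of_PS hu hv.1 hv.2)
  have himg₀ := XM_image hh₀ u v
  rw [e₁', e₂'] at himg₀
  have h1 : h₀ x ∈ XM (-leechV) leechU := by
    rw [← himg₀]
    exact ⟨x, hx, rfl⟩
  obtain ⟨g₁, hg₁, e₃⟩ := trans_XM0 h1 x0_mem
  set h := g₁.1 * h₀ with hh_def
  have hh' : h ∈ Co0 := mul_mem g₁.2.1 hh₀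
  have e₁ : h u = -leechV := by
    rw [hh_def, Equiv.Perm.mul_apply, e₁', fix_V]
  have e₂ : h v = leechU := by
    rw [hh_def, Equiv.Perm.mul_apply, e₂', fix_U hg₁]
  have e₃' : h x = x0 := e₃
  have himg := XM_image hh' u v
  rw [e₁, e₂] at himg
  have hmem : ∀ y ∈ XM u v, h y ∈ XM (-leechV) leechU := fun y hy => by
    rw [← himg]
    exact ⟨y, hy, rfl⟩
  refine ⟨?_, ?_, ?_⟩
  · rw [← ncard_Y8, ← Set.ncard_image_of_injective _ h.injective]
    congr 1
    ext y
    constructor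
    · rintro ⟨w, ⟨h2, h3⟩, rfl⟩
      refine ⟨hmem w h2, ?_⟩
      rw [← e₃', dot_inv hh']
      exact h3
    · rintro ⟨h2, h3⟩
      rw [← himg] at h2
      obtain ⟨w, hw, rfl⟩ := h2
      refine ⟨w, ⟨hw, ?_⟩, rfl⟩
      rw [← e₃', dot_inv hh'] at h3
      exact h3
  · rw [← ncard_Y16, ← Set.ncard_image_of_injective _ h.injective]
    congr 1
    ext y
    constructor
    · rintro ⟨w, ⟨h2, h3, h4⟩, rfl⟩
      refine ⟨hmem w h2, ?_, ?_⟩
      · rw [← e₃']
        exact fun h5 => h3 (h.injective h5)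
      · rw [← e₃', dot_inv hh']
        exact h4
    · rintro ⟨h2, h3, h4⟩
      rw [← himg] at h2
      obtain ⟨w, hw, rfl⟩ := h2
      refine ⟨w, ⟨hw, ?_, ?_⟩, rfl⟩
      · rintro rfl
        exact h3 e₃'
      · rw [← e₃', dot_inv hh'] at h4
        exact h4
  · intro y hy y' hy' hne hne' hd
    have hne1 : h y ≠ x0 := by
      rw [← e₃']
      exact fun h5 => hne (h.injective h5)
    have hne2 : h y' ≠ x0 := by
      rw [← e₃']
      exact fun h5 => hne' (h.injective h5)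
    have hd' : dotInt x0.1 (h y).1 = dotInt x0.1 (h y').1 := by
      rw [← e₃', dot_inv hh', dot_inv hh', hd]
    obtain ⟨g, hg, e⟩ := trans_rank3 (hmem y hy) (hmem y' hy') hne1 hne2 hd'
    refine ⟨h⁻¹ * g.1 * h, mul_mem (mul_mem (inv_mem hh') g.2.1) hh', ?_, ?_, ?_, ?_⟩
    · simp only [Equiv.Perm.mul_apply]
      rw [e₁, fix_V, ← e₁]
      simp
    · simp only [Equiv.Perm.mul_apply]
      rw [e₂, fix_U (lev1.le hg), ← e₂]
      simp
    · simp only [Equiv.Perm.mul_apply]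
      rw [e₃', fix_x0 hg, ← e₃']
      simp
    · simp only [Equiv.Perm.mul_apply]
      rw [e]
      simp

end C3

end Cfsg.Agent.Lib.Conway
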