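import Cfsg.Agent.Lib.Conway.MaxData

/-!
# The monomial group is a maximal subgroup of the automorphism group of the lattice
-/

set_option autoImplicit false

namespace Cfsg.Agent.Lib.Conway

open Cfsg Cfsg.Spor Cfsg.Agent.Lib.Compute Cfsg.Agent.Lib.Golay Cfsg.Agent.Lib.M24
open Cfsg.Agent.Lib.KnownSimple.Leech

section

variable {K : Subgroup (Equiv.Perm LL)} (hNK : NC ≤ K) (hK : K ≤ Co0)
include hNK hK

theorem xiE_mem_of (h : XX K rF4) : xiE ∈ K := by
  have h1 := xi_base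
  simp only [Bool.and_eq_true] at h1
  have e : xiE rE8 = repL Py0 h1.1 := mat_apply (S := matXI) (by decide +kernel) xiE_act rfl rfl xi_base_v
  have h2 := NOrb_of_cert (x := repL Py0 h1.1) (y := rF4) rfl rfl h1.2
  apply K_of_XX hNK xiE_mem hK
  rw [← rE8_eq, e]
  exact XX_n hNK h h2.symm

theorem F4_of_H0 (h : XX K rH0) : XX K rF4 := edge_mat hNK hK matH0_chk linkH0_v edH0F4H0 rfl rfl h
theorem H0_of_O6 (h : XX K rO6) : XX K rH0 := edge_mat hNK hK matO6_chk linkO6_v edO6H0O6 rfl rfl h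
theorem O6_of_P35 (h : XX K rP35) : XX K rO6 := edge_mat hNK hK matP35_chk linkP35_v edP35O6P35 rfl rfl h
theorem P35_of_O44 (h : XX K rO44) : XX K rP35 := edge_mat hNK hK matO44_chk linkO44_v edO44P35O44 rfl rfl h
theorem P35_of_D4 (h : XX K rD4) : XX K rP35 := edge_mat hNK hK matD4_chk linkD4_v edD4P35D4 rfl rfl h
theorem P35_of_H1 (h : XX K rH1) : XX K rP35 := edge_mat hNK hK matH1_chk linkH1_v edH1P35H1 rfl rfl h
theorem P35_of_P53 (h : XX K rP53) : XX K rP35 := edge_mat hNK hK matP53_chk linkP53_v edP53P35P53 rfl rfl h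

theorem F4_of_P35 (h : XX K rP35) : XX K rF4 := F4_of_H0 hNK hK (H0_of_O6 hNK hK (O6_of_P35 hNK hK h))

theorem xi_step {Pa P1 p1 k1 P2 p2 k2 Pb : ℕ} (hxi : xiE ∈ K) (h : edgeChk Pa P1 p1 k1 P2 p2 k2 Pb matXI = true) {ra rb : LL}
    (hra : ra.1 = ofF (vP Pa)) (hrb : rb.1 = ofF (vP Pb)) (hX : XX K ra) : XX K rb :=
  edge_elt hNK (by decide +kernel) hxi xiE_act h hra hrb hX

/-- Once the image of `8 e_∞` under the basic automorphism is reached, all vectors are. -/
theorem all_of_F4 (h : XX K rF4) (x : LL) (hx : sqNorm x.1 = 64) : XX K x := by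
  have hxi := xiE_mem_of hNK hK h
  have hO44 : XX K rO44 := xi_step hNK hK hxi edF4O44XI rfl rfl h
  have hH1 : XX K rH1 := xi_step hNK hK hxi edF4H1XI rfl rfl h
  have hH0 : XX K rH0 := xi_step hNK hK hxi edF4H0XI rfl rfl h
  have hO6 : XX K rO6 := xi_step hNK hK hxi edF4O6XI rfl rfl h
  have hP35 : XX K rP35 := xi_step hNK hK hxi edO44P35XI rfl rfl hO44
  have hP53 : XX K rP53 := xi_step hNK hK hxi edO44P53XI rfl rfl hO44
  have hD4 : XX K rD4 := xi_step hNK hK hxi edO44D4XI rfl rfl hO44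
  have hE8 : XX K rE8 := by
    rw [rE8_eq]
    exact ⟨1, one_mem _, rfl⟩
  rcases nf64 x hx with h1 | h1 | h1 | h1 | h1 | h1 | h1 | h1 | h1
  · exact XX_n hNK hE8 h1.symm
  · exact XX_n hNK h h1.symm
  · exact XX_n hNK hO6 h1.symm
  · exact XX_n hNK hO44 h1.symm
  · exact XX_n hNK hD4 h1.symm
  · exact XX_n hNK hH0 h1.symm
  · exact XX_n hNK hH1 h1.symm
  · exact XX_n hNK hP35 h1.symm
  · exact XX_n hNK hP53 h1.symm

/-- Subgroups properly containing the monomial group are everything. -/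
theorem eq_top_of_ne {h : Equiv.Perm LL} (hh : h ∈ K) (hn : h ∉ NC) : Co0 ≤ K := by
  have hx : XX K (h (E8 none)) := ⟨h, hh, rfl⟩
  have hnorm : sqNorm ((h (E8 none) : LL) : Vec) = 64 := by
    rw [(hK hh).2]
    exact sqNorm_e8 none
  have hF4 : XX K rF4 := by
    rcases nf64 _ hnorm with h1 | h1 | h1 | h1 | h1 | h1 | h1 | h1 | h1
    · exfalso
      apply hn
      obtain ⟨n, hnN, e⟩ := h1
      rw [rE8_eq] at e
      have h2 : n * h ∈ NC := mem_NC_of_fix (mul_mem hnN.1 (hK hh)) (c := none) e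
      have h3 := mul_mem (inv_mem hnN) h2
      simpa using h3
    · exact XX_n hNK hx h1
    · exact F4_of_H0 hNK hK (H0_of_O6 hNK hK (XX_n hNK hx h1))
    · exact F4_of_P35 hNK hK (P35_of_O44 hNK hK (XX_n hNK hx h1))
    · exact F4_of_P35 hNK hK (P35_of_D4 hNK hK (XX_n hNK hx h1))
    · exact F4_of_H0 hNK hK (XX_n hNK hx h1)
    · exact F4_of_P35 hNK hK (P35_of_H1 hNK hK (XX_n hNK hx h1))
    · exact F4_of_P35 hNK hK (XX_n hNK hx h1)
    · exact F4_of_P35 hNK hK (P35_of_P53 hNK hK (XX_n hNK hx h1))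
  intro g hg
  apply K_of_XX hNK hg hK
  apply all_of_F4 hNK hK hF4
  rw [hg.2]
  exact sqNorm_e8 none

end

/-- The monomial group as a subgroup of the automorphism group. -/
def NCo : Subgroup ↥Co0 := NC.subgroupOf Co0

theorem mem_NCo {g : ↥Co0} : g ∈ NCo ↔ g.1 ∈ NC := Subgroup.mem_subgroupOf

theorem NC_le_Co0 : NC ≤ Co0 := fun _ h => h.1

theorem rF4_not_cross {g : Equiv.Perm LL} (hg : g ∈ Co0) (e : g (E8 none) = rF4) : g ∉ NC := by
  intro h
  obtain ⟨d, s, _, e1⟩ := h.2 none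
  rw [e] at e1
  have h1 : ofF (vP PF4) = s • e8 d := e1
  have h2 : ∀ a b : GolayPt, a ≠ b → ofF (vP PF4) a ≠ 0 → ofF (vP PF4) b ≠ 0 → False := by
    intro a b hab ha hb
    rw [h1, smul_e8_apply] at ha hb
    by_cases h3 : a = d
    · by_cases h4 : b = d
      · exact hab (h3.trans h4.symm)
      · rw [if_neg h4] at hb
        exact hb rfl
    · rw [if_neg h3] at ha
      exact ha rfl
  refine h2 (pt 0) (pt 1) (by decide) ?_ ?_
  · rw [ofF_pt _ (by norm_num)]
    decide +kernel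
  · rw [ofF_pt _ (by norm_num)]
    decide +kernel

theorem sqNorm_rF4 : sqNorm rF4.1 = 64 := by
  have h : sqNorm rF4.1 = sumN (fun j => vP PF4 j ^ 2) 24 := by
    unfold sqNorm
    rw [sum_eq, sumN_eq]
    refine Finset.sum_congr rfl fun j hj => ?_
    show (vP PF4 (idx (pt j))) ^ 2 = _
    rw [idx_pt (Finset.mem_range.1 hj)]
  rw [h]
  decide +kernel

theorem exists_not_NC : ∃ g ∈ Co0, g ∉ NC := by
  obtain ⟨g, hg, e⟩ := (orb64 rF4 sqNorm_rF4).symm
  exact ⟨g, hg, rF4_not_cross hg e⟩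

/-- The monomial group is maximal in the automorphism group. -/
theorem NCo_coatom : IsCoatom NCo := by
  constructor
  · intro h
    obtain ⟨g, hg, hn⟩ := exists_not_NC
    apply hn
    have h1 : (⟨g, hg⟩ : ↥Co0) ∈ NCo := by rw [h]; trivial
    exact mem_NCo.1 h1
  · intro K hK
    obtain ⟨h, hh, hn⟩ := SetLike.exists_of_lt hK
    have hle : NC ≤ K.map Co0.subtype := by
      intro n hnN
      exact ⟨⟨n, hnN.1⟩, hK.le (mem_NCo.2 hnN), rfl⟩
    have hKc : K.map Co0.subtype ≤ Co0 := by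
      rintro _ ⟨k, _, rfl⟩
      exact k.2
    have h1 := eq_top_of_ne hle hKc (h := h.1) ⟨h, hh, rfl⟩ (fun h2 => hn (mem_NCo.2 h2))
    rw [eq_top_iff]
    intro g _
    obtain ⟨k, hk, e⟩ := h1 g.2
    have : k = g := Subtype.ext e
    rwa [← this]

end Cfsg.Agent.Lib.Conway
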