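import Cfsg.Agent.Lib.Conway.Order

/-!
# Maximality of the monomial group: steps
-/

set_option autoImplicit false

namespace Cfsg.Agent.Lib.Conway

open Cfsg Cfsg.Spor Cfsg.Agent.Lib.Compute Cfsg.Agent.Lib.Golay Cfsg.Agent.Lib.M24
open Cfsg.Agent.Lib.KnownSimple.Leech

/-- The orbit of `8 e_∞` under a subgroup. -/
def XX (K : Subgroup (Equiv.Perm LL)) (y : LL) : Prop := ∃ k ∈ K, k (E8 none) = y

section

variable {K : Subgroup (Equiv.Perm LL)}

theorem XX_n (hNK : NC ≤ K) {y y' : LL} (h : XX K y) (hn : NOrb y y') : XX K y' := by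
  obtain ⟨k, hk, e⟩ := h
  obtain ⟨n, hn, e'⟩ := hn
  exact ⟨n * k, mul_mem (hNK hn) hk, by rw [Equiv.Perm.mul_apply, e, e']⟩

theorem XX_elt {y : LL} (h : XX K y) {g : Equiv.Perm LL} (hg : g ∈ K) : XX K (g y) := by
  obtain ⟨k, hk, e⟩ := h
  exact ⟨g * k, mul_mem hg hk, by rw [Equiv.Perm.mul_apply, e]⟩

theorem K_of_XX (hNK : NC ≤ K) {g : Equiv.Perm LL} (hg : g ∈ Co0) (hK : K ≤ Co0) (h : XX K (g (E8 none))) : g ∈ K := by
  obtain ⟨k, hk, e⟩ := h
  have h1 : k⁻¹ * g ∈ NC := by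
    apply mem_NC_of_fix (mul_mem (inv_mem (hK hk)) hg) (c := none)
    rw [Equiv.Perm.mul_apply, ← e]
    simp
  have h2 := mul_mem hk (hNK h1)
  simpa using h2

end

/-! ### Monomial elements from digits -/

/-- The check that a monomial element moves one vector to another. -/
noncomputable def nCert (P Q p k : ℕ) : Bool :=
  vld p && allBelow (fun j => decide (vP Q (pc p j) = bcond ((word k).testBit (pc p j)) (-(vP P j)) (vP P j))) 24

theorem NOrb_of_cert {x y : LL} {P Q p k : ℕ} (hx : x.1 = ofF (vP P)) (hy : y.1 = ofF (vP Q)) (h : nCert P Q p k = true) :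
    NOrb x y := by
  unfold nCert at h
  simp only [Bool.and_eq_true] at h
  obtain ⟨hv, hall⟩ := h
  refine ⟨monoE (gOf hv) (enc.finOf (word k)) (finOf_word_mem k), monoE_mem_NC _ _ _, Subtype.ext ?_⟩
  rw [monoE_apply]
  funext a
  set σ := (gOf hv).1 with hσ
  have hσp : σ = ppm p := rfl
  set j := idx (σ.symm a) with hj
  have hj24 : j < 24 := idx_lt _
  have e1 : σ.symm a = pt j := by rw [hj, pt_idx]
  have e2 : a = pt (pc p j) := by
    have h1 := code_pt (vld_code hv) hj24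
    rw [← h1, ← hσp, ← e1]
    simp
  have e3 : pc p j < 24 := code_lt (vld_code hv) hj24
  have e4 : idx a = pc p j := by
    rw [e2]
    exact idx_pt e3
  have h5 := of_decide_eq_true ((allBelow_iff _ _).1 hall j hj24)
  unfold signedPerm
  rw [hy, hx]
  show (if a ∈ (enc.finOf (word k) : Finset GolayPt) then -vP P (idx (σ.symm a)) else vP P (idx (σ.symm a))) = vP Q (idx a)
  rw [e4, h5, ← hj]
  have hm : a ∈ (enc.finOf (word k) : Finset GolayPt) ↔ (word k).testBit (pc p j) = true := by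
    rw [enc.mem_finOf, ← e4]
    rfl
  by_cases h6 : (word k).testBit (pc p j) = true
  · rw [if_pos (hm.2 h6), h6]
    rfl
  · rw [if_neg (fun h7 => h6 (hm.1 h7))]
    simp only [Bool.not_eq_true] at h6
    rw [h6]
    rfl

/-! ### A step -/

/-- The checks on a step. -/
noncomputable def edgeChk (Pa P1 p1 k1 P2 p2 k2 Pb : ℕ) (S : List (List (ℕ × ℤ))) : Bool :=
  chkL (vP P1) && chkL (vP P2) && nCert Pa P1 p1 k1 && nCert P2 Pb p2 k2 &&
    allBelow (fun j => decide (dotS (rowOf S j) (vP P2) = 8 * vP P1 j)) 24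

/-- A step given an element of the subgroup with a matrix. -/
theorem edge_elt {K : Subgroup (Equiv.Perm LL)} (hNK : NC ≤ K) {S : List (List (ℕ × ℤ))} (hc : S.all colsOK = true)
    {f : Equiv.Perm LL} (hf : f ∈ K) (hact : ∀ (x : LL) (j : ℕ), j < 24 → dotS (rowOf S j) (toF x) = 8 * ((f x : LL) : Vec) (pt j))
    {Pa P1 p1 k1 P2 p2 k2 Pb : ℕ} (h : edgeChk Pa P1 p1 k1 P2 p2 k2 Pb S = true) {ra rb : LL}
    (hra : ra.1 = ofF (vP Pa)) (hrb : rb.1 = ofF (vP Pb)) (hX : XX K ra) : XX K rb := by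
  unfold edgeChk at h
  simp only [Bool.and_eq_true] at h
  obtain ⟨⟨⟨⟨h1, h2⟩, h3⟩, h4⟩, h5⟩ := h
  have hy1 := NOrb_of_cert (x := ra) (y := repL P1 h1) hra rfl h3
  have hy2 := NOrb_of_cert (x := repL P2 h2) (y := rb) rfl hrb h4
  have e : f (repL P2 h2) = repL P1 h1 := mat_apply hc hact rfl rfl h5
  have hX1 := XX_n hNK hX hy1
  have hX2 : XX K (repL P2 h2) := by
    have h6 := XX_elt hX1 (inv_mem hf)
    have h7 : f⁻¹ (repL P1 h1) = repL P2 h2 := by
      rw [← e]
      simp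
    rwa [h7] at h6
  exact XX_n hNK hX2 hy2

/-- A step with the element attached to a representative of the orbit of `8 e_∞`. -/
theorem edge_mat {K : Subgroup (Equiv.Perm LL)} (hNK : NC ≤ K) (hK : K ≤ Co0) {S S' : List (List (ℕ × ℤ))} (hS : chkElt S S' = true)
    {Pa P1 p1 k1 P2 p2 k2 Pb : ℕ} (hlink : allBelow (fun j => decide (dotS (rowOf S j) (vP Pa) = 8 * vP PE8 j)) 24 = true)
    (h : edgeChk Pa P1 p1 k1 P2 p2 k2 Pb S = true) {ra rb : LL}
    (hra : ra.1 = ofF (vP Pa)) (hrb : rb.1 = ofF (vP Pb)) (hX : XX K ra) : XX K rb := by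
  obtain ⟨f, hf, hact⟩ := exists_elt hS
  have e : f ra = rE8 := mat_apply (cols_of_chkElt hS) hact hra rfl hlink
  have hf' : f ∈ K := by
    rw [← inv_mem_iff]
    apply K_of_XX hNK (inv_mem hf) hK
    have : f⁻¹ (E8 none) = ra := by
      rw [← rE8_eq, ← e]
      simp
    rwa [this]
  exact edge_elt hNK (cols_of_chkElt hS) hf' hact h hra hrb hX

end Cfsg.Agent.Lib.Conway
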