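import Cfsg.Agent.Lib.KnownSimple.Leech.McL.Main
import Cfsg.Agent.Lib.Conway.Co3Use2

/-!
# The McLaughlin group acting on 2025 vectors
-/

set_option autoImplicit false

namespace Cfsg.Agent.Lib.Conway

open Cfsg Cfsg.Spor Cfsg.Agent.Lib.Compute Cfsg.Agent.Lib.Golay
open Cfsg.Agent.Lib.KnownSimple Cfsg.Agent.Lib.KnownSimple.PE Cfsg.Agent.Lib.KnownSimple.Leech
open Cfsg.Agent.Lib.KnownSimple.Leech.McL (hh L0 L1 top lev1 tab cK ciK)

/-- Orbits from invariance and transitivity. -/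
theorem orbit_eq_of {A : Subgroup ↥Co0} {y : LL} {Y : Set LL} (hy : y ∈ Y) (h1 : ∀ a ∈ A, ∀ z ∈ Y, a • z ∈ Y)
    (h2 : ∀ z ∈ Y, ∃ a ∈ A, a • y = z) : MulAction.orbit ↥A y = Y := by
  ext z
  constructor
  · rintro ⟨⟨a, ha⟩, rfl⟩
    exact h1 a ha y hy
  · intro hz
    obtain ⟨a, ha, e⟩ := h2 z hz
    exact ⟨⟨a, ha⟩, e⟩

namespace ML

/-- The table. -/
noncomputable abbrev R : LRep Spor.McL 2025 := Cfsg.Agent.Lib.KnownSimple.Leech.McL.R

theorem tests_iff (x : LL) : testsOK R.tests (toF x.1) = true ↔ dotInt x.1 leechU.1 = 0 ∧ dotInt x.1 leechV.1 = -16 := by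
  rw [testsOK_iff]
  have m1 : ((rowU, 0) : List (ℕ × ℤ) × ℤ) ∈ R.tests := by
    simp [R, Cfsg.Agent.Lib.KnownSimple.Leech.McL.R, Cfsg.Agent.Lib.KnownSimple.Leech.McL.tests]
  have m2 : ((rowV, -16) : List (ℕ × ℤ) × ℤ) ∈ R.tests := by
    simp [R, Cfsg.Agent.Lib.KnownSimple.Leech.McL.R, Cfsg.Agent.Lib.KnownSimple.Leech.McL.tests]
  have h1 : dotS rowU (toF x.1) = dotInt x.1 leechU.1 := LRep.dotS_toF (R.hcols _ m1) rowU_pt x
  have h2 : dotS rowV (toF x.1) = dotInt x.1 leechV.1 := LRep.dotS_toF (R.hcols _ m2) rowV_pt x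
  constructor
  · intro h
    exact ⟨by rw [← h1]; exact h _ m1, by rw [← h2]; exact h _ m2⟩
  · rintro ⟨h3, h4⟩ t ht
    simp only [R, Cfsg.Agent.Lib.KnownSimple.Leech.McL.R, Cfsg.Agent.Lib.KnownSimple.Leech.McL.tests, List.mem_cons,
      List.not_mem_nil, or_false] at ht
    rcases ht with rfl | rfl
    · show dotS rowU (toF x.1) = 0
      rw [h1, h3]
    · show dotS rowV (toF x.1) = -16
      rw [h2, h4]

/-- The vectors of the configuration. -/
def XC (v w : LL) : Set LL := {x | sqNorm x.1 = 32 ∧ dotInt v.1 x.1 = 0 ∧ dotInt w.1 x.1 = 16}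

theorem XC_image {g : Equiv.Perm LL} (hg : g ∈ Co0) (v w : LL) : g '' XC v w = XC (g v) (g w) := by
  ext y
  constructor
  · rintro ⟨z, ⟨h1, h2, h3⟩, rfl⟩
    exact ⟨(hg.2 z).trans h1, by rw [dot_inv hg]; exact h2, by rw [dot_inv hg]; exact h3⟩
  · rintro ⟨h1, h2, h3⟩
    refine ⟨g⁻¹ y, ⟨((inv_mem hg).2 y).trans h1, ?_, ?_⟩, by simp⟩
    · have h4 := dot_inv (inv_mem hg) (g v) y
      rw [show g⁻¹ (g v) = v by simp] at h4
      rw [h4]
      exact h2
    · have h4 := dot_inv (inv_mem hg) (g w) y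
      rw [show g⁻¹ (g w) = w by simp] at h4
      rw [h4]
      exact h3

/-- The base point of the second vector. -/
noncomputable abbrev w0 : LL := -leechV - leechU

theorem XC_base : XC leechU w0 = Set.range R.vec := by
  rw [TabUse.range_vec]
  ext x
  constructor
  · rintro ⟨h1, h2, h3⟩
    refine ⟨h1, (tests_iff x).2 ⟨by rw [dotInt_comm]; exact h2, ?_⟩⟩
    have h4 : dotInt w0.1 x.1 = -dotInt leechV.1 x.1 - dotInt leechU.1 x.1 := by
      rw [coe_sub, coe_neg, dotInt_sub_left, dotInt_neg_left]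
    rw [h4, h2] at h3
    rw [dotInt_comm]
    omega
  · rintro ⟨h1, h2⟩
    obtain ⟨h3, h4⟩ := (tests_iff x).1 h2
    refine ⟨h1, by rw [dotInt_comm]; exact h3, ?_⟩
    rw [coe_sub, coe_neg, dotInt_sub_left, dotInt_neg_left, dotInt_comm leechV.1, dotInt_comm leechU.1, h3, h4]
    norm_num

theorem ncard_XC_base : (XC leechU w0).ncard = 2025 := by
  rw [XC_base, TabUse.ncard_range]

theorem U'_eq : R.vec ⟨2024, by norm_num⟩ = leechU' := R.vec_eq (by norm_num) rowU'_pt (by decide +kernel)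

theorem full0 : allBelow (tb L0.D) 2025 = true := by decide +kernel

theorem fix_U (g : ↥Spor.McL) : g.1 leechU = leechU := g.2.2
theorem fix_V (g : ↥Spor.McL) : g.1 leechV = leechV := g.2.1.2
theorem mem_Co0 (g : ↥Spor.McL) : g.1 ∈ Co0 := g.2.1.1

theorem fix_w0 (g : ↥Spor.McL) : g.1 w0 = w0 := by
  rw [map_sub_Co0 (mem_Co0 g), map_neg_Co0 (mem_Co0 g), fix_U, fix_V]

/-- Transitivity of the group on the table. -/
theorem trans_XC {x x' : LL} (hx : x ∈ XC leechU w0) (hx' : x' ∈ XC leechU w0) : ∃ g : ↥Spor.McL, g.1 x = x' := by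
  rw [XC_base] at hx hx'
  obtain ⟨i, rfl⟩ := hx
  obtain ⟨j, rfl⟩ := hx'
  obtain ⟨g, _, e⟩ := TabUse.trans_of_level R (le_refl _) top.2
    ((allBelow_iff _ _).1 full0 i i.isLt) ((allBelow_iff _ _).1 full0 j j.isLt)
  exact ⟨g, e⟩

theorem K_le : hh.K 9 ≤ R.rep.range := hh.K_le (by norm_num)

theorem fix_U' {g : ↥Spor.McL} (hg : R.rep g ∈ hh.K 9) : g.1 leechU' = leechU' := by
  have h1 := TabUse.vec_fix R (b := 2024) (by norm_num) (g := g) (top.2.fixK _ hg)
  rwa [U'_eq] at h1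

/-! ### Orbits of the point stabiliser -/

/-- A tree of an orbit. -/
noncomputable def La : Lev :=
  { b := 1562, D := TreeData.D_MLa, arr := TreeData.A_MLa, w := 18, m := 262143, mp := 2047, bn := 11, mg := 15, bd := 15,
    fs := Cfsg.Agent.Lib.KnownSimple.Leech.bc cK 9, gs := Cfsg.Agent.Lib.KnownSimple.Leech.bc ciK 9 }

/-- A tree of an orbit. -/
noncomputable def Lb : Lev :=
  { b := 330, D := TreeData.D_MLb, arr := TreeData.A_MLb, w := 18, m := 262143, mp := 2047, bn := 11, mg := 15, bd := 15,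
    fs := Cfsg.Agent.Lib.KnownSimple.Leech.bc cK 9, gs := Cfsg.Agent.Lib.KnownSimple.Leech.bc ciK 9 }

theorem treeA : La.treeOK 2025 = true := by decide +kernel
theorem treeB : Lb.treeOK 2025 = true := by decide +kernel
theorem gensA : GensIn (encFin 2025) (hh.K 9) La := hh.gens (by norm_num) rfl rfl
theorem gensB : GensIn (encFin 2025) (hh.K 9) Lb := hh.gens (by norm_num) rfl rfl

/-- The predicate. -/
noncomputable def Pd (d : ℤ) (i : ℕ) : Bool := decide (dotZ tab i 2024 = d)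

theorem cnt0 : countBelow (Pd 0) 2025 = 330 := by decide +kernel
theorem cnt16 : countBelow (Pd 16) 2025 = 462 := by decide +kernel
theorem cnt8 : countBelow (Pd 8) 2025 = 1232 := by decide +kernel
theorem chk0 : allBelow (fun j => bcond (Pd 0 j) (tb L1.D j) true) 2025 = true := by decide +kernel
theorem chkA : allBelow (fun j => bcond (Pd 16 j) (tb La.D j) true) 2025 = true := by decide +kernel
theorem chkB : allBelow (fun j => bcond (Pd 8 j) (tb Lb.D j) true) 2025 = true := by decide +kernel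

/-- The vector with a given scalar product with the base point. -/
theorem mem_Pd {d : ℤ} {D : ℕ → Bool} (h : allBelow (fun j => bcond (Pd d j) (D j) true) 2025 = true) {j : Fin 2025}
    (hj : dotZ tab j 2024 = d) : D j = true := by
  have h1 := (allBelow_iff _ _).1 h j j.isLt
  rwa [show Pd d j = true from decide_eq_true hj, bcond_true] at h1

theorem dot_U'_vec (i : Fin 2025) : dotInt leechU'.1 (R.vec i).1 = dotZ tab i 2024 := by
  rw [dotInt_comm, ← U'_eq, TabUse.vec_dot]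
  rfl

theorem exists_rep {d : ℤ} (h : 0 < countBelow (Pd d) 2025) : ∃ y ∈ XC leechU w0, dotInt leechU'.1 y.1 = d := by
  rw [countBelow_eq, Finset.card_pos] at h
  obtain ⟨i, hi⟩ := h
  obtain ⟨h1, h2⟩ := Finset.mem_filter.1 hi
  have hlt : i < 2025 := Finset.mem_range.1 h1
  refine ⟨R.vec ⟨i, hlt⟩, by rw [XC_base]; exact ⟨_, rfl⟩, ?_⟩
  rw [dot_U'_vec]
  exact of_decide_eq_true h2

theorem orbit_trans {y y' : LL} {d : ℤ} (hd : d = 0 ∨ d = 16 ∨ d = 8) (hy : y ∈ XC leechU w0) (hy' : y' ∈ XC leechU w0)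
    (h1 : dotInt leechU'.1 y.1 = d) (h2 : dotInt leechU'.1 y'.1 = d) : ∃ g : ↥Spor.McL, R.rep g ∈ hh.K 9 ∧ g.1 y = y' := by
  rw [XC_base] at hy hy'
  obtain ⟨i, rfl⟩ := hy
  obtain ⟨j, rfl⟩ := hy'
  rw [dot_U'_vec] at h1 h2
  rcases hd with rfl | rfl | rfl
  · exact TabUse.trans_of_level R K_le lev1 (mem_Pd chk0 h1) (mem_Pd chk0 h2)
  · exact TabUse.trans_of_treeOK R K_le gensA treeA (mem_Pd chkA h1) (mem_Pd chkA h2)
  · exact TabUse.trans_of_treeOK R K_le gensB treeB (mem_Pd chkB h1) (mem_Pd chkB h2)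

theorem ncard_orbit_base (d : ℤ) : {y : LL | y ∈ XC leechU w0 ∧ dotInt leechU'.1 y.1 = d}.ncard = countBelow (Pd d) 2025 := by
  rw [← TabUse.ncard_filter R]
  congr 1
  ext y
  constructor
  · rintro ⟨h1, h2⟩
    rw [XC_base] at h1
    obtain ⟨i, rfl⟩ := h1
    refine ⟨i, ?_, rfl⟩
    rw [dot_U'_vec] at h2
    exact decide_eq_true h2
  · rintro ⟨i, hi, rfl⟩
    refine ⟨by rw [XC_base]; exact ⟨_, rfl⟩, ?_⟩
    rw [dot_U'_vec]
    exact of_decide_eq_true hi

/-- The main statement. -/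
theorem S1634_aux (v w : LL) (hv : sqNorm v.1 = 32) (hw : sqNorm w.1 = 32) (hvw : dotInt v.1 w.1 = -8) :
    (XC v w).ncard = 2025 ∧ (∀ x ∈ XC v w, ∀ x' ∈ XC v w, ∃ g : ↥Co0, g • v = v ∧ g • w = w ∧ g • x = x') ∧
      ∀ x ∈ XC v w, ∃ y₁ ∈ XC v w, ∃ y₂ ∈ XC v w, ∃ y₃ ∈ XC v w,
        (MulAction.orbit ↥(MulAction.stabilizer ↥Co0 v ⊓ MulAction.stabilizer ↥Co0 w ⊓ MulAction.stabilizer ↥Co0 x) y₁).ncard = 330 ∧
        (MulAction.orbit ↥(MulAction.stabilizer ↥Co0 v ⊓ MulAction.stabilizer ↥Co0 w ⊓ MulAction.stabilizer ↥Co0 x) y₂).ncard = 462 ∧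
        (MulAction.orbit ↥(MulAction.stabilizer ↥Co0 v ⊓ MulAction.stabilizer ↥Co0 w ⊓ MulAction.stabilizer ↥Co0 x) y₃).ncard = 1232 := by
  -- standard position
  have hu : sqNorm (v + w : LL).1 = 48 := by
    rw [coe_add, sqNorm_add, hv, hw, hvw]
    norm_num
  have hd : dotInt (v + w : LL).1 v.1 = 24 := by
    rw [coe_add, dotInt_add_left, dotInt_self, hv, dotInt_comm, hvw]
    norm_num
  obtain ⟨h, hh', e₁, e₂⟩ := C3.orb_pair (v + w) v hu hv hd
  have e₃ : h w = w0 := by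
    have h1 := map_add_Co0 hh' v w
    rw [e₁, e₂] at h1
    show h w = -leechV - leechU
    rw [h1]
    abel
  have himg := XC_image hh' v w
  rw [e₂, e₃] at himg
  have hmem : ∀ y ∈ XC v w, h y ∈ XC leechU w0 := fun y hy => by
    rw [← himg]
    exact ⟨y, hy, rfl⟩
  have conj : ∀ g : ↥Spor.McL, ((⟨h⁻¹ * g.1 * h, mul_mem (mul_mem (inv_mem hh') (mem_Co0 g)) hh'⟩ : ↥Co0) • v = v) ∧
      ((⟨h⁻¹ * g.1 * h, mul_mem (mul_mem (inv_mem hh') (mem_Co0 g)) hh'⟩ : ↥Co0) • w = w) := by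
    intro g
    constructor
    · show h⁻¹ (g.1 (h v)) = v
      rw [e₂, fix_U, ← e₂]
      simp
    · show h⁻¹ (g.1 (h w)) = w
      rw [e₃, fix_w0, ← e₃]
      simp
  refine ⟨?_, fun x hx x' hx' => ?_, fun x hx => ?_⟩
  · rw [← ncard_XC_base, ← himg, Set.ncard_image_of_injective _ h.injective]
  · obtain ⟨g, e⟩ := trans_XC (hmem x hx) (hmem x' hx')
    refine ⟨_, (conj g).1, (conj g).2, ?_⟩
    show h⁻¹ (g.1 (h x)) = x'
    rw [e]
    simp
  · -- the point in standard position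
    have hU' : leechU' ∈ XC leechU w0 := by
      rw [XC_base, ← U'_eq]
      exact ⟨_, rfl⟩
    obtain ⟨g₁, e₄⟩ := trans_XC (hmem x hx) hU'
    set k := g₁.1 * h with hk
    have hkm : k ∈ Co0 := mul_mem (mem_Co0 g₁) hh'
    have k₁ : k v = leechU := by
      rw [hk, Equiv.Perm.mul_apply, e₂, fix_U]
    have k₂ : k w = w0 := by
      rw [hk, Equiv.Perm.mul_apply, e₃, fix_w0]
    have k₃ : k x = leechU' := e₄
    have kimg := XC_image hkm v w
    rw [k₁, k₂] at kimg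
    -- the orbits
    have key : ∀ d : ℤ, (d = 0 ∨ d = 16 ∨ d = 8) → 0 < countBelow (Pd d) 2025 → ∃ y ∈ XC v w,
        (MulAction.orbit ↥(MulAction.stabilizer ↥Co0 v ⊓ MulAction.stabilizer ↥Co0 w ⊓ MulAction.stabilizer ↥Co0 x) y).ncard =
          countBelow (Pd d) 2025 := by
      intro d hd hpos
      obtain ⟨r, hr1, hr2⟩ := exists_rep hpos
      have hrm : k⁻¹ r ∈ XC v w := by
        rw [← kimg] at hr1
        obtain ⟨z, hz, rfl⟩ := hr1
        simpa using hz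
      have hkr : k (k⁻¹ r) = r := by simp
      refine ⟨k⁻¹ r, hrm, ?_⟩
      have hY : MulAction.orbit ↥(MulAction.stabilizer ↥Co0 v ⊓ MulAction.stabilizer ↥Co0 w ⊓ MulAction.stabilizer ↥Co0 x) (k⁻¹ r) =
          {y : LL | y ∈ XC v w ∧ dotInt x.1 y.1 = d} := by
        apply orbit_eq_of
        · refine ⟨hrm, ?_⟩
          rw [← dot_inv hkm, k₃, hkr]
          exact hr2
        · rintro a ⟨⟨ha1, ha2⟩, ha3⟩ z ⟨⟨h1, h2, h3⟩, h4⟩
          have ha1' : a.1 v = v := ha1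
          have ha2' : a.1 w = w := ha2
          have ha3' : a.1 x = x := ha3
          refine ⟨⟨(a.2.2 z).trans h1, ?_, ?_⟩, ?_⟩
          · show dotInt v.1 (a.1 z).1 = 0
            rw [← dot_inv a.2 v z, ha1'] at h2
            exact h2
          · show dotInt w.1 (a.1 z).1 = 16
            rw [← dot_inv a.2 w z, ha2'] at h3
            exact h3
          · show dotInt x.1 (a.1 z).1 = d
            rw [← dot_inv a.2 x z, ha3'] at h4
            exact h4
        · rintro z ⟨hz1, hz2⟩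
          have hz3 : k z ∈ XC leechU w0 := by
            rw [← kimg]
            exact ⟨z, hz1, rfl⟩
          have hz4 : dotInt leechU'.1 (k z).1 = d := by
            rw [← k₃, dot_inv hkm]
            exact hz2
          obtain ⟨g, hg, e⟩ := orbit_trans hd hr1 hz3 hr2 hz4
          refine ⟨⟨k⁻¹ * g.1 * k, mul_mem (mul_mem (inv_mem hkm) (mem_Co0 g)) hkm⟩, ⟨⟨?_, ?_⟩, ?_⟩, ?_⟩
          · show k⁻¹ (g.1 (k v)) = v
            rw [k₁, fix_U, ← k₁]
            simp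
          · show k⁻¹ (g.1 (k w)) = w
            rw [k₂, fix_w0, ← k₂]
            simp
          · show k⁻¹ (g.1 (k x)) = x
            rw [k₃, fix_U' hg, ← k₃]
            simp
          · show k⁻¹ (g.1 (k (k⁻¹ r))) = z
            rw [hkr, e]
            simp
      rw [hY, ← ncard_orbit_base d, ← Set.ncard_image_of_injective _ k.injective]
      congr 1
      ext y
      constructor
      · rintro ⟨z, ⟨h1, h2⟩, rfl⟩
        refine ⟨by rw [← kimg]; exact ⟨z, h1, rfl⟩, ?_⟩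
        rw [← k₃, dot_inv hkm]
        exact h2
      · rintro ⟨h1, h2⟩
        rw [← kimg] at h1
        obtain ⟨z, hz, rfl⟩ := h1
        refine ⟨z, ⟨hz, ?_⟩, rfl⟩
        rw [← k₃, dot_inv hkm] at h2
        exact h2
    obtain ⟨y₁, h1, e1⟩ := key 0 (Or.inl rfl) (by rw [cnt0]; norm_num)
    obtain ⟨y₂, h2, e2⟩ := key 16 (Or.inr (Or.inl rfl)) (by rw [cnt16]; norm_num)
    obtain ⟨y₃, h3, e3⟩ := key 8 (Or.inr (Or.inr rfl)) (by rw [cnt8]; norm_num)
    rw [cnt0] at e1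
    rw [cnt16] at e2
    rw [cnt8] at e3
    exact ⟨y₁, h1, y₂, h2, y₃, h3, e1, e2, e3⟩

end ML

end Cfsg.Agent.Lib.Conway
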