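import Cfsg.Agent.Lib.Conway.Simple
import Cfsg.Agent.Lib.Conway.Census0
import Cfsg.Agent.S1567
import Cfsg.Agent.S1570

/-!
# The lattice modulo twice the lattice as a module for the automorphism group
-/

set_option autoImplicit false

namespace Cfsg.Agent.Lib.Conway

open Cfsg Cfsg.Spor Cfsg.Agent.Lib.Compute Cfsg.Agent.Lib.Golay
open Cfsg.Agent.Lib.KnownSimple.Leech

/-- A vector of norm 64 congruent to `8 e_c` modulo twice the lattice lies in the standard cross. -/
theorem cross_of_cong {c : GolayPt} {y z : Vec} (hzL : z ∈ leechLattice) (hn : sqNorm y = 64)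
    (h1 : ∀ i, 2 * z i = e8 c i - y i) : ∃ (d : GolayPt) (s : ℤ), (s = 1 ∨ s = -1) ∧ y = s • e8 d := by
  have hn : ∑ i, y i ^ 2 = 64 := hn
  have he8 : ∀ i, e8 c i % 8 = 0 := by
    intro i
    simp only [e8]
    split_ifs <;> norm_num
  obtain ⟨ε, w, hε, hw, h3, _⟩ := mem_L_iff.1 hzL
  rcases hε with rfl | rfl
  · -- even case
    have h4 : ∀ i, (w i).val = 1 → 16 ≤ y i ^ 2 := by
      intro i hi
      have h5 := h3 i
      have h6 := h1 i
      have h7 := he8 i
      rw [hi] at h5
      have h8 : (y i) % 8 = 4 := by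
        push_cast at h5
        omega
      have := sq_ge (t := y i) (m := 4) (by norm_num) (by omega)
      linarith
    have hw0 : w = 0 := by
      rcases card_support_code hw with h | h | h | h | h
      · exact eq_zero_of_card h
      all_goals
        exfalso
        have h5 : ∑ i ∈ support₂ w, (16 : ℤ) ≤ ∑ i, y i ^ 2 := by
          calc ∑ i ∈ support₂ w, (16 : ℤ) ≤ ∑ i ∈ support₂ w, y i ^ 2 := Finset.sum_le_sum fun i hi => by
                apply h4
                have h6 := mem_support₂.1 hi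
                rcases zmod2_cases (w i) with ⟨h7, _⟩ | ⟨h7, _⟩
                · exact absurd h7 h6
                · rw [h7]
                  rfl
            _ ≤ ∑ i, y i ^ 2 := Finset.sum_le_sum_of_subset_of_nonneg (Finset.subset_univ _) fun i _ _ => sq_nonneg _
        rw [hn, Finset.sum_const, h] at h5
        norm_num at h5
    subst hw0
    have h4' : ∀ i, y i % 8 = 0 := by
      intro i
      have h5 := h3 i
      have h6 := h1 i
      have h7 := he8 i
      simp only [Pi.zero_apply, ZMod.val_zero] at h5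
      push_cast at h5
      omega
    obtain ⟨d, hd⟩ : ∃ d, y d ≠ 0 := by
      by_contra hne
      push Not at hne
      simp [hne] at hn
    have h5 : 64 ≤ y d ^ 2 := by
      have := sq_ge (t := y d) (m := 8) (by norm_num) (by have := h4' d; omega)
      linarith
    have h6 : ∑ i ∈ Finset.univ.erase d, y i ^ 2 = 64 - y d ^ 2 := by
      have := Finset.add_sum_erase Finset.univ (fun i => y i ^ 2) (Finset.mem_univ d)
      linarith
    have h7 : ∑ i ∈ Finset.univ.erase d, y i ^ 2 ≥ 0 := Finset.sum_nonneg fun i _ => sq_nonneg _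
    have h8 : y d ^ 2 = 64 := by linarith
    have h9 : ∑ i ∈ Finset.univ.erase d, y i ^ 2 = 0 := by rw [h6, h8]; norm_num
    have h10 := (Finset.sum_eq_zero_iff_of_nonneg fun i _ => sq_nonneg (y i)).1 h9
    have h11 : y d = 8 ∨ y d = -8 := by
      have : (y d - 8) * (y d + 8) = 0 := by nlinarith
      rcases mul_eq_zero.1 this with h | h
      · left; omega
      · right; omega
    rcases h11 with h11 | h11
    · refine ⟨d, 1, Or.inl rfl, ?_⟩
      funext i
      by_cases hi : i = d
      · subst hi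
        simp [e8, h11]
      · have := h10 i (Finset.mem_erase.2 ⟨hi, Finset.mem_univ _⟩)
        simp only [e8, Pi.smul_apply, smul_eq_mul, if_neg hi]
        simpa using this
    · refine ⟨d, -1, Or.inr rfl, ?_⟩
      funext i
      by_cases hi : i = d
      · subst hi
        simp [e8, h11]
      · have := h10 i (Finset.mem_erase.2 ⟨hi, Finset.mem_univ _⟩)
        simp only [e8, Pi.smul_apply, smul_eq_mul, if_neg hi]
        simpa using this
  · -- odd case
    exfalso
    have h4 : ∀ i, (4 : ℤ) ≤ y i ^ 2 := by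
      intro i
      have h5 := h3 i
      have h6 := h1 i
      have h7 := he8 i
      have h8 : y i % 4 = 2 := by
        rcases zmod2_cases (w i) with ⟨_, h9⟩ | ⟨_, h9⟩ <;> rw [h9] at h5 <;> push_cast at h5 <;> omega
      have := sq_ge (t := y i) (m := 2) (by norm_num) (by omega)
      linarith
    have h5 : ∑ _i : GolayPt, (4 : ℤ) ≤ ∑ i, y i ^ 2 := Finset.sum_le_sum fun i _ => h4 i
    rw [sum_const_pt, hn] at h5
    norm_num at h5

/-- The kernel of the action on the lattice modulo twice the lattice is central. -/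
theorem kernel_central (g : ↥Co0) (H : ∀ v : LL, ∃ w : LL, ((g • v : LL) : Vec) - v.1 = (2 : ℕ) • w.1) :
    g ∈ Subgroup.center ↥Co0 := by
  have hP : Pres g.1 := by
    intro b
    obtain ⟨w, hw⟩ := H (E8 b)
    refine cross_of_cong (c := b) (z := -w.1) (y := (g.1 (E8 b)).1) (neg_mem w.2) ((g.2.2 (E8 b)).trans (sqNorm_e8 b)) ?_
    intro i
    have h1 := congrFun hw i
    simp only [Pi.sub_apply, Pi.smul_apply, nsmul_eq_mul] at h1
    have h2 : ((g • E8 b : LL) : Vec) i = (g.1 (E8 b)).1 i := rfl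
    have h3 : (E8 b).1 i = e8 b i := rfl
    rw [h2, h3] at h1
    rw [Pi.neg_apply]
    push_cast at h1
    linarith
  rcases mono_triv g.2 hP (fun x _ => by
    obtain ⟨w, hw⟩ := H x
    refine ⟨-w, ?_⟩
    funext i
    have h1 := congrFun hw i
    simp only [Pi.sub_apply, Pi.smul_apply, nsmul_eq_mul] at h1
    have h2 : ((g • x : LL) : Vec) i = (g.1 x).1 i := rfl
    rw [h2] at h1
    show x.1 i - (g.1 x).1 i = (2 : ℤ) * (-w.1 i)
    push_cast at h1
    linarith) with h | h
  · have : g = 1 := Subtype.ext h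
    rw [this]
    exact one_mem _
  · have : g = negE := Subtype.ext h
    rw [this]
    exact negE_mem_center

/-- The short vectors. -/
theorem norm_cases {y : LL} (h0 : y ≠ 0) (hle : sqNorm y.1 ≤ 64) : sqNorm y.1 = 32 ∨ sqNorm y.1 = 48 ∨ sqNorm y.1 = 64 := by
  have h1 : y.1 ≠ 0 := fun h2 => h0 (Subtype.ext h2)
  have h2 := Cfsg.Agent.Lib.Leech.sq_ge_aux (Cfsg.Agent.Lib.Leech.mem_leechLattice.mp y.2) h1
  have h3 := Cfsg.Agent.Lib.Leech.sq_dvd_aux (Cfsg.Agent.Lib.Leech.mem_leechLattice.mp y.2)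
  omega

theorem sq_U : sqNorm leechU.1 = 32 := by decide +kernel
theorem sq_V : sqNorm leechV.1 = 48 := by decide +kernel
theorem sq_U' : sqNorm leechU'.1 = 32 := by decide +kernel
theorem dot_VU' : dotInt leechV.1 leechU'.1 = -16 := by decide +kernel
theorem dot_UU' : dotInt leechU.1 leechU'.1 = 0 := by decide +kernel

/-- Two vectors of norm 64 at distance a minimal vector. -/
noncomputable def a64 : LL := D4 (some 1) (some 2) + D4 (some 3) (some 4)
/-- Two vectors of norm 64 at distance a minimal vector. -/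
noncomputable def b64 : LL := D4 (some 1) (some 2) + D4 (some 3) (some 5)

theorem sq_a64 : sqNorm a64.1 = 64 := by decide +kernel
theorem sq_b64 : sqNorm b64.1 = 64 := by decide +kernel
theorem sq_ab : sqNorm (a64 - b64 : LL).1 = 32 := by decide +kernel

/-- Invariant subgroups between twice the lattice and the lattice. -/
theorem invariant_sub (M : AddSubgroup Vec) (h2 : ∀ v ∈ leechLattice, (2 : ℤ) • v ∈ M) (hle : M ≤ leechLattice)
    (hinv : ∀ g : ↥Co0, ∀ v : LL, v.1 ∈ M → ((g • v : LL) : Vec) ∈ M) :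
    (∀ x ∈ M, ∃ w ∈ leechLattice, x = (2 : ℤ) • w) ∨ M = leechLattice := by
  by_cases hall : ∀ x ∈ M, ∃ w ∈ leechLattice, x = (2 : ℤ) • w
  · exact Or.inl hall
  right
  push Not at hall
  obtain ⟨x, hxM, hx⟩ := hall
  have hxL := hle hxM
  obtain ⟨y, hyL, hyn, z, hzL, e⟩ := Cfsg.Agent.S1570.result x hxL
  have hyM : y ∈ M := by
    have h3 : y = x - (2 : ℤ) • z := by
      rw [← sub_eq_iff_eq_add'.2 (show x = y + (2 : ℤ) • z by
        rw [← natCast_zsmul] at e
        have : x - y = (2 : ℤ) • z := by simpa using e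
        rw [← this]
        abel)]
      abel
    rw [h3]
    exact sub_mem hxM (h2 z hzL)
  have hy0 : (⟨y, hyL⟩ : LL) ≠ 0 := by
    intro h
    have h3 : y = 0 := congrArg Subtype.val h
    apply hx z hzL
    rw [h3, sub_zero] at e
    rw [e]
    simp
  -- all vectors of the norm of `y` are in `M`
  have hall : ∀ N : ℤ, sqNorm y = N → ∀ t : LL, sqNorm t.1 = N → (N = 32 ∨ N = 48 ∨ N = 64) → t.1 ∈ M := by
    rintro N hN t ht hcases
    have key : ∃ g : ↥Co0, g • (⟨y, hyL⟩ : LL) = t := by
      rcases hcases with rfl | rfl | rfl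
      · exact trans32 hN ht
      · exact trans48 hN ht
      · exact trans64 hN ht
    obtain ⟨g, hg⟩ := key
    have := hinv g ⟨y, hyL⟩ hyM
    rwa [hg] at this
  -- a minimal vector is in `M`
  have hmin : ∃ t : LL, sqNorm t.1 = 32 ∧ t.1 ∈ M := by
    rcases norm_cases hy0 hyn with h | h | h
    · exact ⟨⟨y, hyL⟩, h, hyM⟩
    · have h1 := hall 48 h (-leechV) (by rw [coe_neg, sqNorm_neg]; exact sq_V) (by simp)
      have h3 := hall 48 h (-leechV - leechU') (by
        rw [coe_sub, coe_neg, sqNorm_sub, sqNorm_neg, dotInt_neg_left, dot_VU', sq_V, sq_U']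
        norm_num) (by simp)
      refine ⟨leechU', sq_U', ?_⟩
      have h4 := sub_mem h1 h3
      convert h4 using 1
      rw [coe_sub, coe_neg]
      abel
    · have h1 := hall 64 h a64 sq_a64 (by simp)
      have h3 := hall 64 h b64 sq_b64 (by simp)
      exact ⟨a64 - b64, sq_ab, sub_mem h1 h3⟩
  obtain ⟨t, ht, htM⟩ := hmin
  apply le_antisymm hle
  rw [← Cfsg.Agent.S1567.result, AddSubgroup.closure_le]
  rintro w ⟨hw, hwn⟩
  obtain ⟨g, hg⟩ := trans32 (w := ⟨w, hw⟩) ht hwn
  have := hinv g t htM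
  rw [hg] at this
  exact this

/-! ### Invariant quadratic forms -/

section quad

variable (Q : LL → ZMod 2) (hcoset : ∀ v w : LL, Q (v + (w + w)) = Q v)
  (hquad : ∀ u v w : LL, Q (u + v + w) + Q u + Q v + Q w = Q (u + v) + Q (u + w) + Q (v + w))
  (hinv : ∀ (g : ↥Co0) (v : LL), Q (g • v) = Q v)

include hinv in
theorem Q_const32 {v w : LL} (hv : sqNorm v.1 = 32) (hw : sqNorm w.1 = 32) : Q v = Q w := by
  obtain ⟨g, rfl⟩ := trans32 hv hw
  exact (hinv g v).symm

include hinv in
theorem Q_const48 {v w : LL} (hv : sqNorm v.1 = 48) (hw : sqNorm w.1 = 48) : Q v = Q w := by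
  obtain ⟨g, rfl⟩ := trans48 hv hw
  exact (hinv g v).symm

include hinv in
theorem Q_const64 {v w : LL} (hv : sqNorm v.1 = 64) (hw : sqNorm w.1 = 64) : Q v = Q w := by
  obtain ⟨g, rfl⟩ := trans64 hv hw
  exact (hinv g v).symm

end quad

/-- A minimal vector. -/
noncomputable def tz : LL := ⟨ofF (vP 176873080084283160507361423343755656), mem_L_of_chkL (by decide +kernel)⟩
/-- A minimal vector. -/
noncomputable def tx1 : LL := ⟨ofF (vP 343026579557397644620337305878933768), mem_L_of_chkL (by decide +kernel)⟩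
/-- A minimal vector. -/
noncomputable def tx2 : LL := ⟨ofF (vP 343110246972892860118572932926875846), mem_L_of_chkL (by decide +kernel)⟩

theorem s_z : sqNorm tz.1 = 32 := by decide +kernel
theorem s_x1 : sqNorm tx1.1 = 32 := by decide +kernel
theorem s_x2 : sqNorm tx2.1 = 32 := by decide +kernel
theorem s_yz : sqNorm (leechU + tz : LL).1 = 32 := by decide +kernel
theorem s_1y : sqNorm (tx1 + leechU : LL).1 = 64 := by decide +kernel
theorem s_1z : sqNorm (tx1 + tz : LL).1 = 64 := by decide +kernel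
theorem s_1yz : sqNorm (tx1 + leechU + tz : LL).1 = 64 := by decide +kernel
theorem s_2y : sqNorm (tx2 + leechU : LL).1 = 48 := by decide +kernel
theorem s_2z : sqNorm (tx2 + tz : LL).1 = 48 := by decide +kernel
theorem s_2yz : sqNorm (tx2 + leechU + tz : LL).1 = 32 := by decide +kernel

/-- The invariant quadratic form. -/
theorem quad_form (Q : LL → ZMod 2) (hcoset : ∀ v w : LL, Q (v + (w + w)) = Q v)
    (hquad : ∀ u v w : LL, Q (u + v + w) + Q u + Q v + Q w = Q (u + v) + Q (u + w) + Q (v + w))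
    (hinv : ∀ (g : ↥Co0) (v : LL), Q (g • v) = Q v) (hne : ∃ v : LL, Q v ≠ 0) (v : LL) :
    Q v = ((sqNorm v.1 / 16 : ℤ) : ZMod 2) := by
  have h0 : Q 0 = 0 := by
    have h1 := hquad 0 0 0
    simp only [add_zero] at h1
    revert h1
    generalize Q 0 = a
    revert a
    decide
  -- the values on the minimal vectors and on the vectors of norm 64
  have hγ : ∀ t : LL, sqNorm t.1 = 64 → Q t = 0 := by
    intro t ht
    have h1 := hquad tx1 leechU tz
    rw [Q_const64 Q hinv s_1yz ht, Q_const64 Q hinv s_1y ht, Q_const64 Q hinv s_1z ht,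
      Q_const32 Q hinv s_x1 sq_U, Q_const32 Q hinv s_z sq_U, Q_const32 Q hinv s_yz sq_U] at h1
    revert h1
    generalize Q t = c
    generalize Q leechU = a
    revert a c
    decide
  have hα : ∀ t : LL, sqNorm t.1 = 32 → Q t = 0 := by
    intro t ht
    have h1 := hquad tx2 leechU tz
    rw [Q_const48 Q hinv s_2y s_2z, Q_const32 Q hinv s_2yz ht, Q_const32 Q hinv s_x2 ht,
      Q_const32 Q hinv sq_U ht, Q_const32 Q hinv s_z ht, Q_const32 Q hinv s_yz ht] at h1
    revert h1
    generalize Q t = c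
    generalize Q (tx2 + tz) = a
    revert a c
    decide
  have hrep : ∀ x : LL, ∃ y : LL, sqNorm y.1 ≤ 64 ∧ Q x = Q y ∧ ((sqNorm x.1 / 16 : ℤ) : ZMod 2) = ((sqNorm y.1 / 16 : ℤ) : ZMod 2) := by
    intro x
    obtain ⟨y, hyL, hyn, z, hzL, e⟩ := Cfsg.Agent.S1570.result x.1 x.2
    have ex : x = ⟨y, hyL⟩ + (⟨z, hzL⟩ + ⟨z, hzL⟩) := by
      apply Subtype.ext
      show x.1 = y + (z + z)
      rw [← two_nsmul, ← e]
      abel
    refine ⟨⟨y, hyL⟩, hyn, ?_, ?_⟩
    · rw [ex, hcoset]
    · have h1 : sqNorm x.1 = sqNorm y + 4 * dotInt y z + 4 * sqNorm z := by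
        have h2 : x.1 = y + (z + z) := congrArg Subtype.val ex
        rw [h2, sqNorm_add, dotInt_add_right, sqNorm_add, dotInt_self]
        ring
      obtain ⟨k, hk⟩ := eight_dvd_dot ⟨y, hyL⟩ ⟨z, hzL⟩
      obtain ⟨m, hm⟩ := Cfsg.Agent.Lib.Leech.sq_dvd_aux (Cfsg.Agent.Lib.Leech.mem_leechLattice.mp hzL)
      obtain ⟨n, hn⟩ := Cfsg.Agent.Lib.Leech.sq_dvd_aux (Cfsg.Agent.Lib.Leech.mem_leechLattice.mp hyL)
      have hk' : dotInt y z = 8 * k := hk
      rw [h1, hk', hm]
      show ((((sqNorm y + 4 * (8 * k) + 4 * (16 * m)) / 16 : ℤ)) : ZMod 2) = ((sqNorm y / 16 : ℤ) : ZMod 2)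
      rw [hn]
      have e1 : (16 * n + 4 * (8 * k) + 4 * (16 * m)) / 16 = n + 2 * (k + 2 * m) := by omega
      have e2 : (16 * n) / 16 = n := by omega
      rw [e1, e2]
      push_cast
      have e3 : (2 : ZMod 2) = 0 := by decide
      rw [e3]
      ring
  have hβ : ∀ t : LL, sqNorm t.1 = 48 → Q t = 1 := by
    intro t ht
    obtain ⟨w, hw⟩ := hne
    obtain ⟨y, hyn, e1, _⟩ := hrep w
    rw [e1] at hw
    have hy0 : y ≠ 0 := by
      rintro rfl
      exact hw h0
    rcases norm_cases hy0 hyn with h | h | h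
    · exact absurd (hα y h) hw
    · rw [← Q_const48 Q hinv h ht]
      revert hw
      generalize Q y = a
      revert a
      decide
    · exact absurd (hγ y h) hw
  obtain ⟨y, hyn, e1, e2⟩ := hrep v
  rw [e1, e2]
  by_cases hy0 : y = 0
  · rw [hy0, h0]
    have : sqNorm (0 : LL).1 = 0 := by
      show sqNorm (0 : Vec) = 0
      simp [sqNorm]
    rw [this]
    simp
  rcases norm_cases hy0 hyn with h | h | h
  · rw [hα y h, h]
    decide
  · rw [hβ y h, h]
    decide
  · rw [hγ y h, h]
    decide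

end Cfsg.Agent.Lib.Conway
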