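import Cfsg.Agent.Lib.Conway.NfData

/-!
# Normal forms of the vectors of norms 32, 48, 64 under the monomial group
-/

set_option autoImplicit false

namespace Cfsg.Agent.Lib.Conway

open Cfsg Cfsg.Agent.Lib.Compute Cfsg.Agent.Lib.Golay Cfsg.Agent.Lib.M24
open Cfsg.Agent.Lib.KnownSimple.Leech

/-! ### Flags of octads and dodecads -/

/-- The base octad. -/
noncomputable abbrev O0 : Finset GolayPt := enc.finOf O0m

theorem O0_mem : O0 ∈ octads := octad_finOf (by decide +kernel)

theorem Tin_gens : gensOK Tin [] [O0m] = true := by decide +kernel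
theorem Tin_cov : allBelow (fun j => !O0m.testBit j || Tin.any (fun p => Nat.beq (pc p j) 0)) 24 = true := by decide +kernel
theorem Tout_gens : gensOK Tout [] [O0m] = true := by decide +kernel
theorem Tout_cov : allBelow (fun j => !Hm.testBit j || Tout.any (fun p => Nat.beq (pc p j) 5)) 24 = true := by decide +kernel
theorem Tout2_gens : gensOK Tout2 [5] [O0m] = true := by decide +kernel
theorem Tout2_cov : allBelow (fun j => !Nat.testBit (Hm - 32) j || Tout2.any (fun p => Nat.beq (pc p j) 6)) 24 = true := by decide +kernel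
theorem Hm_chk : allBelow (fun j => Nat.beq (bif Hm.testBit j then 1 else 0) (bif O0m.testBit j then 0 else 1)) 24 = true := by decide +kernel
theorem Hm2_chk : allBelow (fun j => Nat.beq (bif Nat.testBit (Hm - 32) j then 1 else 0) (bif Hm.testBit j && !Nat.beq j 5 then 1 else 0)) 24 = true := by decide +kernel

theorem mem_O0 {a : GolayPt} : a ∈ O0 ↔ O0m.testBit (idx a) = true := enc.mem_finOf

theorem Hm_bit {a : GolayPt} (ha : a ∉ O0) : Hm.testBit (idx a) = true := by
  have h1 := Nat.eq_of_beq_eq_true ((allBelow_iff _ _).1 Hm_chk (idx a) (idx_lt a))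
  rw [mem_O0] at ha
  cases h2 : O0m.testBit (idx a)
  · rw [h2] at h1
    cases h3 : Hm.testBit (idx a)
    · rw [h3] at h1
      exact absurd h1 (by decide)
    · rfl
  · exact absurd h2 ha

theorem O0_of_Hm {a : GolayPt} (ha : Hm.testBit (idx a) = true) : a ∉ O0 := by
  have h1 := Nat.eq_of_beq_eq_true ((allBelow_iff _ _).1 Hm_chk (idx a) (idx_lt a))
  rw [mem_O0, ha] at *
  cases h2 : O0m.testBit (idx a)
  · simp
  · rw [h2] at h1
    exact absurd h1 (by decide)

theorem Hm2_bit {a : GolayPt} (ha : a ∉ O0) (h5 : a ≠ pt 5) : Nat.testBit (Hm - 32) (idx a) = true := by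
  have h1 := Nat.eq_of_beq_eq_true ((allBelow_iff _ _).1 Hm2_chk (idx a) (idx_lt a))
  rw [Hm_bit ha] at h1
  have h2 : Nat.beq (idx a) 5 = false := by
    rw [Bool.eq_false_iff]
    intro h3
    apply h5
    rw [← Nat.eq_of_beq_eq_true h3, pt_idx]
  rw [h2] at h1
  cases h3 : Nat.testBit (Hm - 32) (idx a)
  · rw [h3] at h1
    exact absurd h1 (by decide)
  · rfl

theorem image_mul (τ g : ↥M24) (S : Finset GolayPt) : S.image (τ * g).1 = (S.image g.1).image τ.1 := by
  rw [Finset.image_image]
  rfl

theorem fix_image {L Ms : List ℕ} {τ : ↥M24} (hτ : τ ∈ fixSub L Ms) {m : ℕ} (hm : m ∈ Ms) :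
    (enc.finOf m : Finset GolayPt).image τ.1 = enc.finOf m := hτ.2 m hm

theorem oct_base {O : Finset GolayPt} (hO : O ∈ octads) : ∃ g : ↥M24, O.image g.1 = O0 := by
  obtain ⟨g, hg⟩ := octads_transitive hO O0_mem
  exact ⟨g, hg⟩

theorem mem_image_of {g : Equiv.Perm GolayPt} {S : Finset GolayPt} {a : GolayPt} (h : a ∈ S) : g a ∈ S.image g :=
  Finset.mem_image_of_mem _ h

theorem notMem_image_of {g : Equiv.Perm GolayPt} {S : Finset GolayPt} {a : GolayPt} (h : a ∉ S) : g a ∉ S.image g := by
  intro h1
  obtain ⟨b, hb, e⟩ := Finset.mem_image.1 h1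
  rw [g.injective e] at hb
  exact h hb

theorem oct_in {O : Finset GolayPt} (hO : O ∈ octads) {a : GolayPt} (ha : a ∈ O) :
    ∃ σ : ↥M24, O.image σ.1 = O0 ∧ σ.1 a = pt 0 := by
  obtain ⟨g, hg⟩ := oct_base hO
  have h1 : g.1 a ∈ O0 := by
    rw [← hg]
    exact mem_image_of ha
  obtain ⟨τ, hτ, e⟩ := exists_move Tin_gens (by simp) Tin_cov (mem_O0.1 h1)
  refine ⟨τ * g, ?_, e⟩
  rw [image_mul, hg]
  exact fix_image hτ (by simp)

theorem oct_out {O : Finset GolayPt} (hO : O ∈ octads) {a : GolayPt} (ha : a ∉ O) :
    ∃ σ : ↥M24, O.image σ.1 = O0 ∧ σ.1 a = pt 5 := by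
  obtain ⟨g, hg⟩ := oct_base hO
  have h1 : g.1 a ∉ O0 := by
    rw [← hg]
    exact notMem_image_of ha
  obtain ⟨τ, hτ, e⟩ := exists_move Tout_gens (by simp) Tout_cov (Hm_bit h1)
  refine ⟨τ * g, ?_, e⟩
  rw [image_mul, hg]
  exact fix_image hτ (by simp)

theorem oct_out2 {O : Finset GolayPt} (hO : O ∈ octads) {a b : GolayPt} (ha : a ∉ O) (hb : b ∉ O) (hab : a ≠ b) :
    ∃ σ : ↥M24, O.image σ.1 = O0 ∧ σ.1 a = pt 5 ∧ σ.1 b = pt 6 := by
  obtain ⟨g, hg, e⟩ := oct_out hO ha
  have h1 : g.1 b ∉ O0 := by
    rw [← hg]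
    exact notMem_image_of hb
  have h2 : g.1 b ≠ pt 5 := by
    rw [← e]
    exact fun h => hab (g.1.injective h).symm
  obtain ⟨τ, hτ, e'⟩ := exists_move Tout2_gens (by simp) Tout2_cov (Hm2_bit h1 h2)
  refine ⟨τ * g, ?_, ?_, e'⟩
  · rw [image_mul, hg]
    exact fix_image hτ (by simp)
  · show τ.1 (g.1 a) = _
    rw [e]
    exact hτ.1 5 (by simp)

theorem dod_out {d : Finset GolayPt} (hd : d ∈ dodecads) {a : GolayPt} (ha : a ∉ d) :
    ∃ σ : ↥M24, d.image σ.1 = enc.finOf dM ∧ σ.1 a = pt 5 := by
  have hc := card_compl_dodecad hd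
  obtain ⟨q', hq', hne, _⟩ := exists_third (S := dᶜ) (by omega) a a
  obtain ⟨p, hp⟩ : d.Nonempty := by
    rw [← Finset.card_pos, hd.2]
    norm_num
  obtain ⟨c, h1, h2, h3, _⟩ := exists_pair_normal hd hp ha (Finset.mem_compl.1 hq') hne.symm
  refine ⟨c⁻¹, ?_, ?_⟩
  · have : (enc.finOf dM : Finset GolayPt).image c.1 = d := h1
    rw [← this, Finset.image_image]
    ext b
    simp
  · rw [← h3]
    simp

/-! ### Images -/

theorem img_empty {S : Finset GolayPt} (h : S.card = 0) (σ : Equiv.Perm GolayPt) : S.image σ = enc.finOf 0 := by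
  rw [Finset.card_eq_zero.1 h, Finset.image_empty, finOf_zero]

theorem card_finOf_eq {m n : ℕ} (h : Enc.popAux m 24 = n) : (enc.finOf m : Finset GolayPt).card = n := by
  rw [card_enc_finOf, h]

theorem image_eq_finOf {S : Finset GolayPt} {σ : Equiv.Perm GolayPt} {m : ℕ} (hsub : ∀ a ∈ S, σ a ∈ (enc.finOf m : Finset GolayPt))
    (hc : (enc.finOf m : Finset GolayPt).card ≤ S.card) : S.image σ = enc.finOf m := by
  apply Finset.eq_of_subset_of_card_le
  · intro b hb
    obtain ⟨a, ha, rfl⟩ := Finset.mem_image.1 hb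
    exact hsub a ha
  · rwa [Finset.card_image_of_injective _ σ.injective]

theorem ptmem {m i : ℕ} (hi : i < 24) (h : tb m i = true) : pt i ∈ (enc.finOf m : Finset GolayPt) := (mem_finOf_ptR hi).2 h

/-! ### Sums of even vectors without a word -/

theorem even_zero_parity {x : Vec} {c : GolayPt → ZMod 2} (h : ∀ i, x i % 4 = (0 + 2 * ((c i).val : ℤ)) % 4) (hn : sqNorm x ≤ 64)
    (hA : (support₂ c).card = 0) (h8 : (fS x 8).card = 0) (hsum : (∑ a, x a) % 8 = 0) : 2 ∣ (fS x 4).card := by
  have h1 : ∀ a ∈ Finset.univ, (8 : ℤ) ∣ x a - (if a ∈ fS x 4 then 4 else 0) := by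
    intro a _
    have hA' : a ∉ support₂ c := by
      rw [Finset.card_eq_zero.1 hA]
      simp
    have h8' : a ∉ fS x 8 := by
      rw [Finset.card_eq_zero.1 h8]
      simp
    rw [mem_fS] at h8'
    simp only [mem_fS]
    rcases even_vals h hn a with ⟨h2, _⟩ | ⟨_, h2⟩
    · exact absurd h2 hA'
    · split_ifs <;> omega
  have h2 := Finset.dvd_sum h1
  rw [Finset.sum_sub_distrib] at h2
  simp only [Finset.sum_ite_mem, Finset.univ_inter, Finset.sum_const, nsmul_eq_mul] at h2
  omega

/-! ### Vectors of norm 32 -/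

theorem nf32 (x : LL) (hn : sqNorm x.1 = 32) : NOrb x rA ∨ NOrb x rB ∨ NOrb x rC := by
  have hle : sqNorm x.1 ≤ 64 := by omega
  obtain ⟨ε, c, hε, hc, h1, h2⟩ := mem_L_iff.1 x.2
  rcases hε with rfl | rfl
  · have hs := even_sq h1 hle
    have h6 := Finset.card_le_card (even_S6_sub h1 hle)
    have h2' : (∑ a, x.1 a) % 8 = 0 := by simpa using h2
    rw [hn] at hs
    rcases card_support_code hc with hA | hA | hA | hA | hA <;> rw [hA] at hs h6
    · left
      obtain ⟨σ, hσ⟩ := exists_set_map (n := 2) (by norm_num) (U := fS x.1 4) (U' := enc.finOf 8388609) (by omega)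
        (card_finOf_eq (by decide +kernel))
      exact nf_even (even_abs h1 hle) h2' (img_empty hA _) hσ (img_empty (by omega) _) (img_empty (by omega) _) chkA
    · right; left
      obtain ⟨σ, hσ⟩ := oct_base (O := support₂ c) ⟨⟨c, hc, rfl⟩, hA⟩
      exact nf_even (even_abs h1 hle) h2' hσ (img_empty (by omega) _) (img_empty (by omega) _) (img_empty (by omega) _) chkB
    all_goals omega
  · right; right
    obtain ⟨y, hxy, hy, hyn⟩ := odd_normal hc h1
    rw [hn] at hyn
    refine hxy.trans ?_
    have hs := odd_sq hy (by omega)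
    rw [hyn] at hs
    have hv := odd_eq hy (by omega)
    have h7 : fV y.1 (-7) = ∅ := Finset.card_eq_zero.1 (by omega)
    rw [h7] at hv
    obtain ⟨σ, hσ⟩ := exists_set_map (n := 1) (by norm_num) (U := fV y.1 (-3)) (U' := enc.finOf 8388608) (by omega)
      (card_finOf_eq (by decide +kernel))
    exact nf_odd hv hσ (img_empty (by omega) _) chkC

/-! ### Vectors of norm 48 -/

theorem nf48 (x : LL) (hn : sqNorm x.1 = 48) : NOrb x rP5 ∨ NOrb x rP3 ∨ NOrb x rD ∨ NOrb x rO4 := by
  have hle : sqNorm x.1 ≤ 64 := by omega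
  obtain ⟨ε, c, hε, hc, h1, h2⟩ := mem_L_iff.1 x.2
  rcases hε with rfl | rfl
  · have hs := even_sq h1 hle
    have h6 := Finset.card_le_card (even_S6_sub h1 hle)
    have h2' : (∑ a, x.1 a) % 8 = 0 := by simpa using h2
    rw [hn] at hs
    rcases card_support_code hc with hA | hA | hA | hA | hA <;> rw [hA] at hs h6
    · exfalso
      have := even_zero_parity h1 hle hA (by omega) h2'
      omega
    · right; right; right
      have h4 : (fS x.1 4).card = 1 := by omega
      obtain ⟨a, ha⟩ := Finset.card_eq_one.1 h4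
      have ha' : a ∉ support₂ c := even_S4_out h1 hle (by rw [ha]; simp)
      obtain ⟨σ, hσ, e⟩ := oct_out (O := support₂ c) ⟨⟨c, hc, rfl⟩, hA⟩ ha'
      refine nf_even (even_abs h1 hle) h2' hσ ?_ (img_empty (by omega) _) (img_empty (by omega) _) chkO4
      rw [ha, Finset.image_singleton, e]
      apply Finset.eq_of_subset_of_card_le
      · intro b hb
        rw [Finset.mem_singleton.1 hb]
        exact ptmem (by norm_num) (by decide +kernel)
      · rw [card_finOf_eq (n := 1) (by decide +kernel)]
        simp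
    · right; right; left
      obtain ⟨g, hg, hgd⟩ := exists_image_eq_D0 (d := support₂ c) ⟨⟨c, hc, rfl⟩, hA⟩
      exact nf_even (σ := ⟨g, hg⟩) (even_abs h1 hle) h2' hgd (img_empty (by omega) _) (img_empty (by omega) _) (img_empty (by omega) _) chkD
    all_goals omega
  · obtain ⟨y, hxy, hy, hyn⟩ := odd_normal hc h1
    rw [hn] at hyn
    have hs := odd_sq hy (by omega)
    rw [hyn] at hs
    have hv := odd_eq hy (by omega)
    have h7 : fV y.1 (-7) = ∅ := Finset.card_eq_zero.1 (by omega)
    rw [h7] at hv
    by_cases h5 : (fV y.1 5).card = 1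
    · left
      refine hxy.trans ?_
      obtain ⟨σ, hσ⟩ := exists_set_map (n := 1) (by norm_num) (U := fV y.1 5) (U' := enc.finOf 8388608) h5
        (card_finOf_eq (by decide +kernel))
      exact nf_odd hv (img_empty (by omega) _) hσ chkP5
    · right; left
      refine hxy.trans ?_
      obtain ⟨σ, hσ⟩ := exists_set_map (n := 3) (by norm_num) (U := fV y.1 (-3)) (U' := enc.finOf 8388611) (by omega)
        (card_finOf_eq (by decide +kernel))
      exact nf_odd hv hσ (img_empty (by omega) _) chkP3

/-! ### Vectors with sixteen coordinates -/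

/-- The test on a mask of the complement of the base octad. -/
noncomputable def leafH (t : ℕ) : Bool :=
  bcond (Nat.beq (Nat.mod (Enc.popAux t 24) 2) 0)
    (extraH.any fun e => Nat.ble (Enc.popAux (Nat.xor t (Nat.land (word (Nat.xor (kfold kbH t) e)) Hm)) 24) 2) true

theorem scanH : sgnRec Hm leafH 24 0 = true := by decide +kernel

/-- The absolute values on the complement of the base octad. -/
noncomputable def patH (j : ℕ) : ℤ := bcond (Hm.testBit j) 2 0

theorem chkH0 : (chkL (vP PH0) && allBelow (fun j => decide (vP PH0 j = patH j)) 24) = true := by decide +kernel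
theorem chkH1 : (chkL (vP PH1) && allBelow (fun j => decide (vP PH1 j = bcond (mH1.testBit j) (-2) (patH j))) 24) = true := by decide +kernel
theorem chkH0L : chkL (vP PH0) = true := by
  have := chkH0
  simp only [Bool.and_eq_true] at this
  exact this.1
theorem chkH1L : chkL (vP PH1) = true := by
  have := chkH1
  simp only [Bool.and_eq_true] at this
  exact this.1
theorem chkH0v (a : GolayPt) : ofF (vP PH0) a = patH (idx a) := by
  have := chkH0
  simp only [Bool.and_eq_true] at this
  exact of_decide_eq_true ((allBelow_iff _ _).1 this.2 (idx a) (idx_lt a))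
theorem chkH1v (a : GolayPt) : ofF (vP PH1) a = bcond (mH1.testBit (idx a)) (-2) (patH (idx a)) := by
  have := chkH1
  simp only [Bool.and_eq_true] at this
  exact of_decide_eq_true ((allBelow_iff _ _).1 this.2 (idx a) (idx_lt a))

/-- The first representative with sixteen coordinates. -/
noncomputable def rH0 : LL := repL PH0 chkH0L
/-- The second representative with sixteen coordinates. -/
noncomputable def rH1 : LL := repL PH1 chkH1L

theorem sum_patH : ∑ a, patH (idx a) = 32 := by
  have h : sumN patH 24 = 32 := by decide +kernel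
  rw [← h, ← sum_ofF]
  rfl

/-- The sum of a vector from the negative coordinates. -/
theorem H_sum {y : Vec} (hy : ∀ a, |y a| = patH (idx a)) {t : ℕ} (ht : ∀ a, t.testBit (idx a) = true ↔ y a < 0) :
    ∑ a, y a = 32 - 4 * (Enc.popAux t 24 : ℤ) := by
  have h1 : ∀ a, y a = patH (idx a) - (if a ∈ (enc.finOf t : Finset GolayPt) then 4 else 0) := by
    intro a
    have h2 := hy a
    have hm : a ∈ (enc.finOf t : Finset GolayPt) ↔ y a < 0 := by
      rw [enc.mem_finOf]
      exact ht a
    by_cases h3 : y a < 0
    · rw [if_pos (hm.2 h3)]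
      rw [abs_of_neg h3] at h2
      have h4 : patH (idx a) = 2 ∨ patH (idx a) = 0 := by
        unfold patH
        cases Hm.testBit (idx a) <;> simp
      omega
    · rw [if_neg (fun h => h3 (hm.1 h))]
      rw [abs_of_nonneg (by omega)] at h2
      omega
  simp_rw [h1]
  rw [Finset.sum_sub_distrib, sum_patH]
  simp only [Finset.sum_ite_mem, Finset.univ_inter, Finset.sum_const, nsmul_eq_mul]
  rw [card_enc_finOf]
  ring

theorem mem_CSet_even {y : LL} {a : GolayPt} (h0 : y.1 a = 0) : (∑ b, y.1 b) % 8 = 0 := by
  obtain ⟨ε, c, hε, _, h1, h2⟩ := mem_L_iff.1 y.2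
  rcases hε with rfl | rfl
  · simpa using h2
  · exfalso
    have h3 := h1 a
    rw [h0] at h3
    rcases zmod2_cases (c a) with ⟨_, h7⟩ | ⟨_, h7⟩ <;> rw [h7] at h3 <;> norm_num at h3

theorem pt0_mem_O0 : pt 0 ∈ O0 := ptmem (by norm_num) (by decide +kernel)

theorem patH_pt0 : patH (idx (pt 0)) = 0 := by
  rw [idx_pt (by norm_num)]
  decide +kernel

/-- Signs on the complement of the base octad. -/
theorem nf_H_sign {y : LL} (hy : ∀ a, |y.1 a| = patH (idx a)) :
    ∃ (y' : LL) (u : ℕ), NOrb y y' ∧ (∀ a, |y'.1 a| = patH (idx a)) ∧ (∀ a, u.testBit (idx a) = true ↔ y'.1 a < 0) ∧ Enc.popAux u 24 ≤ 2 := by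
  have h00 : y.1 (pt 0) = 0 := by
    have := hy (pt 0)
    rw [patH_pt0] at this
    exact abs_eq_zero.1 this
  obtain ⟨t, ht, hT⟩ := exists_mask_iff (fun a => y.1 a < 0)
  have hpar : Enc.popAux t 24 % 2 = 0 := by
    have h1 := H_sum hy hT
    have h2 := mem_CSet_even h00
    rw [h1] at h2
    omega
  have hsub : ∀ j, j < 24 → t.testBit j = true → Hm.testBit j = true := by
    intro j hj h1
    have h2 := (hT (pt j)).1 (by rwa [idx_pt hj])
    have h3 := hy (pt j)
    rw [idx_pt hj] at h3
    cases h4 : Hm.testBit j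
    · unfold patH at h3
      rw [h4, bcond_false] at h3
      have := abs_eq_zero.1 h3
      omega
    · rfl
  have hleaf := sgnRec_spec Hm leafH 24 0 t scanH hsub
  rw [Nat.mod_eq_of_lt ht, zero_add] at hleaf
  unfold leafH at hleaf
  rw [show Nat.beq (Nat.mod (Enc.popAux t 24) 2) 0 = true by rw [show Nat.mod (Enc.popAux t 24) 2 = Enc.popAux t 24 % 2 from rfl, hpar]; rfl, bcond_true,
    List.any_eq_true] at hleaf
  obtain ⟨e, _, hle⟩ := hleaf
  set k := Nat.xor (kfold kbH t) e with hk
  set u := Nat.xor t (Nat.land (word k) Hm) with hu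
  have hle' : Enc.popAux u 24 ≤ 2 := by simpa [Nat.ble_eq] using hle
  refine ⟨signP (enc.finOf (word k)) (finOf_word_mem k) y, u, NOrb.of_sign _ _ y, ?_, ?_, hle'⟩
  · intro a
    rw [← hy a]
    show |signV _ y.1 a| = _
    unfold signV
    split_ifs <;> simp
  · intro a
    show _ ↔ signV _ y.1 a < 0
    unfold signV
    have hbu : u.testBit (idx a) = (t.testBit (idx a) ^^ ((word k).testBit (idx a) && Hm.testBit (idx a))) := by
      rw [hu]
      show (t ^^^ (word k &&& Hm)).testBit (idx a) = _
      rw [Nat.testBit_xor, Nat.testBit_and]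
    have hmem : a ∈ (enc.finOf (word k) : Finset GolayPt) ↔ (word k).testBit (idx a) = true := enc.mem_finOf
    have h1 := hT a
    have h2 := hy a
    rw [hbu]
    cases h3 : Hm.testBit (idx a)
    · have h4 : y.1 a = 0 := by
        unfold patH at h2
        rw [h3, bcond_false] at h2
        exact abs_eq_zero.1 h2
      have h5 : t.testBit (idx a) = false := by
        rw [Bool.eq_false_iff]
        intro h6
        have := h1.1 h6
        omega
      rw [h5, h4]
      simp
    · have h4 : y.1 a ≠ 0 := by
        intro h5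
        unfold patH at h2
        rw [h3, bcond_true, h5] at h2
        norm_num at h2
      cases h5 : (word k).testBit (idx a)
      · rw [if_neg (fun h6 => by rw [hmem, h5] at h6; exact Bool.noConfusion h6)]
        simp only [Bool.false_and, Bool.xor_false]
        exact h1
      · rw [if_pos (hmem.2 h5)]
        simp only [Bool.and_self, Bool.xor_true, Bool.not_eq_true']
        constructor
        · intro h6
          have h7 : ¬ y.1 a < 0 := by
            intro h8
            rw [h1.2 h8] at h6
            exact Bool.noConfusion h6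
          omega
        · intro h6
          rw [Bool.eq_false_iff]
          intro h8
          have := h1.1 h8
          omega

theorem nf_H_base {y : LL} (hy : ∀ a, |y.1 a| = patH (idx a)) : NOrb y rH0 ∨ NOrb y rH1 := by
  obtain ⟨y', u, hyy, hy', hu, hle⟩ := nf_H_sign hy
  have h00 : y'.1 (pt 0) = 0 := by
    have := hy' (pt 0)
    rw [patH_pt0] at this
    exact abs_eq_zero.1 this
  have hpar : Enc.popAux u 24 % 2 = 0 := by
    have h1 := H_sum hy' hu
    have h2 := mem_CSet_even h00
    rw [h1] at h2
    omega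
  have hcase : Enc.popAux u 24 = 0 ∨ Enc.popAux u 24 = 2 := by omega
  have hmemu : ∀ a, a ∈ (enc.finOf u : Finset GolayPt) ↔ y'.1 a < 0 := fun a => by
    rw [enc.mem_finOf]
    exact hu a
  rcases hcase with h0 | h2
  · left
    refine hyy.trans ⟨1, one_mem _, Subtype.ext ?_⟩
    funext a
    show y'.1 a = ofF (vP PH0) a
    rw [chkH0v, ← hy' a, abs_of_nonneg]
    by_contra h3
    push Not at h3
    have h4 := (hmemu a).2 h3
    rw [Finset.card_eq_zero.1 (card_finOf_eq h0)] at h4
    simp at h4
  · right
    obtain ⟨p, q, hpq, he⟩ := Finset.card_eq_two.1 (card_finOf_eq h2)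
    have hpm : y'.1 p < 0 := (hmemu p).1 (by rw [he]; simp)
    have hqm : y'.1 q < 0 := (hmemu q).1 (by rw [he]; simp)
    have hnotO : ∀ a, y'.1 a < 0 → a ∉ O0 := by
      intro a ha h3
      have h4 := hy' a
      have h5 : Hm.testBit (idx a) = false := by
        rw [Bool.eq_false_iff]
        exact fun h6 => O0_of_Hm h6 h3
      unfold patH at h4
      rw [h5, bcond_false] at h4
      have := abs_eq_zero.1 h4
      omega
    obtain ⟨τ, hτ, e1⟩ := exists_move Tout_gens (by simp) Tout_cov (Hm_bit (hnotO p hpm))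
    have h3 : τ.1 q ∉ O0 := by
      intro h4
      have h5 : O0.image τ.1 = O0 := fix_image hτ (m := O0m) (by simp)
      have h6 := notMem_image_of (g := τ.1) (hnotO q hqm)
      rw [h5] at h6
      exact h6 h4
    have h4 : τ.1 q ≠ pt 5 := by
      rw [← e1]
      exact fun h => hpq (τ.1.injective h).symm
    obtain ⟨τ', hτ', e2⟩ := exists_move Tout2_gens (by simp) Tout2_cov (Hm2_bit h3 h4)
    have e3 : τ'.1 (pt 5) = pt 5 := hτ'.1 5 (by simp)
    refine hyy.trans ((NOrb.of_perm (τ' * τ) y').trans ⟨1, one_mem _, Subtype.ext ?_⟩)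
    funext a
    show y'.1 ((τ' * τ).1.symm a) = ofF (vP PH1) a
    have hO : ∀ b, b ∈ O0 ↔ (τ' * τ).1 b ∈ O0 := by
      intro b
      have h5 : O0.image (τ' * τ).1 = O0 := by
        rw [image_mul, fix_image hτ (by simp), fix_image hτ' (by simp)]
      constructor
      · intro h6
        rw [← h5]
        exact mem_image_of h6
      · intro h6
        by_contra h7
        have := notMem_image_of (g := (τ' * τ).1) h7
        rw [h5] at this
        exact this h6
    set b := (τ' * τ).1.symm a with hb
    have hab : a = (τ' * τ).1 b := by rw [hb]; simp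
    have hpatab : patH (idx b) = patH (idx a) := by
      have h5 := hO b
      rw [← hab] at h5
      have h6 : ∀ c : GolayPt, patH (idx c) = if c ∈ O0 then 0 else 2 := by
        intro c
        unfold patH
        by_cases h7 : c ∈ O0
        · rw [if_pos h7]
          have : Hm.testBit (idx c) = false := by
            rw [Bool.eq_false_iff]
            exact fun h8 => O0_of_Hm h8 h7
          rw [this]
          rfl
        · rw [if_neg h7, Hm_bit h7]
          rfl
      rw [h6, h6]
      simp only [h5]
    have e5 : (τ' * τ).1 p = pt 5 := by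
      show τ'.1 (τ.1 p) = _
      rw [e1, e3]
    have e6 : (τ' * τ).1 q = pt 6 := e2
    rw [chkH1v]
    cases h5 : mH1.testBit (idx a)
    · rw [bcond_false, ← hpatab, ← hy' b, abs_of_nonneg]
      by_contra h6
      push Not at h6
      have h7 := (hmemu b).2 h6
      rw [he] at h7
      have h8 : a = pt 5 ∨ a = pt 6 := by
        rcases Finset.mem_insert.1 h7 with h9 | h9
        · left
          rw [hab, h9, e5]
        · right
          rw [Finset.mem_singleton.1 h9] at hab
          rw [hab, e6]
      have h9 : mH1.testBit (idx a) = true := by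
        rcases h8 with h8 | h8 <;> rw [h8, idx_pt (by norm_num)] <;> decide +kernel
      rw [h5] at h9
      exact Bool.noConfusion h9
    · rw [bcond_true]
      have h6 : idx a = 5 ∨ idx a = 6 := by
        have h7 := idx_lt a
        have h8 : ∀ j, j < 24 → mH1.testBit j = true → j = 5 ∨ j = 6 := by decide +kernel
        exact h8 _ h7 h5
      have h7 : a = pt 5 ∨ a = pt 6 := by
        rcases h6 with h6 | h6
        · left
          rw [← h6, pt_idx]
        · right
          rw [← h6, pt_idx]
      have h8 : y'.1 b < 0 := by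
        rcases h7 with h7 | h7
        · have : b = p := by
            apply (τ' * τ).1.injective
            rw [e5, ← hab, h7]
          rw [this]
          exact hpm
        · have : b = q := by
            apply (τ' * τ).1.injective
            rw [e6, ← hab, h7]
          rw [this]
          exact hqm
      have h9 := hy' b
      have h10 : patH (idx b) = 2 := by
        have h11 : b ∉ O0 := hnotO b h8
        unfold patH
        rw [Hm_bit h11]
        rfl
      rw [h10, abs_of_neg h8] at h9
      omega

/-- Vectors with sixteen coordinates. -/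
theorem nf_H {x : LL} {A : Finset GolayPt} (hA : A ∈ CSet) (hc : A.card = 16) (hx : ∀ a, |x.1 a| = if a ∈ A then 2 else 0) :
    NOrb x rH0 ∨ NOrb x rH1 := by
  have hO : Aᶜ ∈ octads := by
    refine ⟨Cfsg.Agent.Lib.Leech.CS_compl hA, ?_⟩
    rw [Finset.card_compl, hc]
    rfl
  obtain ⟨σ, hσ⟩ := oct_base hO
  have hy : ∀ a, |(phi σ x).1 a| = patH (idx a) := by
    intro a
    show |x.1 (σ.1.symm a)| = _
    rw [hx]
    have h1 : σ.1.symm a ∈ A ↔ a ∉ O0 := by
      rw [← hσ]
      constructor
      · intro h2 h3
        obtain ⟨b, hb, e⟩ := Finset.mem_image.1 h3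
        rw [← e] at h2
        simp only [Equiv.symm_apply_apply] at h2
        exact (Finset.mem_compl.1 hb) h2
      · intro h2
        by_contra h3
        exact h2 (Finset.mem_image.2 ⟨_, Finset.mem_compl.2 h3, by simp⟩)
    unfold patH
    by_cases h2 : a ∈ O0
    · have h3 : σ.1.symm a ∉ A := fun h => (h1.1 h) h2
      rw [if_neg h3]
      have : Hm.testBit (idx a) = false := by
        rw [Bool.eq_false_iff]
        exact fun h8 => O0_of_Hm h8 h2
      rw [this]
      rfl
    · rw [if_pos (h1.2 h2), Hm_bit h2]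
      rfl
  rcases nf_H_base hy with h | h
  · exact Or.inl ((NOrb.of_perm σ x).trans h)
  · exact Or.inr ((NOrb.of_perm σ x).trans h)

/-! ### Vectors of norm 64 -/

theorem nf64 (x : LL) (hn : sqNorm x.1 = 64) :
    NOrb x rE8 ∨ NOrb x rF4 ∨ NOrb x rO6 ∨ NOrb x rO44 ∨ NOrb x rD4 ∨ NOrb x rH0 ∨ NOrb x rH1 ∨ NOrb x rP35 ∨ NOrb x rP53 := by
  have hle : sqNorm x.1 ≤ 64 := by omega
  obtain ⟨ε, c, hε, hc, h1, h2⟩ := mem_L_iff.1 x.2
  rcases hε with rfl | rfl
  · have hs := even_sq h1 hle
    have h6 := Finset.card_le_card (even_S6_sub h1 hle)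
    have h2' : (∑ a, x.1 a) % 8 = 0 := by simpa using h2
    rw [hn] at hs
    rcases card_support_code hc with hA | hA | hA | hA | hA <;> rw [hA] at hs h6
    · by_cases h8 : (fS x.1 8).card = 1
      · left
        obtain ⟨σ, hσ⟩ := exists_set_map (n := 1) (by norm_num) (U := fS x.1 8) (U' := enc.finOf 8388608) h8
          (card_finOf_eq (by decide +kernel))
        exact nf_even (even_abs h1 hle) h2' (img_empty hA _) (img_empty (by omega) _) (img_empty (by omega) _) hσ chkE8
      · right; left
        obtain ⟨σ, hσ⟩ := exists_set_map (n := 4) (by norm_num) (U := fS x.1 4) (U' := enc.finOf 15) (by omega)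
          (card_finOf_eq (by decide +kernel))
        exact nf_even (even_abs h1 hle) h2' (img_empty hA _) hσ (img_empty (by omega) _) (img_empty (by omega) _) chkF4
    · by_cases h8 : (fS x.1 6).card = 1
      · right; right; left
        obtain ⟨a, ha⟩ := Finset.card_eq_one.1 h8
        have ha' : a ∈ support₂ c := even_S6_sub h1 hle (by rw [ha]; simp)
        obtain ⟨σ, hσ, e⟩ := oct_in (O := support₂ c) ⟨⟨c, hc, rfl⟩, hA⟩ ha'
        refine nf_even (even_abs h1 hle) h2' hσ (img_empty (by omega) _) ?_ (img_empty (by omega) _) chkO6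
        rw [ha, Finset.image_singleton, e]
        apply Finset.eq_of_subset_of_card_le
        · intro b hb
          rw [Finset.mem_singleton.1 hb]
          exact ptmem (by norm_num) (by decide +kernel)
        · rw [card_finOf_eq (n := 1) (by decide +kernel)]
          simp
      · right; right; right; left
        have h4 : (fS x.1 4).card = 2 := by omega
        obtain ⟨a, b, hab, ha⟩ := Finset.card_eq_two.1 h4
        have ha' : a ∉ support₂ c := even_S4_out h1 hle (by rw [ha]; simp)
        have hb' : b ∉ support₂ c := even_S4_out h1 hle (by rw [ha]; simp)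
        obtain ⟨σ, hσ, e, e'⟩ := oct_out2 (O := support₂ c) ⟨⟨c, hc, rfl⟩, hA⟩ ha' hb' hab
        refine nf_even (even_abs h1 hle) h2' hσ ?_ (img_empty (by omega) _) (img_empty (by omega) _) chkO44
        apply image_eq_finOf
        · intro y hy
          rw [ha] at hy
          rcases Finset.mem_insert.1 hy with hy | hy
          · rw [hy, e]
            exact ptmem (by norm_num) (by decide +kernel)
          · rw [Finset.mem_singleton.1 hy, e']
            exact ptmem (by norm_num) (by decide +kernel)
        · rw [card_finOf_eq (n := 2) (by decide +kernel), h4]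
    · right; right; right; right; left
      have h4 : (fS x.1 4).card = 1 := by omega
      obtain ⟨a, ha⟩ := Finset.card_eq_one.1 h4
      have ha' : a ∉ support₂ c := even_S4_out h1 hle (by rw [ha]; simp)
      obtain ⟨σ, hσ, e⟩ := dod_out (d := support₂ c) ⟨⟨c, hc, rfl⟩, hA⟩ ha'
      refine nf_even (even_abs h1 hle) h2' hσ ?_ (img_empty (by omega) _) (img_empty (by omega) _) chkD4
      rw [ha, Finset.image_singleton, e]
      apply Finset.eq_of_subset_of_card_le
      · intro b hb
        rw [Finset.mem_singleton.1 hb]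
        exact ptmem (by norm_num) (by decide +kernel)
      · rw [card_finOf_eq (n := 1) (by decide +kernel)]
        simp
    · right; right; right; right; right
      have hab := even_abs h1 hle
      have h40 := Finset.card_eq_zero.1 (show (fS x.1 4).card = 0 by omega)
      have h60 := Finset.card_eq_zero.1 (show (fS x.1 6).card = 0 by omega)
      have h80 := Finset.card_eq_zero.1 (show (fS x.1 8).card = 0 by omega)
      rcases nf_H (A := support₂ c) ⟨c, hc, rfl⟩ hA (fun a => by
        rw [hab, h40, h60, h80]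
        simp [pat]) with h | h
      · exact Or.inl h
      · exact Or.inr (Or.inl h)
    · omega
  · right; right; right; right; right; right; right
    obtain ⟨y, hxy, hy, hyn⟩ := odd_normal hc h1
    rw [hn] at hyn
    have hs := odd_sq hy (by omega)
    rw [hyn] at hs
    have hv := odd_eq hy (by omega)
    have h7 : fV y.1 (-7) = ∅ := Finset.card_eq_zero.1 (by omega)
    rw [h7] at hv
    by_cases h5 : (fV y.1 5).card = 1
    · right
      refine hxy.trans ?_
      have h3 : (fV y.1 (-3)).card = 2 := by omega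
      obtain ⟨p, hp⟩ := Finset.card_eq_one.1 h5
      obtain ⟨q, r, hqr, hq⟩ := Finset.card_eq_two.1 h3
      have hp' : y.1 p = 5 := mem_fV.1 (by rw [hp]; simp)
      have hq' : y.1 q = -3 := mem_fV.1 (by rw [hq]; simp)
      have hr' : y.1 r = -3 := mem_fV.1 (by rw [hq]; simp)
      have hpq : p ≠ q := fun h => by rw [h, hq'] at hp'; norm_num at hp'
      have hpr : p ≠ r := fun h => by rw [h, hr'] at hp'; norm_num at hp'
      obtain ⟨σ, e1, e2, e3⟩ := exists_three (p' := pt 23) (q' := pt 0) (r' := pt 1) hpq hpr hqr (by decide) (by decide) (by decide)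
      refine nf_odd (σ := σ) hv ?_ ?_ chkP53
      · apply image_eq_finOf
        · intro b hb
          rw [hq] at hb
          rcases Finset.mem_insert.1 hb with hb | hb
          · rw [hb, e2]
            exact ptmem (by norm_num) (by decide +kernel)
          · rw [Finset.mem_singleton.1 hb, e3]
            exact ptmem (by norm_num) (by decide +kernel)
        · rw [card_finOf_eq (n := 2) (by decide +kernel), h3]
      · apply image_eq_finOf
        · intro b hb
          rw [hp] at hb
          rw [Finset.mem_singleton.1 hb, e1]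
          exact ptmem (by norm_num) (by decide +kernel)
        · rw [card_finOf_eq (n := 1) (by decide +kernel), h5]
    · left
      refine hxy.trans ?_
      obtain ⟨σ, hσ⟩ := exists_set_map (n := 5) (by norm_num) (U := fV y.1 (-3)) (U' := enc.finOf 8388623) (by omega)
        (card_finOf_eq (by decide +kernel))
      exact nf_odd hv hσ (img_empty (by omega) _) chkP35

end Cfsg.Agent.Lib.Conway
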