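import Cfsg.Agent.Lib.Conway.Trans
import Cfsg.Agent.Lib.Leech.Count2

/-!
# The order and the centre of the automorphism group of the lattice
-/

set_option autoImplicit false

namespace Cfsg.Agent.Lib.Conway

open Cfsg Cfsg.Spor Cfsg.Agent.Lib.Compute Cfsg.Agent.Lib.Golay Cfsg.Agent.Lib.M24
open Cfsg.Agent.Lib.KnownSimple.Leech

/-! ### The standard cross -/

theorem e8_eq_single (a : GolayPt) : e8 a = Pi.single a 8 := by
  funext b
  simp [e8, Pi.single_apply]

theorem smul_e8_eq_single (s : ℤ) (a : GolayPt) : s • e8 a = Pi.single a (s * 8) := by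
  funext b
  simp [e8, Pi.single_apply]

theorem pres_iff {g : Equiv.Perm LL} (hg : g ∈ Co0) :
    (∀ v : LL, v.1 ∈ stdCross → ((g v : LL) : Vec) ∈ stdCross) ↔ Pres g := by
  constructor
  · intro h b
    obtain ⟨d, s, hs, e⟩ := h (E8 b) ⟨b, 8, Or.inl rfl, e8_eq_single b⟩
    rcases hs with rfl | rfl
    · exact ⟨d, 1, Or.inl rfl, by rw [e, smul_e8_eq_single]; simp⟩
    · exact ⟨d, -1, Or.inr rfl, by rw [e, smul_e8_eq_single]; simp⟩
  · intro h v hv
    obtain ⟨i, s, hs, e⟩ := hv
    obtain ⟨d, t, ht, e'⟩ := h i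
    rcases hs with rfl | rfl
    · have h1 : v = E8 i := Subtype.ext (by rw [e]; exact (e8_eq_single i).symm)
      rw [h1, e']
      rcases ht with rfl | rfl
      · exact ⟨d, 8, Or.inl rfl, by rw [smul_e8_eq_single]; simp⟩
      · exact ⟨d, -8, Or.inr rfl, by rw [smul_e8_eq_single]; simp⟩
    · have h1 : v = (-1 : ℤ) • E8 i := Subtype.ext (by
        rw [e, AddSubgroup.coe_zsmul]
        exact (by rw [show ((E8 i : LL) : Vec) = e8 i from rfl, smul_e8_eq_single]; simp))
      rw [h1, map_zsmul_Co0 hg, AddSubgroup.coe_zsmul, e']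
      rcases ht with rfl | rfl
      · exact ⟨d, -8, Or.inr rfl, by rw [smul_smul, smul_e8_eq_single]; simp⟩
      · exact ⟨d, 8, Or.inl rfl, by rw [smul_smul, smul_e8_eq_single]; simp⟩

theorem mem_NC_iff {g : Equiv.Perm LL} :
    g ∈ NC ↔ g ∈ Co0 ∧ ∀ v : LL, v.1 ∈ stdCross → ((g v : LL) : Vec) ∈ stdCross := by
  constructor
  · intro h
    exact ⟨h.1, (pres_iff h.1).2 h.2⟩
  · intro h
    exact ⟨h.1, (pres_iff h.1).1 h.2⟩

/-- The cross stabiliser has the stated structure. -/
theorem S1571_aux : (∀ g : ↥Co0, (∀ v : ↥leechLattice, (v : GolayPt → ℤ) ∈ stdCross → ((g • v : ↥leechLattice) : GolayPt → ℤ) ∈ stdCross) →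
      ∃ f ∈ golayMonomialMaps, ∀ v : ↥leechLattice, ((g • v : ↥leechLattice) : GolayPt → ℤ) = f (v : GolayPt → ℤ)) ∧
    Nat.card {g : ↥Co0 // (∀ v : ↥leechLattice, (v : GolayPt → ℤ) ∈ stdCross → ((g • v : ↥leechLattice) : GolayPt → ℤ) ∈ stdCross)} = 4096 * 244823040 := by
  constructor
  · intro g hg
    have hP : Pres g.1 := (pres_iff g.2).1 hg
    obtain ⟨σ, c, hc, e⟩ := monoData_exists_eq g.2 hP
    refine ⟨signedPerm σ.1 c, ⟨σ.1, σ.2, c, hc, rfl⟩, fun v => ?_⟩
    show ((g.1 v : LL) : Vec) = _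
    rw [e]
    rfl
  · rw [← card_NC]
    apply Nat.card_congr
    exact
      { toFun := fun g => ⟨g.1.1, mem_NC_iff.2 ⟨g.1.2, g.2⟩⟩
        invFun := fun g => ⟨⟨g.1, (mem_NC_iff.1 g.2).1⟩, (mem_NC_iff.1 g.2).2⟩
        left_inv := fun g => rfl
        right_inv := fun g => rfl }

/-! ### The vectors of the standard cross -/

/-- The vectors `± 8 e_a` in the lattice. -/
def crossV (p : GolayPt × Bool) : LL := (if p.2 then (1 : ℤ) else -1) • E8 p.1

theorem crossV_coe (p : GolayPt × Bool) : (crossV p).1 = (if p.2 then (1 : ℤ) else -1) • e8 p.1 := rfl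

theorem crossV_inj : Function.Injective crossV := by
  rintro ⟨a, s⟩ ⟨b, t⟩ h
  have h0 := congrArg Subtype.val h
  rw [crossV_coe, crossV_coe] at h0
  have h1 := congrFun h0 a
  rw [smul_e8_apply, smul_e8_apply, if_pos rfl] at h1
  by_cases hab : a = b
  · subst hab
    rw [if_pos rfl] at h1
    cases s <;> cases t <;> simp at h1 ⊢
  · rw [if_neg hab] at h1
    cases s <;> simp at h1

theorem mem_range_crossV (v : LL) : v.1 ∈ stdCross ↔ v ∈ Set.range crossV := by
  constructor
  · rintro ⟨i, s, hs, e⟩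
    rcases hs with rfl | rfl
    · exact ⟨(i, true), Subtype.ext (by rw [crossV_coe, e, smul_e8_eq_single]; simp)⟩
    · exact ⟨(i, false), Subtype.ext (by rw [crossV_coe, e, smul_e8_eq_single]; simp)⟩
  · rintro ⟨⟨i, s⟩, rfl⟩
    cases s
    · exact ⟨i, -8, Or.inr rfl, by rw [crossV_coe, smul_e8_eq_single]; simp⟩
    · exact ⟨i, 8, Or.inl rfl, by rw [crossV_coe, smul_e8_eq_single]; simp⟩

theorem ncard_cross : {v : LL | v.1 ∈ stdCross}.ncard = 48 := by
  have h : {v : LL | v.1 ∈ stdCross} = Set.range crossV := by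
    ext v
    exact mem_range_crossV v
  rw [h, ← Set.image_univ, Set.ncard_image_of_injective _ crossV_inj, Set.ncard_univ, Nat.card_prod]
  simp

theorem univ_CSet : (Finset.univ : Finset GolayPt) ∈ CSet := Spor.univ_mem_supports_golayCode

theorem signV_univ (x : Vec) : signV Finset.univ x = -x := by
  funext i
  simp [signV]

theorem phi_E8 (σ : ↥M24) (b : GolayPt) : phi σ (E8 b) = E8 (σ.1 b) := by
  apply Subtype.ext
  rw [phi_apply]
  funext a
  show (if σ.1.symm a = b then (8 : ℤ) else 0) = if a = σ.1 b then 8 else 0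
  simp [Equiv.symm_apply_eq]

theorem sq_of_Pres {g : Equiv.Perm LL} (hg : g ∈ Co0) (x : LL) : sqNorm ((g x : LL) : Vec) = sqNorm x.1 := hg.2 x

/-- The orbit of `8 e_∞` under the monomial group. -/
theorem orbit_NC : MulAction.orbit ↥NC (E8 none) = {v : LL | v.1 ∈ stdCross} := by
  ext v
  constructor
  · rintro ⟨⟨g, hg⟩, rfl⟩
    have h0 := (mem_NC_iff.1 hg).2 (E8 none) ⟨none, 8, Or.inl rfl, e8_eq_single none⟩
    exact h0
  · intro hv
    obtain ⟨⟨a, s⟩, rfl⟩ := (mem_range_crossV v).1 hv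
    have := M24_isPretransitive
    obtain ⟨σ, hσ⟩ := MulAction.exists_smul_eq M24 none a
    have hσ' : σ.1 none = a := hσ
    cases s
    · refine ⟨⟨signP Finset.univ univ_CSet * phi σ, mul_mem (signP_mem_NC _ _) (phi_mem_NC σ)⟩, ?_⟩
      apply Subtype.ext
      show signV Finset.univ ((phi σ (E8 none) : LL) : Vec) = _
      rw [phi_E8, hσ', signV_univ, crossV_coe]
      simp [E8]
    · refine ⟨⟨phi σ, phi_mem_NC σ⟩, ?_⟩
      show phi σ (E8 none) = _
      rw [phi_E8, hσ']
      apply Subtype.ext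
      rw [crossV_coe]
      simp [E8]

/-- The orbit of `8 e_∞` under the automorphism group. -/
theorem orbit_Co0 : MulAction.orbit ↥Co0 (E8 none) = {v : LL | sqNorm v.1 = 64} := by
  ext v
  constructor
  · rintro ⟨g, rfl⟩
    show sqNorm ((g.1 (E8 none) : LL) : Vec) = 64
    rw [g.2.2]
    exact sqNorm_e8 none
  · intro hv
    obtain ⟨g, hg, e⟩ := (orb64 v hv).symm
    exact ⟨⟨g, hg⟩, e⟩

theorem ncard_norm64 : {v : LL | sqNorm v.1 = 64}.ncard = 398034000 := by
  have h := Cfsg.Agent.Lib.Leech.count64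
  have h1 : {x : GolayPt → ℤ | x ∈ leechLattice ∧ sqNorm x = ((64 : ℕ) : ℤ)} = Subtype.val '' {v : LL | sqNorm v.1 = 64} := by
    ext x
    constructor
    · rintro ⟨hx, hn⟩
      exact ⟨⟨x, hx⟩, by simpa using hn, rfl⟩
    · rintro ⟨v, hv, rfl⟩
      exact ⟨v.2, by simpa using hv⟩
  rw [h1, Set.ncard_image_of_injective _ Subtype.val_injective] at h
  exact h

/-- The common stabiliser. -/
theorem NC_inf_stab : NC ⊓ MulAction.stabilizer (Equiv.Perm LL) (E8 none) = Co0 ⊓ MulAction.stabilizer (Equiv.Perm LL) (E8 none) := by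
  ext g
  constructor
  · rintro ⟨h1, h2⟩
    exact ⟨h1.1, h2⟩
  · rintro ⟨h1, h2⟩
    exact ⟨mem_NC_of_fix h1 h2, h2⟩

theorem card_Co0 : Nat.card ↥Co0 = 8315553613086720000 := by
  have h1 := card_inf_stab_sub (G := Equiv.Perm LL) NC (E8 none)
  have h2 := card_inf_stab_sub (G := Equiv.Perm LL) Co0 (E8 none)
  rw [card_NC, orbit_NC, ncard_cross, NC_inf_stab] at h1
  rw [orbit_Co0, ncard_norm64] at h2
  rw [← h2]
  have h3 : Nat.card ↥(Co0 ⊓ MulAction.stabilizer (Equiv.Perm LL) (E8 none)) = 20891566080 :=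
    Nat.eq_of_mul_eq_mul_right (by norm_num : 0 < 48) (h1.trans (by norm_num))
  rw [h3]

/-! ### The centre -/

/-- Negation. -/
def negE : ↥Co0 := ⟨signP Finset.univ univ_CSet, signP_mem _ _⟩

theorem negE_apply (x : LL) : ((negE • x : LL) : Vec) = -x.1 := signV_univ x.1

theorem negE_ne_one : negE ≠ 1 := by
  intro h
  have h1 := negE_apply (E8 none)
  rw [h, one_smul] at h1
  have h2 := congrFun h1 none
  change (if (none : GolayPt) = none then (8 : ℤ) else 0) = -(if (none : GolayPt) = none then (8 : ℤ) else 0) at h2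
  norm_num at h2

theorem negE_mem_center : negE ∈ Subgroup.center ↥Co0 := by
  rw [Subgroup.mem_center_iff]
  intro g
  apply Subtype.ext
  ext x : 1
  apply Subtype.ext
  show ((g.1 (negE.1 x) : LL) : Vec) = ((negE.1 (g.1 x) : LL) : Vec)
  have h1 : negE.1 x = (-1 : ℤ) • x := Subtype.ext (by
    rw [AddSubgroup.coe_zsmul]
    show signV Finset.univ x.1 = _
    rw [signV_univ]
    simp)
  have h2 : negE.1 (g.1 x) = (-1 : ℤ) • g.1 x := Subtype.ext (by
    rw [AddSubgroup.coe_zsmul]
    show signV Finset.univ _ = _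
    rw [signV_univ]
    simp)
  rw [h1, h2, map_zsmul_Co0 g.2]

theorem word_sep : allBelow (fun j => allBelow (fun b => Nat.beq j b ||
    anyBelow (fun k => (word k).testBit j && !(word k).testBit b) 4096) 24) 24 = true := by decide +kernel

theorem exists_word_sep {j b : GolayPt} (h : j ≠ b) : ∃ k, (word k).testBit (idx j) = true ∧ (word k).testBit (idx b) = false := by
  have h1 := (allBelow_iff _ _).1 ((allBelow_iff _ _).1 word_sep (idx j) (idx_lt j)) (idx b) (idx_lt b)
  rw [Bool.or_eq_true] at h1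
  rcases h1 with h1 | h1
  · exact absurd (enc.idx_injective (Nat.eq_of_beq_eq_true h1)) h
  · obtain ⟨k, _, hk⟩ := (anyBelow_iff _ _).1 h1
    simp only [Bool.and_eq_true, Bool.not_eq_true'] at hk
    exact ⟨k, hk.1, hk.2⟩

theorem center_Pres {z : ↥Co0} (hz : z ∈ Subgroup.center ↥Co0) (b : GolayPt) :
    ∃ s : ℤ, (s = 1 ∨ s = -1) ∧ ((z.1 (E8 b) : LL) : Vec) = s • e8 b := by
  set y : Vec := ((z.1 (E8 b) : LL) : Vec) with hy
  have h0 : ∀ j, j ≠ b → y j = 0 := by
    intro j hj
    obtain ⟨k, h1, h2⟩ := exists_word_sep hj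
    set c : Finset GolayPt := enc.finOf (word k)
    have hc : c ∈ CSet := finOf_word_mem k
    have h3 : signP c hc (E8 b) = E8 b := by
      apply Subtype.ext
      funext a
      show (if a ∈ c then -e8 b a else e8 b a) = e8 b a
      split_ifs with h4
      · have h5 : a ≠ b := by
          rintro rfl
          rw [enc.mem_finOf] at h4
          rw [show (word k).testBit (enc.idx a) = (word k).testBit (idx a) from rfl, h2] at h4
          exact Bool.noConfusion h4
        simp [e8, h5]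
      · rfl
    have h4 : (⟨signP c hc, signP_mem c hc⟩ : ↥Co0) * z = z * ⟨signP c hc, signP_mem c hc⟩ :=
      (Subgroup.mem_center_iff.1 hz) _
    have h5 : signP c hc (z.1 (E8 b)) = z.1 (signP c hc (E8 b)) := by
      have := congrArg (fun f : ↥Co0 => f.1 (E8 b)) h4
      exact this
    rw [h3] at h5
    have h6 := congrFun (congrArg Subtype.val h5) j
    change (if j ∈ c then -y j else y j) = y j at h6
    have h7 : j ∈ c := by
      rw [enc.mem_finOf]
      exact h1
    rw [if_pos h7] at h6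
    omega
  have hn : sqNorm y = 64 := by
    rw [hy, z.2.2]
    exact sqNorm_e8 b
  have h1 : y b ^ 2 = 64 := by
    have h2 : sqNorm y = y b ^ 2 := by
      unfold sqNorm
      rw [Finset.sum_eq_single b]
      · intro j _ hj
        rw [h0 j hj]
        norm_num
      · simp
    omega
  have h2 : y b = 8 ∨ y b = -8 := by
    have : (y b - 8) * (y b + 8) = 0 := by nlinarith
    rcases mul_eq_zero.1 this with h | h
    · left; omega
    · right; omega
  rcases h2 with h2 | h2
  · refine ⟨1, Or.inl rfl, ?_⟩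
    funext j
    rw [smul_e8_apply]
    by_cases hj : j = b
    · subst hj
      rw [if_pos rfl, h2]
      norm_num
    · rw [if_neg hj, h0 j hj]
  · refine ⟨-1, Or.inr rfl, ?_⟩
    funext j
    rw [smul_e8_apply]
    by_cases hj : j = b
    · subst hj
      rw [if_pos rfl, h2]
      norm_num
    · rw [if_neg hj, h0 j hj]

theorem center_eq {z : ↥Co0} (hz : z ∈ Subgroup.center ↥Co0) : z = 1 ∨ z = negE := by
  choose s hs he using center_Pres hz
  have hP : Pres z.1 := fun b => ⟨b, s b, hs b, he b⟩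
  obtain ⟨π, t, hm⟩ := exists_monoData z.2 hP
  have hπ : ∀ b, π b = b := by
    intro b
    have h1 := hm.hE b
    rw [he b] at h1
    have h2 := congrFun h1 b
    rw [smul_e8_apply, smul_e8_apply, if_pos rfl] at h2
    by_contra hne
    rw [if_neg (Ne.symm hne)] at h2
    rcases hs b with h3 | h3 <;> rw [h3] at h2 <;> norm_num at h2
  have hts : ∀ b, t b = s b := by
    intro b
    have h1 := hm.hE b
    rw [he b, hπ b] at h1
    have h2 := congrFun h1 b
    rw [smul_e8_apply, smul_e8_apply, if_pos rfl, if_pos rfl] at h2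
    omega
  have hconst : ∀ a b, s a = s b := by
    intro a b
    have := M24_isPretransitive
    obtain ⟨σ, hσ⟩ := MulAction.exists_smul_eq M24 a b
    have hσ' : σ.1 a = b := hσ
    have h4 : (⟨phi σ, phi_mem σ⟩ : ↥Co0) * z = z * ⟨phi σ, phi_mem σ⟩ := (Subgroup.mem_center_iff.1 hz) _
    have h5 : phi σ (z.1 (E8 a)) = z.1 (phi σ (E8 a)) := congrArg (fun f : ↥Co0 => f.1 (E8 a)) h4
    rw [phi_E8, hσ'] at h5
    have h6 := congrArg Subtype.val h5
    rw [he b, phi_apply, he a] at h6
    have h7 := congrFun h6 b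
    have h8 : (s b • e8 b) b = s b * 8 := by rw [smul_e8_apply, if_pos rfl]
    rw [h8] at h7
    have h9 : permV σ.1 (s a • e8 a) b = s a * 8 := by
      show (s a • e8 a) (σ.1.symm b) = _
      rw [smul_e8_apply, if_pos]
      rw [Equiv.symm_apply_eq, hσ']
    rw [h9] at h7
    omega
  have hval : ∀ (x : LL) (a : GolayPt), ((z.1 x : LL) : Vec) a = s none * x.1 a := by
    intro x a
    have h1 := hm.hval x a
    rw [hπ a, hts a, hconst a none] at h1
    exact h1
  rcases hs none with h1 | h1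
  · left
    apply Subtype.ext
    ext x : 1
    apply Subtype.ext
    funext a
    rw [hval, h1]
    simp
  · right
    apply Subtype.ext
    ext x : 1
    apply Subtype.ext
    funext a
    rw [hval, h1]
    show _ = signV Finset.univ x.1 a
    rw [signV_univ]
    simp

theorem card_center : Nat.card (Subgroup.center ↥Co0) = 2 := by
  rw [Nat.card_eq_two_iff]
  refine ⟨⟨1, one_mem _⟩, ⟨negE, negE_mem_center⟩, ?_, ?_⟩
  · intro h
    exact negE_ne_one (congrArg Subtype.val h).symm
  · ext ⟨z, hz⟩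
    simp only [Set.mem_insert_iff, Set.mem_singleton_iff, Set.mem_univ, iff_true]
    rcases center_eq hz with rfl | rfl
    · exact Or.inl rfl
    · exact Or.inr rfl

end Cfsg.Agent.Lib.Conway
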