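import Cfsg.Agent.Lib.KnownSimple.Leech.Big

/-!
# Lookup in tables cut into blocks
-/

set_option autoImplicit false

namespace Cfsg.Agent.Lib.Conway

open Cfsg.Agent.Lib.KnownSimple.PE Cfsg.Agent.Lib.KnownSimple.Leech

/-- Lookup in a table cut into blocks of 64 entries, independent of the size of the table. -/
noncomputable def pgetH (w m : ℕ) (bl : List (List (List ℕ))) (i : ℕ) : ℕ :=
  force (Nat.shiftRight i 12) fun k1 => force (Nat.land (Nat.shiftRight i 9) 7) fun k2 =>
    force (Nat.land (Nat.shiftRight i 6) 7) fun k3 =>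
      Nat.land (Nat.shiftRight (lgetD 0 (lgetD [] (lgetD [] bl k1) k2) k3) (Nat.mul w (Nat.land i 63))) m

end Cfsg.Agent.Lib.Conway
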