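import Cfsg.Agent.Lib.Conway.Basic
import Cfsg.Agent.Lib.M24.Flag2

/-!
# Normal forms under the monomial group: the general lemmas

A vector of the lattice of norm at most 64 is determined up to signs by a word of the code and a few sets of points.
-/

set_option autoImplicit false

namespace Cfsg.Agent.Lib.Conway

open Cfsg Cfsg.Agent.Lib.Compute Cfsg.Agent.Lib.Golay
open Cfsg.Agent.Lib.KnownSimple.Leech

/-- Equivalence under the monomial group. -/
def NOrb (x y : LL) : Prop := ∃ n ∈ NC, n x = y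

theorem NOrb.refl (x : LL) : NOrb x x := ⟨1, one_mem _, rfl⟩

theorem NOrb.symm {x y : LL} (h : NOrb x y) : NOrb y x := by
  obtain ⟨g, hg, e⟩ := h
  exact ⟨g⁻¹, inv_mem hg, by rw [← e]; simp⟩

theorem NOrb.trans {x y z : LL} (h : NOrb x y) (h' : NOrb y z) : NOrb x z := by
  obtain ⟨g, hg, e⟩ := h
  obtain ⟨g', hg', e'⟩ := h'
  exact ⟨g' * g, mul_mem hg' hg, by rw [Equiv.Perm.mul_apply, e, e']⟩

theorem NOrb.orb {x y : LL} (h : NOrb x y) : Orb x y := by
  obtain ⟨g, hg, e⟩ := h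
  exact ⟨g, hg.1, e⟩

theorem NOrb.of_perm (σ : ↥M24) (x : LL) : NOrb x (phi σ x) := ⟨_, phi_mem_NC σ, rfl⟩

theorem NOrb.of_sign (c : Finset GolayPt) (hc : c ∈ CSet) (x : LL) : NOrb x (signP c hc x) := ⟨_, signP_mem_NC c hc, rfl⟩

/-! ### Values -/

theorem coord_sq_le {x : Vec} {N : ℤ} (hn : sqNorm x ≤ N) (a : GolayPt) : x a ^ 2 ≤ N :=
  (Finset.single_le_sum (f := fun i => x i ^ 2) (fun i _ => sq_nonneg (x i)) (Finset.mem_univ a)).trans hn

theorem coord_bd {x : Vec} (hn : sqNorm x ≤ 64) (a : GolayPt) : -8 ≤ x a ∧ x a ≤ 8 := by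
  have := coord_sq_le hn a
  constructor <;> nlinarith

/-- The coordinates of absolute value four. -/
noncomputable def fS (x : Vec) (t : ℤ) : Finset GolayPt := Finset.univ.filter fun a => x a = t ∨ x a = -t

theorem mem_fS {x : Vec} {t : ℤ} {a : GolayPt} : a ∈ fS x t ↔ x a = t ∨ x a = -t := by
  simp [fS]

theorem mem_support_iff {c : GolayPt → ZMod 2} {a : GolayPt} : a ∈ support₂ c ↔ (c a).val = 1 := by
  rw [mem_support₂]
  rcases zmod2_cases (c a) with ⟨h6, _⟩ | ⟨h6, _⟩ <;> rw [h6] <;> decide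

/-- The absolute value pattern. -/
noncomputable def pat (A S4 S6 S8 : Finset GolayPt) (a : GolayPt) : ℤ :=
  if a ∈ S8 then 8 else if a ∈ S6 then 6 else if a ∈ S4 then 4 else if a ∈ A then 2 else 0

theorem pat_image (σ : Equiv.Perm GolayPt) (A S4 S6 S8 : Finset GolayPt) (a : GolayPt) :
    pat (A.image σ) (S4.image σ) (S6.image σ) (S8.image σ) a = pat A S4 S6 S8 (σ.symm a) := by
  have h : ∀ S : Finset GolayPt, a ∈ S.image σ ↔ σ.symm a ∈ S := fun S => by
    constructor
    · intro h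
      obtain ⟨b, hb, rfl⟩ := Finset.mem_image.1 h
      simpa using hb
    · intro h
      exact Finset.mem_image.2 ⟨_, h, by simp⟩
  simp only [pat, h]

section even

variable {x : Vec} {c : GolayPt → ZMod 2}

theorem even_vals (h : ∀ i, x i % 4 = (0 + 2 * ((c i).val : ℤ)) % 4) (hn : sqNorm x ≤ 64) (a : GolayPt) :
    (a ∈ support₂ c ∧ (x a = 2 ∨ x a = -2 ∨ x a = 6 ∨ x a = -6)) ∨
      (a ∉ support₂ c ∧ (x a = 0 ∨ x a = 4 ∨ x a = -4 ∨ x a = 8 ∨ x a = -8)) := by
  have h1 := h a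
  have h2 := coord_bd hn a
  rw [mem_support_iff]
  rcases zmod2_cases (c a) with ⟨h6, h7⟩ | ⟨h6, h7⟩
  · right
    rw [h7] at h1
    refine ⟨by rw [h6]; simp, ?_⟩
    omega
  · left
    rw [h7] at h1
    refine ⟨by rw [h6]; rfl, ?_⟩
    omega

theorem even_abs (h : ∀ i, x i % 4 = (0 + 2 * ((c i).val : ℤ)) % 4) (hn : sqNorm x ≤ 64) (a : GolayPt) :
    |x a| = pat (support₂ c) (fS x 4) (fS x 6) (fS x 8) a := by
  unfold pat
  simp only [mem_fS]
  rcases even_vals h hn a with ⟨h1, h2⟩ | ⟨h1, h2⟩ <;>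
    [rw [if_pos h1] ; (rw [if_neg h1])] <;>
    rcases h2 with h2 | h2 | h2 | h2 <;> try rcases h2 with h2 | h2
  all_goals first | (rw [h2]; norm_num)

theorem even_sq (h : ∀ i, x i % 4 = (0 + 2 * ((c i).val : ℤ)) % 4) (hn : sqNorm x ≤ 64) :
    sqNorm x = 4 * ((support₂ c).card : ℤ) + 16 * ((fS x 4).card : ℤ) + 32 * ((fS x 6).card : ℤ) + 64 * ((fS x 8).card : ℤ) := by
  have h1 : ∀ a, x a ^ 2 = (if a ∈ support₂ c then 4 else 0) + (if a ∈ fS x 4 then 16 else 0) + (if a ∈ fS x 6 then 32 else 0) +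
      (if a ∈ fS x 8 then 64 else 0) := by
    intro a
    simp only [mem_fS]
    rcases even_vals h hn a with ⟨h1, h2⟩ | ⟨h1, h2⟩ <;>
      [rw [if_pos h1] ; (rw [if_neg h1])] <;>
      rcases h2 with h2 | h2 | h2 | h2 <;> try rcases h2 with h2 | h2
    all_goals first | (rw [h2]; norm_num)
  unfold sqNorm
  simp_rw [h1]
  rw [Finset.sum_add_distrib, Finset.sum_add_distrib, Finset.sum_add_distrib]
  simp only [Finset.sum_ite_mem, Finset.univ_inter, Finset.sum_const, nsmul_eq_mul]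
  ring

theorem even_S6_sub (h : ∀ i, x i % 4 = (0 + 2 * ((c i).val : ℤ)) % 4) (hn : sqNorm x ≤ 64) : fS x 6 ⊆ support₂ c := by
  intro a ha
  rcases even_vals h hn a with ⟨h1, _⟩ | ⟨_, h2⟩
  · exact h1
  · rw [mem_fS] at ha
    omega

theorem even_S4_out (h : ∀ i, x i % 4 = (0 + 2 * ((c i).val : ℤ)) % 4) (hn : sqNorm x ≤ 64) {a : GolayPt} (ha : a ∈ fS x 4) :
    a ∉ support₂ c := by
  rcases even_vals h hn a with ⟨_, h2⟩ | ⟨h1, _⟩
  · rw [mem_fS] at ha
    omega
  · exact h1

theorem even_S8_out (h : ∀ i, x i % 4 = (0 + 2 * ((c i).val : ℤ)) % 4) (hn : sqNorm x ≤ 64) {a : GolayPt} (ha : a ∈ fS x 8) :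
    a ∉ support₂ c := by
  rcases even_vals h hn a with ⟨_, h2⟩ | ⟨h1, _⟩
  · rw [mem_fS] at ha
    omega
  · exact h1

end even

/-! ### Vectors from digits -/

/-- A coordinate of a packed vector. -/
noncomputable def vP (P j : ℕ) : ℤ := Int.subNatNat (dgt P j) 8

/-- The patterns on numbers. -/
noncomputable def patB (mA m4 m6 m8 j : ℕ) : ℤ :=
  bcond (m8.testBit j) 8 (bcond (m6.testBit j) 6 (bcond (m4.testBit j) 4 (bcond (mA.testBit j) 2 0)))

theorem patB_eq (mA m4 m6 m8 : ℕ) (a : GolayPt) :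
    patB mA m4 m6 m8 (idx a) = pat (enc.finOf mA) (enc.finOf m4) (enc.finOf m6) (enc.finOf m8) a := by
  have h : ∀ m : ℕ, a ∈ enc.finOf m ↔ m.testBit (idx a) = true := fun m => enc.mem_finOf
  unfold patB pat
  simp only [h]
  cases m8.testBit (idx a) <;> cases m6.testBit (idx a) <;> cases m4.testBit (idx a) <;> cases mA.testBit (idx a) <;> rfl

/-! ### Sign changes on a fixed support -/

/-- A linear function of a mask. -/
noncomputable def kfold (kb : List ℕ) (t : ℕ) : ℕ :=
  Nat.rec 0 (fun j ih => bcond (t.testBit j) (Nat.xor ih (kb.getD j 0)) ih) 24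

/-- The sum of a vector on a mask. -/
noncomputable def sumT (F : ℕ → ℤ) (t : ℕ) : ℤ := sumN (fun j => bcond (t.testBit j) (F j) 0) 24

/-- The test on one mask. -/
noncomputable def leafS (F : ℕ → ℤ) (S : ℕ) (kb : List ℕ) (t : ℕ) : Bool :=
  bcond (decide (Int.emod (sumT F t) 4 = 0)) (Nat.beq (Nat.land (word (kfold kb t)) S) t) true

theorem exists_mask_iff (T : GolayPt → Prop) : ∃ t, t < 2 ^ 24 ∧ ∀ a, t.testBit (idx a) = true ↔ T a := by
  classical
  obtain ⟨t, ht, h⟩ := exists_wordOf (fun a => if T a then 1 else 0)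
  refine ⟨t, ht, fun a => ?_⟩
  have h1 := congrFun h a
  unfold wordOf at h1
  by_cases h2 : T a
  · rw [if_pos h2] at h1
    simp only [h2, iff_true]
    by_contra h3
    rw [if_neg h3] at h1
    exact zero_ne_one h1
  · rw [if_neg h2] at h1
    simp only [h2, iff_false]
    intro h3
    rw [if_pos h3] at h1
    exact one_ne_zero h1

theorem finOf_word_mem (k : ℕ) : (enc.finOf (word k) : Finset GolayPt) ∈ CSet :=
  ⟨wordOf (word k), word_mem k, support_wordOf _⟩

theorem sum_mask (F : ℕ → ℤ) (t : ℕ) (f : GolayPt → ℤ) (hf : ∀ a, f a = bcond (t.testBit (idx a)) (F (idx a)) 0) :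
    ∑ a, f a = sumT F t := by
  unfold sumT
  rw [sum_eq, sumN_eq]
  refine Finset.sum_congr rfl fun j hj => ?_
  rw [hf, idx_pt (Finset.mem_range.1 hj)]

/-- Sign changes from a scan of the masks. -/
theorem sign_step {y r : LL} {F : ℕ → ℤ} (hr : r.1 = ofF F) {S : ℕ} {kb : List ℕ}
    (hscan : sgnRec S (leafS F S kb) 24 0 = true) (hS : ∀ j, j < 24 → F j ≠ 0 → S.testBit j = true)
    (habs : ∀ a, |y.1 a| = |r.1 a|) (hsum : (∑ a, y.1 a) % 8 = (∑ a, r.1 a) % 8) :
    ∃ (c : Finset GolayPt) (hc : c ∈ CSet), signP c hc y = r := by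
  have hrv : ∀ a, r.1 a = F (idx a) := fun a => by rw [hr]; rfl
  obtain ⟨t, ht, hT⟩ := exists_mask_iff (fun a => y.1 a ≠ r.1 a)
  have hcases : ∀ a, y.1 a = r.1 a ∨ y.1 a = -r.1 a := fun a => by
    have h1 := habs a
    rcases abs_eq_abs.1 h1 with h | h
    · exact Or.inl h
    · exact Or.inr h
  have hsub : ∀ j, j < 24 → t.testBit j = true → S.testBit j = true := by
    intro j hj h1
    apply hS j hj
    have h2 := (hT (pt j)).1 (by rwa [idx_pt hj])
    have h3 := hrv (pt j)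
    rw [idx_pt hj] at h3
    rw [← h3]
    intro h4
    apply h2
    rcases hcases (pt j) with h5 | h5
    · exact h5
    · rw [h5, h4]
      simp
  have hleaf := sgnRec_spec S (leafS F S kb) 24 0 t hscan hsub
  rw [Nat.mod_eq_of_lt ht, zero_add] at hleaf
  have hsumT : ∑ a, (r.1 a - y.1 a) = 2 * sumT F t := by
    rw [← sum_mask F t (fun a => bcond (t.testBit (idx a)) (F (idx a)) 0) (fun _ => rfl), Finset.mul_sum]
    refine Finset.sum_congr rfl fun a _ => ?_
    cases h1 : t.testBit (idx a)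
    · have h2 : ¬ y.1 a ≠ r.1 a := fun h3 => by
        have := (hT a).2 h3
        rw [h1] at this
        exact Bool.noConfusion this
      push Not at h2
      rw [h2, bcond_false]
      ring
    · have h2 := (hT a).1 h1
      rw [bcond_true, ← hrv]
      rcases hcases a with h3 | h3
      · exact absurd h3 h2
      · rw [h3]
        ring
  have hmod : Int.emod (sumT F t) 4 = 0 := by
    rw [Finset.sum_sub_distrib] at hsumT
    show (sumT F t) % 4 = 0
    omega
  unfold leafS at hleaf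
  rw [show decide (Int.emod (sumT F t) 4 = 0) = true from decide_eq_true hmod, bcond_true] at hleaf
  have hland := Nat.eq_of_beq_eq_true hleaf
  refine ⟨enc.finOf (word (kfold kb t)), finOf_word_mem _, Subtype.ext ?_⟩
  funext a
  rw [signP_apply]
  unfold signV
  by_cases hra : r.1 a = 0
  · have h1 : y.1 a = 0 := by
      rcases hcases a with h5 | h5 <;> rw [h5, hra] <;> simp
    rw [h1, hra]
    simp
  · have hSa : S.testBit (idx a) = true := hS _ (idx_lt a) (by rwa [← hrv])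
    have hbit : (word (kfold kb t)).testBit (idx a) = t.testBit (idx a) := by
      have h2 := congrArg (fun m => Nat.testBit m (idx a)) hland
      have h3 : (Nat.land (word (kfold kb t)) S).testBit (idx a) = ((word (kfold kb t)).testBit (idx a) && S.testBit (idx a)) :=
        Nat.testBit_and _ _ _
      rw [h3, hSa, Bool.and_true] at h2
      exact h2
    have hmem : a ∈ (enc.finOf (word (kfold kb t)) : Finset GolayPt) ↔ t.testBit (idx a) = true := by
      rw [enc.mem_finOf]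
      show (word (kfold kb t)).testBit (idx a) = true ↔ _
      rw [hbit]
    by_cases h4 : t.testBit (idx a) = true
    · rw [if_pos (hmem.2 h4)]
      have h5 := (hT a).1 h4
      rcases hcases a with h3 | h3
      · exact absurd h3 h5
      · rw [h3]
        simp
    · rw [if_neg (fun h5 => h4 (hmem.1 h5))]
      have h5 : ¬ y.1 a ≠ r.1 a := fun h6 => h4 ((hT a).2 h6)
      push Not at h5
      exact h5

theorem sum_permV (σ : Equiv.Perm GolayPt) (x : Vec) : ∑ a, permV σ x a = ∑ a, x a := Equiv.sum_comp σ.symm x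

/-- The check that a packed vector is a representative with a given pattern. -/
noncomputable def repChk (P mA m4 m6 m8 : ℕ) (kb : List ℕ) : Bool :=
  chkL (vP P) && allBelow (fun j => decide (|vP P j| = patB mA m4 m6 m8 j)) 24 &&
    decide (Int.emod (sumN (vP P) 24) 8 = 0) &&
    allBelow (fun j => bcond (decide (vP P j = 0)) true (Nat.testBit (Nat.lor (Nat.lor mA m4) (Nat.lor m6 m8)) j)) 24 &&
    sgnRec (Nat.lor (Nat.lor mA m4) (Nat.lor m6 m8)) (leafS (vP P) (Nat.lor (Nat.lor mA m4) (Nat.lor m6 m8)) kb) 24 0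

/-- The vector with given digits. -/
noncomputable def repL (P : ℕ) (h : chkL (vP P) = true) : LL := ⟨ofF (vP P), mem_L_of_chkL h⟩

theorem repChk_L {P mA m4 m6 m8 : ℕ} {kb : List ℕ} (h : repChk P mA m4 m6 m8 kb = true) : chkL (vP P) = true := by
  unfold repChk at h
  simp only [Bool.and_eq_true] at h
  exact h.1.1.1.1

theorem repChk_abs {P mA m4 m6 m8 : ℕ} {kb : List ℕ} (h : repChk P mA m4 m6 m8 kb = true) (a : GolayPt) :
    |ofF (vP P) a| = pat (enc.finOf mA) (enc.finOf m4) (enc.finOf m6) (enc.finOf m8) a := by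
  unfold repChk at h
  simp only [Bool.and_eq_true] at h
  rw [← patB_eq]
  exact of_decide_eq_true ((allBelow_iff _ _).1 h.1.1.1.2 (idx a) (idx_lt a))

theorem repChk_sum {P mA m4 m6 m8 : ℕ} {kb : List ℕ} (h : repChk P mA m4 m6 m8 kb = true) :
    (∑ a, ofF (vP P) a) % 8 = 0 := by
  unfold repChk at h
  simp only [Bool.and_eq_true] at h
  rw [sum_ofF]
  exact of_decide_eq_true h.1.1.2

theorem repChk_nz {P mA m4 m6 m8 : ℕ} {kb : List ℕ} (h : repChk P mA m4 m6 m8 kb = true) (j : ℕ) (hj : j < 24) (h0 : vP P j ≠ 0) :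
    Nat.testBit (Nat.lor (Nat.lor mA m4) (Nat.lor m6 m8)) j = true := by
  unfold repChk at h
  simp only [Bool.and_eq_true] at h
  have h1 := (allBelow_iff _ _).1 h.1.2 j hj
  rw [show decide (vP P j = 0) = false from decide_eq_false h0, bcond_false] at h1
  exact h1

theorem repChk_scan {P mA m4 m6 m8 : ℕ} {kb : List ℕ} (h : repChk P mA m4 m6 m8 kb = true) :
    sgnRec (Nat.lor (Nat.lor mA m4) (Nat.lor m6 m8)) (leafS (vP P) (Nat.lor (Nat.lor mA m4) (Nat.lor m6 m8)) kb) 24 0 = true := by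
  unfold repChk at h
  simp only [Bool.and_eq_true] at h
  exact h.2

/-- Reduction of an even vector to a representative. -/
theorem nf_even {x : LL} {A S4 S6 S8 : Finset GolayPt} (hx : ∀ a, |x.1 a| = pat A S4 S6 S8 a) (hsum : (∑ a, x.1 a) % 8 = 0)
    {σ : ↥M24} {mA m4 m6 m8 P : ℕ} {kb : List ℕ} (h1 : A.image σ.1 = enc.finOf mA) (h2 : S4.image σ.1 = enc.finOf m4)
    (h3 : S6.image σ.1 = enc.finOf m6) (h4 : S8.image σ.1 = enc.finOf m8) (hr : repChk P mA m4 m6 m8 kb = true) :
    NOrb x (repL P (repChk_L hr)) := by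
  refine (NOrb.of_perm σ x).trans ?_
  have habs : ∀ a, |(phi σ x).1 a| = |(repL P (repChk_L hr)).1 a| := by
    intro a
    have e1 : (repL P (repChk_L hr)).1 = ofF (vP P) := rfl
    rw [e1, repChk_abs hr, ← h1, ← h2, ← h3, ← h4, pat_image, ← hx, phi_apply]
    rfl
  have hs : (∑ a, (phi σ x).1 a) % 8 = (∑ a, (repL P (repChk_L hr)).1 a) % 8 := by
    have e1 : (repL P (repChk_L hr)).1 = ofF (vP P) := rfl
    rw [e1, repChk_sum hr, phi_apply, sum_permV, hsum]
  obtain ⟨c, hc, e⟩ := sign_step (y := phi σ x) (r := repL P (repChk_L hr)) (F := vP P) rfl (repChk_scan hr)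
    (fun j hj h0 => repChk_nz hr j hj h0) habs hs
  exact ⟨_, signP_mem_NC c hc, e⟩

/-! ### Odd vectors -/

/-- The values of an odd vector with all coordinates one modulo four. -/
noncomputable def oddPat (S3 S5 S7 : Finset GolayPt) (a : GolayPt) : ℤ :=
  if a ∈ S7 then -7 else if a ∈ S5 then 5 else if a ∈ S3 then -3 else 1

/-- The values on numbers. -/
noncomputable def oddB (m3 m5 j : ℕ) : ℤ := bcond (m5.testBit j) 5 (bcond (m3.testBit j) (-3) 1)

/-- The check on an odd representative. -/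
noncomputable def oddChk (P m3 m5 : ℕ) : Bool :=
  chkL (vP P) && allBelow (fun j => decide (vP P j = oddB m3 m5 j)) 24

theorem oddChk_L {P m3 m5 : ℕ} (h : oddChk P m3 m5 = true) : chkL (vP P) = true := by
  unfold oddChk at h
  simp only [Bool.and_eq_true] at h
  exact h.1

theorem oddChk_val {P m3 m5 : ℕ} (h : oddChk P m3 m5 = true) (a : GolayPt) :
    ofF (vP P) a = oddPat (enc.finOf m3) (enc.finOf m5) ∅ a := by
  unfold oddChk at h
  simp only [Bool.and_eq_true] at h
  have h1 : vP P (idx a) = oddB m3 m5 (idx a) := of_decide_eq_true ((allBelow_iff _ _).1 h.2 (idx a) (idx_lt a))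
  show vP P (idx a) = _
  rw [h1]
  have hm : ∀ m : ℕ, a ∈ enc.finOf m ↔ m.testBit (idx a) = true := fun m => enc.mem_finOf
  unfold oddB oddPat
  simp only [hm, Finset.notMem_empty, if_false]
  cases m3.testBit (idx a) <;> cases m5.testBit (idx a) <;> rfl

theorem oddPat_image (σ : Equiv.Perm GolayPt) (S3 S5 : Finset GolayPt) (a : GolayPt) :
    oddPat (S3.image σ) (S5.image σ) ∅ a = oddPat S3 S5 ∅ (σ.symm a) := by
  have h : ∀ S : Finset GolayPt, a ∈ S.image σ ↔ σ.symm a ∈ S := fun S => by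
    constructor
    · intro h
      obtain ⟨b, hb, rfl⟩ := Finset.mem_image.1 h
      simpa using hb
    · intro h
      exact Finset.mem_image.2 ⟨_, h, by simp⟩
  simp only [oddPat, h, Finset.notMem_empty, if_false]

section odd

variable {y : Vec}

theorem odd_vals (h : ∀ a, y a % 4 = 1) (hn : sqNorm y ≤ 64) (a : GolayPt) : y a = 1 ∨ y a = -3 ∨ y a = 5 ∨ y a = -7 := by
  have h1 := h a
  have h2 := coord_bd hn a
  omega

/-- The coordinates of a given value. -/
noncomputable def fV (y : Vec) (t : ℤ) : Finset GolayPt := Finset.univ.filter fun a => y a = t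

theorem mem_fV {t : ℤ} {a : GolayPt} : a ∈ fV y t ↔ y a = t := by
  simp [fV]

theorem odd_eq (h : ∀ a, y a % 4 = 1) (hn : sqNorm y ≤ 64) (a : GolayPt) :
    y a = oddPat (fV y (-3)) (fV y 5) (fV y (-7)) a := by
  unfold oddPat
  simp only [mem_fV]
  rcases odd_vals h hn a with h1 | h1 | h1 | h1 <;> rw [h1] <;> norm_num

theorem odd_sq (h : ∀ a, y a % 4 = 1) (hn : sqNorm y ≤ 64) :
    sqNorm y = 24 + 8 * ((fV y (-3)).card : ℤ) + 24 * ((fV y 5).card : ℤ) + 48 * ((fV y (-7)).card : ℤ) := by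
  have h1 : ∀ a, y a ^ 2 = 1 + (if a ∈ fV y (-3) then 8 else 0) + (if a ∈ fV y 5 then 24 else 0) + (if a ∈ fV y (-7) then 48 else 0) := by
    intro a
    simp only [mem_fV]
    rcases odd_vals h hn a with h1 | h1 | h1 | h1 <;> rw [h1] <;> norm_num
  unfold sqNorm
  simp_rw [h1]
  rw [Finset.sum_add_distrib, Finset.sum_add_distrib, Finset.sum_add_distrib]
  simp only [Finset.sum_ite_mem, Finset.univ_inter, Finset.sum_const, nsmul_eq_mul]
  have hu : ((Finset.univ : Finset GolayPt).card : ℤ) = 24 := by simp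
  rw [hu]
  ring

end odd

/-- An odd vector is equivalent to one with all coordinates one modulo four. -/
theorem odd_normal {x : LL} {c : GolayPt → ZMod 2} (hc : c ∈ golayCode)
    (h : ∀ i, x.1 i % 4 = (1 + 2 * ((c i).val : ℤ)) % 4) :
    ∃ y : LL, NOrb x y ∧ (∀ a, y.1 a % 4 = 1) ∧ sqNorm y.1 = sqNorm x.1 := by
  refine ⟨signP (support₂ c) ⟨c, hc, rfl⟩ x, NOrb.of_sign _ _ x, fun a => ?_, sqNorm_signV _ _⟩
  show signV (support₂ c) x.1 a % 4 = 1
  unfold signV
  have h1 := h a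
  by_cases h2 : a ∈ support₂ c
  · rw [if_pos h2]
    have h3 := mem_support_iff.1 h2
    rw [h3] at h1
    push_cast at h1
    omega
  · rw [if_neg h2]
    have h3 : (c a).val = 0 := by
      rcases zmod2_cases (c a) with ⟨_, h7⟩ | ⟨h6, _⟩
      · exact_mod_cast h7
      · exact absurd (mem_support_iff.2 (by rw [h6]; rfl)) h2
    rw [h3] at h1
    push_cast at h1
    omega

theorem nf_odd {y : LL} {S3 S5 : Finset GolayPt} (hy : ∀ a, y.1 a = oddPat S3 S5 ∅ a) {σ : ↥M24} {m3 m5 P : ℕ}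
    (h1 : S3.image σ.1 = enc.finOf m3) (h2 : S5.image σ.1 = enc.finOf m5) (hr : oddChk P m3 m5 = true) :
    NOrb y (repL P (oddChk_L hr)) := by
  refine ⟨phi σ, phi_mem_NC σ, Subtype.ext ?_⟩
  funext a
  rw [phi_apply]
  show y.1 (σ.1.symm a) = ofF (vP P) a
  rw [oddChk_val hr, hy, ← h1, ← h2, oddPat_image]

theorem finOf_zero : (enc.finOf 0 : Finset GolayPt) = ∅ := by
  ext a
  rw [enc.mem_finOf]
  simp

/-! ### Moving points by the group -/

theorem exists_set_map {n : ℕ} (hn : n ≤ 5) {U U' : Finset GolayPt} (hU : U.card = n) (hU' : U'.card = n) :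
    ∃ σ : ↥M24, U.image σ.1 = U' := by
  have := M24_isMultiplyPretransitive n hn
  let x : Fin n ↪ GolayPt := ((Finset.equivFinOfCardEq hU).symm.toEmbedding).trans (Function.Embedding.subtype _)
  let y : Fin n ↪ GolayPt := ((Finset.equivFinOfCardEq hU').symm.toEmbedding).trans (Function.Embedding.subtype _)
  obtain ⟨g, hg⟩ := MulAction.exists_smul_eq M24 x y
  refine ⟨g, ?_⟩
  have hsub : U.image g.1 ⊆ U' := by
    intro b hb
    obtain ⟨a, ha, rfl⟩ := Finset.mem_image.1 hb
    set i := Finset.equivFinOfCardEq hU ⟨a, ha⟩ with hi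
    have e1 : x i = a := by
      show ((Finset.equivFinOfCardEq hU).symm i : GolayPt) = a
      rw [hi, Equiv.symm_apply_apply]
    have e2 : g.1 a = y i := by
      rw [← e1]
      exact congrFun (congrArg (fun f : Fin n ↪ GolayPt => (f : Fin n → GolayPt)) hg) i
    rw [e2]
    exact ((Finset.equivFinOfCardEq hU').symm i).2
  apply Finset.eq_of_subset_of_card_le hsub
  rw [hU', Finset.card_image_of_injective _ g.1.injective, hU]

theorem exists_three {p q r p' q' r' : GolayPt} (h1 : p ≠ q) (h2 : p ≠ r) (h3 : q ≠ r) (h1' : p' ≠ q') (h2' : p' ≠ r') (h3' : q' ≠ r') :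
    ∃ σ : ↥M24, σ.1 p = p' ∧ σ.1 q = q' ∧ σ.1 r = r' := by
  have := M24_isMultiplyPretransitive 3 (by norm_num)
  let x : Fin 3 ↪ GolayPt := ⟨![p, q, r], by
    intro i j h
    fin_cases i <;> fin_cases j <;> simp_all⟩
  let y : Fin 3 ↪ GolayPt := ⟨![p', q', r'], by
    intro i j h
    fin_cases i <;> fin_cases j <;> simp_all⟩
  obtain ⟨g, hg⟩ := MulAction.exists_smul_eq M24 x y
  have e : ∀ i, g.1 (x i) = y i := fun i => congrFun (congrArg (fun f : Fin 3 ↪ GolayPt => (f : Fin 3 → GolayPt)) hg) i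
  exact ⟨g, e 0, e 1, e 2⟩

/-- Moving a point by a list of elements of a stabiliser. -/
theorem exists_move {T L Ms : List ℕ} (hg : Cfsg.Agent.Lib.M24.gensOK T L Ms = true) (hL : ∀ i ∈ L, i < 24) {m j₀ : ℕ}
    (hcov : allBelow (fun j => !m.testBit j || T.any (fun p => Nat.beq (pc p j) j₀)) 24 = true) {a : GolayPt}
    (ha : m.testBit (idx a) = true) : ∃ τ ∈ Cfsg.Agent.Lib.M24.fixSub L Ms, τ.1 a = pt j₀ := by
  have h1 := (allBelow_iff _ _).1 hcov (idx a) (idx_lt a)
  rw [ha, Bool.not_true, Bool.false_or, List.any_eq_true] at h1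
  obtain ⟨p, hp, h2⟩ := h1
  obtain ⟨hv, hmem⟩ := Cfsg.Agent.Lib.M24.gensOK_spec hg hL p hp
  refine ⟨_, hmem, ?_⟩
  show ppm p a = _
  have h3 := Cfsg.Agent.Lib.M24.code_pt (Cfsg.Agent.Lib.M24.vld_code hv) (idx_lt a)
  rw [pt_idx, Nat.eq_of_beq_eq_true h2] at h3
  exact h3

end Cfsg.Agent.Lib.Conway
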