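import Cfsg.Agent.Lib.Leech.Count2
import Cfsg.Agent.Lib.Leech.Index
import Cfsg.Agent.Lib.Conway.Shape

/-!
# The shapes of the vectors of norm 48
-/

set_option autoImplicit false

namespace Cfsg.Agent.Lib.Conway

open Cfsg Cfsg.Agent.Lib.Compute Cfsg.Agent.Lib.Golay
open Cfsg.Agent.Lib.Leech
open Cfsg.Agent.Lib.KnownSimple.Leech (Vec)

/-- Counting a family of subsets of the sets of vectors attached to words. -/
theorem card_fam (m : ℕ) (hm : m = 0 ∨ m = 1) (F : Finset GolayPt → Finset Vec) (hsub : ∀ A x, x ∈ F A → x ∈ Tset (m : ℤ) A 48)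
    (G : ℕ → ℕ) (hG : ∀ A ∈ CSf, (F A).card = G A.card) {total : ℕ}
    (htot : sumB (fun k => G (Enc.popAux (word k) 24)) 4096 = total) : (CSf.biUnion F).card = total := by
  have hm' : (m : ℤ) = 0 ∨ (m : ℤ) = 1 := by
    rcases hm with rfl | rfl <;> simp
  rw [Finset.card_biUnion]
  · rw [Finset.sum_congr rfl hG, CSf, Finset.sum_image, ← htot, sumB_eq]
    · apply Finset.sum_congr rfl
      intro k _
      rw [card_enc_finOf]
    · intro a ha b hb hab
      have ha' : a < 4096 := Finset.mem_range.1 ha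
      have hb' : b < 4096 := Finset.mem_range.1 hb
      exact word_injOn ha' hb' (enc.finOf_injOn (word_lt ha') (word_lt hb') hab)
  · intro A hA A' hA' hne
    rw [Function.onFun, Finset.disjoint_left]
    intro x hx hx'
    apply hne
    have key : ∀ {B : Finset GolayPt}, x ∈ F B → ∀ i, x i % 4 = ((m : ℤ) + 2 * ind B i) % 4 :=
      fun h i => (mem_sI.1 ((mem_Tset.1 (hsub _ _ h)).1 i)).2
    exact (data_unique hm' hm' (key hx) (key hx')).2

theorem data_iff {x : Vec} {m : ℕ} {A : Finset GolayPt} (hA : A ∈ CS) :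
    x ∈ Tset (m : ℤ) A 48 ↔ IsData x (m : ℤ) A ∧ sqNorm x = 48 := by
  rw [mem_Tset_iff hA (by norm_num)]
  norm_num

theorem lattice_of_Tset {x : Vec} {m : ℕ} {A : Finset GolayPt} (hA : A ∈ CS) (h : x ∈ Tset (m : ℤ) A 48) :
    x ∈ leechLattice ∧ sqNorm x = 48 := by
  obtain ⟨h1, h2⟩ := (data_iff hA).1 h
  exact ⟨mem_leechLattice.2 (leech_of_data h1), h2⟩

theorem exists_data {x : Vec} (hx : x ∈ leechLattice) : ∃ (m : ℕ) (A : Finset GolayPt), (m = 0 ∨ m = 1) ∧ A ∈ CS ∧ IsData x (m : ℤ) A := by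
  obtain ⟨m, A, hm, hd⟩ := data_of_leech (mem_leechLattice.1 hx)
  rcases hm with rfl | rfl
  · exact ⟨0, A, Or.inl rfl, hd.1, by simpa using hd⟩
  · exact ⟨1, A, Or.inr rfl, hd.1, by simpa using hd⟩

theorem sum_ind' (A : Finset GolayPt) : ∑ i, ind A i = (A.card : ℤ) := by
  simp only [ind]
  rw [Finset.sum_ite_mem]
  simp

/-! ### Even vectors -/

section even

variable {x : Vec} {A : Finset GolayPt}

theorem even_val (h : ∀ i, x i % 4 = ((0 : ℕ) + 2 * ind A i) % 4) (hn : sqNorm x = 48) (i : GolayPt) :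
    (ind A i = 1 ∧ (x i = 2 ∨ x i = -2 ∨ x i = 6 ∨ x i = -6)) ∨ (ind A i = 0 ∧ (x i = 0 ∨ x i = 4 ∨ x i = -4)) := by
  have h1 := h i
  have h2 : x i ^ 2 ≤ 48 := coord_sq_le (by omega) i
  have h3 : -6 ≤ x i := by nlinarith
  have h4 : x i ≤ 6 := by nlinarith
  rcases ind_cases A i with h5 | h5 <;> rw [h5] at h1 ⊢ <;> push_cast at h1
  · right
    refine ⟨rfl, ?_⟩
    omega
  · left
    refine ⟨rfl, ?_⟩
    omega

theorem even_term (h : ∀ i, x i % 4 = ((0 : ℕ) + 2 * ind A i) % 4) (hn : sqNorm x = 48) (i : GolayPt) :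
    (x i ^ 2 - 4 * ind A i = 0 ∧ (x i = 0 ∨ x i = 2 ∨ x i = -2)) ∨ (x i ^ 2 - 4 * ind A i = 16 ∧ (x i = 4 ∨ x i = -4)) ∨
      (x i ^ 2 - 4 * ind A i = 32) := by
  rcases even_val h hn i with ⟨h1, h2⟩ | ⟨h1, h2⟩ <;> rw [h1]
  · rcases h2 with h2 | h2 | h2 | h2 <;> rw [h2] <;> norm_num
  · rcases h2 with h2 | h2 | h2 <;> rw [h2] <;> norm_num

theorem even_sum (hn : sqNorm x = 48) : ∑ i, (x i ^ 2 - 4 * ind A i) = 48 - 4 * (A.card : ℤ) := by
  rw [Finset.sum_sub_distrib, ← Finset.mul_sum, sum_ind']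
  have : ∑ i, x i ^ 2 = 48 := hn
  rw [this]

theorem even_small_of {t : GolayPt → ℤ} (ht : ∀ i, 0 ≤ t i) {i : GolayPt} : t i ≤ ∑ j, t j :=
  Finset.single_le_sum (f := t) (fun j _ => ht j) (Finset.mem_univ i)

theorem even_term_nonneg (h : ∀ i, x i % 4 = ((0 : ℕ) + 2 * ind A i) % 4) (hn : sqNorm x = 48) (i : GolayPt) :
    0 ≤ x i ^ 2 - 4 * ind A i := by
  rcases even_term h hn i with ⟨h1, _⟩ | ⟨h1, _⟩ | h1 <;> rw [h1] <;> norm_num

/-- The first family. -/
theorem shape2_iff (hd : IsData x ((0 : ℕ) : ℤ) A) (hn : sqNorm x = 48) : (∀ i, x i = 0 ∨ x i = 2 ∨ x i = -2) ↔ A.card = 12 := by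
  have h := hd.2.1
  have hs := even_sum (A := A) hn
  constructor
  · intro hv
    have h0 : ∀ i, x i ^ 2 - 4 * ind A i = 0 := by
      intro i
      rcases even_term h hn i with ⟨h1, _⟩ | ⟨_, h2⟩ | h1
      · exact h1
      · have := hv i
        omega
      · exfalso
        rcases hv i with h2 | h2 | h2 <;> have h3 := ind_cases A i <;> rw [h2] at h1 <;> rcases h3 with h3 | h3 <;> rw [h3] at h1 <;> norm_num at h1
    rw [Finset.sum_eq_zero fun i _ => h0 i] at hs
    omega
  · intro hc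
    have h0 : ∑ i, (x i ^ 2 - 4 * ind A i) = 0 := by rw [hs, hc]; norm_num
    have h1 := (Finset.sum_eq_zero_iff_of_nonneg fun i _ => even_term_nonneg h hn i).1 h0
    intro i
    rcases even_term h hn i with ⟨_, h2⟩ | ⟨h2, _⟩ | h2
    · exact h2
    · have := h1 i (Finset.mem_univ i)
      omega
    · have := h1 i (Finset.mem_univ i)
      omega

/-- The third family. -/
theorem shape4_iff (hd : IsData x ((0 : ℕ) : ℤ) A) (hn : sqNorm x = 48) (hA0 : A.card ≠ 0) : (∃ i, |x i| = 4) ↔ A.card = 8 := by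
  have h := hd.2.1
  have hs := even_sum (A := A) hn
  have hc := CS_card hd.1
  constructor
  · rintro ⟨i, hi⟩
    have h1 : x i = 4 ∨ x i = -4 := by
      rcases abs_eq (by norm_num : (0 : ℤ) ≤ 4) |>.1 hi with h2 | h2
      · exact Or.inl h2
      · exact Or.inr h2
    have h2 : 16 ≤ x i ^ 2 - 4 * ind A i := by
      rcases even_val h hn i with ⟨h3, h4⟩ | ⟨h3, _⟩
      · omega
      · rw [h3]
        rcases h1 with h1 | h1 <;> rw [h1] <;> norm_num
    have h3 := even_small_of (t := fun i => x i ^ 2 - 4 * ind A i) (fun i => even_term_nonneg h hn i) (i := i)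
    rw [hs] at h3
    have h4 : (A.card : ℤ) ≤ 8 := by omega
    have h5 : A.card ≤ 8 := by exact_mod_cast h4
    omega
  · intro hc8
    by_contra hno
    push Not at hno
    have hno' : ∀ i, x i ≠ 4 ∧ x i ≠ -4 := fun i => by
      have := hno i
      constructor
      · intro h1
        rw [h1] at this
        exact this (by norm_num)
      · intro h1
        rw [h1] at this
        exact this (by norm_num)
    by_cases hall : ∀ i, x i ^ 2 - 4 * ind A i = 0
    · rw [Finset.sum_eq_zero fun i _ => hall i, hc8] at hs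
      norm_num at hs
    · push Not at hall
      obtain ⟨i, hi⟩ := hall
      have h3 := even_small_of (t := fun i => x i ^ 2 - 4 * ind A i) (fun i => even_term_nonneg h hn i) (i := i)
      rw [hs, hc8] at h3
      rcases even_term h hn i with ⟨h1, _⟩ | ⟨_, h2⟩ | h1
      · exact hi h1
      · have := hno' i
        omega
      · rw [h1] at h3
        norm_num at h3

end even

/-! ### Odd vectors -/

section odd

variable {x : Vec} {A : Finset GolayPt}

theorem odd_val (h : ∀ i, x i % 4 = ((1 : ℕ) + 2 * ind A i) % 4) (hn : sqNorm x = 48) (i : GolayPt) :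
    ((x i = 1 ∨ x i = -1) ∧ x i ^ 2 - 1 = 0) ∨ ((x i = 3 ∨ x i = -3) ∧ x i ^ 2 - 1 = 8) ∨ ((x i = 5 ∨ x i = -5) ∧ x i ^ 2 - 1 = 24) := by
  have h1 := h i
  have h2 : x i ^ 2 ≤ 48 := coord_sq_le (by omega) i
  have h3 : -6 ≤ x i := by nlinarith
  have h4 : x i ≤ 6 := by nlinarith
  have h5 := ind_cases A i
  have h6 : x i = 1 ∨ x i = -1 ∨ x i = 3 ∨ x i = -3 ∨ x i = 5 ∨ x i = -5 := by
    rcases h5 with h5 | h5 <;> rw [h5] at h1 <;> push_cast at h1 <;> omega
  rcases h6 with h6 | h6 | h6 | h6 | h6 | h6 <;> rw [h6] <;> norm_num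

theorem odd_sum (hn : sqNorm x = 48) : ∑ i, (x i ^ 2 - 1) = 24 := by
  rw [Finset.sum_sub_distrib]
  have : ∑ i, x i ^ 2 = 48 := hn
  rw [this]
  simp

theorem odd_term_nonneg (h : ∀ i, x i % 4 = ((1 : ℕ) + 2 * ind A i) % 4) (hn : sqNorm x = 48) (i : GolayPt) : 0 ≤ x i ^ 2 - 1 := by
  rcases odd_val h hn i with ⟨_, h1⟩ | ⟨_, h1⟩ | ⟨_, h1⟩ <;> rw [h1] <;> norm_num

/-- Shapes of an odd vector. -/
theorem odd_cases (h : ∀ i, x i % 4 = ((1 : ℕ) + 2 * ind A i) % 4) (hn : sqNorm x = 48) :
    (∃ i j k : GolayPt, i ≠ j ∧ j ≠ k ∧ i ≠ k ∧ |x i| = 3 ∧ |x j| = 3 ∧ |x k| = 3) ↔ ¬ ∃ i, |x i| = 5 := by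
  have hs := odd_sum (x := x) hn
  have hnn := odd_term_nonneg h hn
  constructor
  · rintro ⟨i, j, k, hij, hjk, hik, hi, hj, hk⟩ ⟨l, hl⟩
    have val : ∀ a, |x a| = 3 → x a ^ 2 - 1 = 8 := by
      intro a ha
      have : x a ^ 2 = |x a| ^ 2 := (sq_abs _).symm
      rw [this, ha]
      norm_num
    have val5 : x l ^ 2 - 1 = 24 := by
      have : x l ^ 2 = |x l| ^ 2 := (sq_abs _).symm
      rw [this, hl]
      norm_num
    have hli : l ≠ i := by
      rintro rfl
      rw [hi] at hl
      norm_num at hl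
    have hlj : l ≠ j := by
      rintro rfl
      rw [hj] at hl
      norm_num at hl
    have hlk : l ≠ k := by
      rintro rfl
      rw [hk] at hl
      norm_num at hl
    have hsub : ({i, j, k, l} : Finset GolayPt) ⊆ Finset.univ := Finset.subset_univ _
    have h1 := Finset.sum_le_sum_of_subset_of_nonneg (f := fun a => x a ^ 2 - 1) hsub (fun a _ _ => hnn a)
    rw [Finset.sum_insert (by simp [hij, hik, hli.symm]), Finset.sum_insert (by simp [hjk, hlj.symm]),
      Finset.sum_insert (by simp [hlk.symm]), Finset.sum_singleton, val i hi, val j hj, val k hk, val5, hs] at h1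
    norm_num at h1
  · intro hno
    push Not at hno
    have h8 : ∀ a, x a ^ 2 - 1 = if a ∈ Finset.univ.filter (fun a => |x a| = 3) then 8 else 0 := by
      intro a
      simp only [Finset.mem_filter, Finset.mem_univ, true_and]
      rcases odd_val h hn a with ⟨h1, h2⟩ | ⟨h1, h2⟩ | ⟨h1, h2⟩
      · rw [h2, if_neg]
        rcases h1 with h1 | h1 <;> rw [h1] <;> norm_num
      · rw [h2, if_pos]
        rcases h1 with h1 | h1 <;> rw [h1] <;> norm_num
      · exfalso
        apply hno a
        rcases h1 with h1 | h1 <;> rw [h1] <;> norm_num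
    simp_rw [h8] at hs
    rw [Finset.sum_ite_mem, Finset.univ_inter, Finset.sum_const, nsmul_eq_mul] at hs
    have hc : (Finset.univ.filter (fun a => |x a| = 3)).card = 3 := by
      have : ((Finset.univ.filter (fun a => |x a| = 3)).card : ℤ) = 3 := by omega
      exact_mod_cast this
    obtain ⟨i, j, k, hij, hik, hjk, e⟩ := Finset.card_eq_three.1 hc
    have hm : ∀ a ∈ ({i, j, k} : Finset GolayPt), |x a| = 3 := by
      intro a ha
      rw [← e] at ha
      exact (Finset.mem_filter.1 ha).2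
    exact ⟨i, j, k, hij, hjk, hik, hm i (by simp), hm j (by simp), hm k (by simp)⟩

/-- The sign of a coordinate. -/
def sg (A : Finset GolayPt) (a : GolayPt) : ℤ := if a ∈ A then -1 else 1

/-- The vector with a coordinate five. -/
def v5 (A : Finset GolayPt) (i : GolayPt) : Vec := fun a => sg A a * (if a = i then 5 else 1)

theorem sum_sg (A : Finset GolayPt) : ∑ a, sg A a = 24 - 2 * (A.card : ℤ) := by
  have h : ∀ a, sg A a = 1 - 2 * ind A a := by
    intro a
    unfold sg ind
    split_ifs <;> norm_num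
  simp_rw [h]
  rw [Finset.sum_sub_distrib, ← Finset.mul_sum, sum_ind']
  simp

theorem sum_v5 (A : Finset GolayPt) (i : GolayPt) : ∑ a, v5 A i a = 24 - 2 * (A.card : ℤ) + 4 * sg A i := by
  have h : ∀ a, v5 A i a = sg A a + (if a = i then 4 * sg A i else 0) := by
    intro a
    unfold v5
    by_cases h1 : a = i
    · rw [if_pos h1, if_pos h1, h1]
      ring
    · rw [if_neg h1, if_neg h1]
      ring
  simp_rw [h]
  rw [Finset.sum_add_distrib, sum_sg, Finset.sum_ite_eq']
  simp

theorem sq_v5 (A : Finset GolayPt) (i : GolayPt) : sqNorm (v5 A i) = 48 := by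
  have h : ∀ a, v5 A i a ^ 2 = 1 + (if a = i then 24 else 0) := by
    intro a
    unfold v5 sg
    by_cases h1 : a = i
    · subst h1
      by_cases h2 : a ∈ A <;> simp [h2]
    · by_cases h2 : a ∈ A <;> simp [h1, h2]
  unfold sqNorm
  simp_rw [h]
  rw [Finset.sum_add_distrib, Finset.sum_ite_eq']
  simp

theorem data_v5 {A : Finset GolayPt} (hA : A ∈ CS) (i : GolayPt) : IsData (v5 A i) ((1 : ℕ) : ℤ) A := by
  refine ⟨hA, fun a => ?_, ?_⟩
  · unfold v5 sg ind
    by_cases h1 : a = i
    · subst h1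
      by_cases h2 : a ∈ A <;> simp [h2]
    · by_cases h2 : a ∈ A <;> simp [h1, h2]
  · rw [sum_v5]
    have h3 : sg A i = 1 ∨ sg A i = -1 := by
      unfold sg
      split_ifs <;> simp
    have hc := CS_card hA
    push_cast
    have h4 : A.card = 0 ∨ A.card = 8 ∨ A.card = 12 ∨ A.card = 16 ∨ A.card = 24 := hc
    rcases h4 with h4 | h4 | h4 | h4 | h4 <;> rw [h4] <;> rcases h3 with h3 | h3 <;> rw [h3] <;> norm_num

theorem v5_inj (A : Finset GolayPt) : Function.Injective (v5 A) := by
  intro i j h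
  by_contra hne
  have h1 := congrFun h i
  unfold v5 sg at h1
  simp only [if_true, if_neg hne] at h1
  split_ifs at h1 <;> norm_num at h1

theorem eq_v5 (h : ∀ i, x i % 4 = ((1 : ℕ) + 2 * ind A i) % 4) (hn : sqNorm x = 48) {i : GolayPt} (hi : |x i| = 5) : x = v5 A i := by
  have hs := odd_sum (x := x) hn
  have hnn := odd_term_nonneg h hn
  have hsq : x i ^ 2 - 1 = 24 := by
    have : x i ^ 2 = |x i| ^ 2 := (sq_abs _).symm
    rw [this, hi]
    norm_num
  have h0 : ∑ a ∈ Finset.univ.erase i, (x a ^ 2 - 1) = 0 := by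
    have := Finset.add_sum_erase Finset.univ (fun a => x a ^ 2 - 1) (Finset.mem_univ i)
    rw [hs, hsq] at this
    omega
  have h1 := (Finset.sum_eq_zero_iff_of_nonneg fun a _ => hnn a).1 h0
  funext a
  have h2 := h a
  unfold v5 sg
  by_cases hai : a = i
  · subst hai
    have h3 := ind_cases A a
    have h4 : x a = 5 ∨ x a = -5 := by
      rcases abs_eq (by norm_num : (0 : ℤ) ≤ 5) |>.1 hi with h5 | h5
      · exact Or.inl h5
      · exact Or.inr h5
    unfold ind at h2
    by_cases h5 : a ∈ A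
    · simp only [h5, if_true] at h2 ⊢
      push_cast at h2
      rcases h4 with h4 | h4 <;> rw [h4] at h2 ⊢ <;> first | (norm_num at h2; done) | norm_num
    · simp only [h5, if_false] at h2 ⊢
      push_cast at h2
      rcases h4 with h4 | h4 <;> rw [h4] at h2 ⊢ <;> first | (norm_num at h2; done) | norm_num
  · have h3 := h1 a (Finset.mem_erase.2 ⟨hai, Finset.mem_univ _⟩)
    have h4 : x a = 1 ∨ x a = -1 := by
      have : (x a - 1) * (x a + 1) = 0 := by linarith [h3]
      rcases mul_eq_zero.1 this with h5 | h5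
      · left; omega
      · right; omega
    rw [if_neg hai]
    unfold ind at h2
    by_cases h5 : a ∈ A
    · simp only [h5, if_true] at h2 ⊢
      push_cast at h2
      rcases h4 with h4 | h4 <;> rw [h4] at h2 ⊢ <;> first | (norm_num at h2; done) | norm_num
    · simp only [h5, if_false] at h2 ⊢
      push_cast at h2
      rcases h4 with h4 | h4 <;> rw [h4] at h2 ⊢ <;> first | (norm_num at h2; done) | norm_num

end odd

/-! ### The census -/

theorem cnt0_12 : cntW 0 12 48 = 2048 := by decide +kernel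
theorem cnt0_8 : cntW 0 8 48 = 4096 := by decide +kernel
theorem cnt0_0 : cntW 0 0 48 = 0 := by decide +kernel
theorem cnt1_0 : cntW 1 0 48 = 2048 := by decide +kernel
theorem cnt1_8 : cntW 1 8 48 = 2048 := by decide +kernel
theorem cnt1_12 : cntW 1 12 48 = 2048 := by decide +kernel
theorem cnt1_16 : cntW 1 16 48 = 2048 := by decide +kernel
theorem cnt1_24 : cntW 1 24 48 = 2048 := by decide +kernel

theorem tot_12 : sumB (fun k => (fun w => bcond (Nat.beq w 12) 2048 0) (Enc.popAux (word k) 24)) 4096 = 5275648 := by decide +kernel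
theorem tot_8 : sumB (fun k => (fun w => bcond (Nat.beq w 8) 4096 0) (Enc.popAux (word k) 24)) 4096 = 3108864 := by decide +kernel
theorem tot_24 : sumB (fun k => (fun _ => 24) (Enc.popAux (word k) 24)) 4096 = 98304 := by decide +kernel
theorem tot_2024 : sumB (fun k => (fun _ => 2024) (Enc.popAux (word k) 24)) 4096 = 8290304 := by decide +kernel

theorem card0 {x : Vec} {A : Finset GolayPt} (h : x ∈ Tset ((0 : ℕ) : ℤ) A 48) : A.card ≠ 0 := by
  intro h0
  have h1 := card_Tset 0 (Or.inl rfl) A 48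
  rw [h0, cnt0_0] at h1
  rw [Finset.card_eq_zero.1 h1] at h
  simp at h

theorem even_of_data {x : Vec} {A : Finset GolayPt} (h : IsData x ((0 : ℕ) : ℤ) A) (i : GolayPt) : x i % 2 = 0 := by
  have h1 := h.2.1 i
  have h2 := ind_cases A i
  rcases h2 with h2 | h2 <;> rw [h2] at h1 <;> push_cast at h1 <;> omega

theorem odd_of_data {x : Vec} {A : Finset GolayPt} (h : IsData x ((1 : ℕ) : ℤ) A) (i : GolayPt) : x i % 2 = 1 := by
  have h1 := h.2.1 i
  have h2 := ind_cases A i
  rcases h2 with h2 | h2 <;> rw [h2] at h1 <;> push_cast at h1 <;> omega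

theorem abs_val {x t : ℤ} (ht : 0 ≤ t) (h : |x| = t) : x = t ∨ x = -t := by
  rcases abs_eq ht |>.1 h with h2 | h2
  · exact Or.inl h2
  · exact Or.inr h2

open Classical in
/-- The census of the vectors of norm 48 by shapes. -/
theorem census48 : {x : GolayPt → ℤ | x ∈ leechLattice ∧ sqNorm x = 48 ∧ ∀ i, x i = 0 ∨ x i = 2 ∨ x i = -2}.ncard = 5275648 ∧
    {x : GolayPt → ℤ | x ∈ leechLattice ∧ sqNorm x = 48 ∧ ∃ i j k, i ≠ j ∧ j ≠ k ∧ i ≠ k ∧ |x i| = 3 ∧ |x j| = 3 ∧ |x k| = 3}.ncard = 8290304 ∧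
    {x : GolayPt → ℤ | x ∈ leechLattice ∧ sqNorm x = 48 ∧ ∃ i, |x i| = 4}.ncard = 3108864 ∧
    {x : GolayPt → ℤ | x ∈ leechLattice ∧ sqNorm x = 48 ∧ ∃ i, |x i| = 5}.ncard = 98304 := by
  refine ⟨?_, ?_, ?_, ?_⟩
  · -- twelve coordinates `± 2`
    let F : Finset GolayPt → Finset Vec := fun A => if A.card = 12 then Tset ((0 : ℕ) : ℤ) A 48 else ∅
    have e : {x : GolayPt → ℤ | x ∈ leechLattice ∧ sqNorm x = 48 ∧ ∀ i, x i = 0 ∨ x i = 2 ∨ x i = -2} = ((CSf.biUnion F : Finset Vec) : Set Vec) := by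
      ext x
      simp only [Set.mem_ofPred_eq, Finset.coe_biUnion, Set.mem_iUnion, Finset.mem_coe, exists_prop]
      constructor
      · rintro ⟨h1, h2, h3⟩
        obtain ⟨m, A, hm, hA, hd⟩ := exists_data h1
        rcases hm with rfl | rfl
        · refine ⟨A, mem_CSf.2 hA, ?_⟩
          simp only [F]
          rw [if_pos ((shape2_iff hd h2).1 h3)]
          exact (data_iff hA).2 ⟨hd, h2⟩
        · exfalso
          have h4 := odd_of_data hd none
          rcases h3 none with h5 | h5 | h5 <;> rw [h5] at h4 <;> norm_num at h4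
      · rintro ⟨A, hA, hx⟩
        simp only [F] at hx
        split_ifs at hx with h12
        · have hA' := mem_CSf.1 hA
          obtain ⟨h1, h2⟩ := lattice_of_Tset hA' hx
          obtain ⟨h3, _⟩ := (data_iff hA').1 hx
          exact ⟨h1, h2, (shape2_iff h3 h2).2 h12⟩
        · simp at hx
    rw [e, Set.ncard_coe_finset]
    refine card_fam 0 (Or.inl rfl) F ?_ (fun w => bcond (Nat.beq w 12) 2048 0) ?_ tot_12
    · intro A x hx
      simp only [F] at hx
      split_ifs at hx
      · exact hx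
      · simp at hx
    · intro A _
      simp only [F]
      by_cases h : A.card = 12
      · rw [if_pos h, card_Tset 0 (Or.inl rfl), h, cnt0_12]
        rfl
      · rw [if_neg h, Finset.card_empty]
        have : Nat.beq A.card 12 = false := by
          rw [Bool.eq_false_iff]
          exact fun h2 => h (Nat.eq_of_beq_eq_true h2)
        rw [this]
        rfl
  · -- three coordinates `± 3`
    let F : Finset GolayPt → Finset Vec := fun A => (Tset ((1 : ℕ) : ℤ) A 48).filter fun x => ¬ ∃ i, |x i| = 5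
    have e : {x : GolayPt → ℤ | x ∈ leechLattice ∧ sqNorm x = 48 ∧ ∃ i j k, i ≠ j ∧ j ≠ k ∧ i ≠ k ∧ |x i| = 3 ∧ |x j| = 3 ∧ |x k| = 3} = ((CSf.biUnion F : Finset Vec) : Set Vec) := by
      ext x
      simp only [Set.mem_ofPred_eq, Finset.coe_biUnion, Set.mem_iUnion, Finset.mem_coe, exists_prop]
      constructor
      · rintro ⟨h1, h2, h3⟩
        obtain ⟨m, A, hm, hA, hd⟩ := exists_data h1
        rcases hm with rfl | rfl
        · exfalso
          obtain ⟨i, -, -, -, -, -, hi, -, -⟩ := h3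
          have h4 := even_of_data hd i
          rcases abs_val (by norm_num) hi with h5 | h5 <;> rw [h5] at h4 <;> norm_num at h4
        · refine ⟨A, mem_CSf.2 hA, Finset.mem_filter.2 ⟨(data_iff hA).2 ⟨hd, h2⟩, (odd_cases hd.2.1 h2).1 h3⟩⟩
      · rintro ⟨A, hA, hx⟩
        obtain ⟨hx1, hx2⟩ := Finset.mem_filter.1 hx
        have hA' := mem_CSf.1 hA
        obtain ⟨h1, h2⟩ := lattice_of_Tset hA' hx1
        obtain ⟨h3, _⟩ := (data_iff hA').1 hx1
        exact ⟨h1, h2, (odd_cases h3.2.1 h2).2 hx2⟩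
    rw [e, Set.ncard_coe_finset]
    refine card_fam 1 (Or.inr rfl) F (fun A x hx => (Finset.mem_filter.1 hx).1) (fun _ => 2024) ?_ tot_2024
    intro A hA
    have hA' := mem_CSf.1 hA
    have h1 := Finset.card_filter_add_card_filter_not (s := Tset ((1 : ℕ) : ℤ) A 48) (fun x => ∃ i, |x i| = 5)
    have h2 : ((Tset ((1 : ℕ) : ℤ) A 48).filter fun x => ∃ i, |x i| = 5) = Finset.univ.image (v5 A) := by
      ext x
      simp only [Finset.mem_filter, Finset.mem_image, Finset.mem_univ, true_and]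
      constructor
      · rintro ⟨h3, i, hi⟩
        obtain ⟨h4, h5⟩ := (data_iff hA').1 h3
        exact ⟨i, (eq_v5 h4.2.1 h5 hi).symm⟩
      · rintro ⟨i, rfl⟩
        refine ⟨(data_iff hA').2 ⟨data_v5 hA' i, sq_v5 A i⟩, i, ?_⟩
        unfold v5 sg
        simp only [if_true]
        split_ifs <;> norm_num
    rw [h2, Finset.card_image_of_injective _ (v5_inj A), card_Tset 1 (Or.inr rfl)] at h1
    have h3 : cntW 1 A.card 48 = 2048 := by
      rcases (CS_card hA') with h4 | h4 | h4 | h4 | h4 <;> rw [h4]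
      · exact cnt1_0
      · exact cnt1_8
      · exact cnt1_12
      · exact cnt1_16
      · exact cnt1_24
    rw [h3] at h1
    have h4 : (Finset.univ : Finset GolayPt).card = 24 := by decide
    rw [h4] at h1
    show (F A).card = 2024
    simp only [F]
    have h9 : ∀ n : ℕ, 24 + n = 2048 → n = 2024 := fun n hn => by omega
    convert h9 _ h1
  · -- one coordinate `± 4`
    let F : Finset GolayPt → Finset Vec := fun A => if A.card = 8 then Tset ((0 : ℕ) : ℤ) A 48 else ∅
    have e : {x : GolayPt → ℤ | x ∈ leechLattice ∧ sqNorm x = 48 ∧ ∃ i, |x i| = 4} = ((CSf.biUnion F : Finset Vec) : Set Vec) := by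
      ext x
      simp only [Set.mem_ofPred_eq, Finset.coe_biUnion, Set.mem_iUnion, Finset.mem_coe, exists_prop]
      constructor
      · rintro ⟨h1, h2, h3⟩
        obtain ⟨m, A, hm, hA, hd⟩ := exists_data h1
        rcases hm with rfl | rfl
        · refine ⟨A, mem_CSf.2 hA, ?_⟩
          simp only [F]
          have hx := (data_iff hA).2 ⟨hd, h2⟩
          rw [if_pos ((shape4_iff hd h2 (card0 hx)).1 h3)]
          exact hx
        · exfalso
          obtain ⟨i, hi⟩ := h3
          have h4 := odd_of_data hd i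
          rcases abs_val (by norm_num) hi with h5 | h5 <;> rw [h5] at h4 <;> norm_num at h4
      · rintro ⟨A, hA, hx⟩
        simp only [F] at hx
        split_ifs at hx with h12
        · have hA' := mem_CSf.1 hA
          obtain ⟨h1, h2⟩ := lattice_of_Tset hA' hx
          obtain ⟨h3, _⟩ := (data_iff hA').1 hx
          exact ⟨h1, h2, (shape4_iff h3 h2 (card0 hx)).2 h12⟩
        · simp at hx
    rw [e, Set.ncard_coe_finset]
    refine card_fam 0 (Or.inl rfl) F ?_ (fun w => bcond (Nat.beq w 8) 4096 0) ?_ tot_8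
    · intro A x hx
      simp only [F] at hx
      split_ifs at hx
      · exact hx
      · simp at hx
    · intro A _
      simp only [F]
      by_cases h : A.card = 8
      · rw [if_pos h, card_Tset 0 (Or.inl rfl), h, cnt0_8]
        rfl
      · rw [if_neg h, Finset.card_empty]
        have : Nat.beq A.card 8 = false := by
          rw [Bool.eq_false_iff]
          exact fun h2 => h (Nat.eq_of_beq_eq_true h2)
        rw [this]
        rfl
  · -- one coordinate `± 5`
    let F : Finset GolayPt → Finset Vec := fun A => (Tset ((1 : ℕ) : ℤ) A 48).filter fun x => ∃ i, |x i| = 5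
    have e : {x : GolayPt → ℤ | x ∈ leechLattice ∧ sqNorm x = 48 ∧ ∃ i, |x i| = 5} = ((CSf.biUnion F : Finset Vec) : Set Vec) := by
      ext x
      simp only [Set.mem_ofPred_eq, Finset.coe_biUnion, Set.mem_iUnion, Finset.mem_coe, exists_prop]
      constructor
      · rintro ⟨h1, h2, h3⟩
        obtain ⟨m, A, hm, hA, hd⟩ := exists_data h1
        rcases hm with rfl | rfl
        · exfalso
          obtain ⟨i, hi⟩ := h3
          have h4 := even_of_data hd i
          rcases abs_val (by norm_num) hi with h5 | h5 <;> rw [h5] at h4 <;> norm_num at h4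
        · exact ⟨A, mem_CSf.2 hA, Finset.mem_filter.2 ⟨(data_iff hA).2 ⟨hd, h2⟩, h3⟩⟩
      · rintro ⟨A, hA, hx⟩
        obtain ⟨hx1, hx2⟩ := Finset.mem_filter.1 hx
        obtain ⟨h1, h2⟩ := lattice_of_Tset (mem_CSf.1 hA) hx1
        exact ⟨h1, h2, hx2⟩
    rw [e, Set.ncard_coe_finset]
    refine card_fam 1 (Or.inr rfl) F (fun A x hx => (Finset.mem_filter.1 hx).1) (fun _ => 24) ?_ tot_24
    intro A hA
    have hA' := mem_CSf.1 hA
    have h2 : ((Tset ((1 : ℕ) : ℤ) A 48).filter fun x => ∃ i, |x i| = 5) = Finset.univ.image (v5 A) := by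
      ext x
      simp only [Finset.mem_filter, Finset.mem_image, Finset.mem_univ, true_and]
      constructor
      · rintro ⟨h3, i, hi⟩
        obtain ⟨h4, h5⟩ := (data_iff hA').1 h3
        exact ⟨i, (eq_v5 h4.2.1 h5 hi).symm⟩
      · rintro ⟨i, rfl⟩
        refine ⟨(data_iff hA').2 ⟨data_v5 hA' i, sq_v5 A i⟩, i, ?_⟩
        unfold v5 sg
        simp only [if_true]
        split_ifs <;> norm_num
    simp only [F]
    rw [h2, Finset.card_image_of_injective _ (v5_inj A)]
    rfl

end Cfsg.Agent.Lib.Conway
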