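import Cfsg.Agent.Lib.Conway.Max
import Cfsg.Agent.Lib.Golay.SimpleGroups
import Cfsg.Prelude.Def_Sporadic

/-!
# The automorphism group of the lattice modulo its centre is simple
-/

set_option autoImplicit false

namespace Cfsg.Agent.Lib.Conway

open Cfsg Cfsg.Spor Cfsg.Agent.Lib.Compute Cfsg.Agent.Lib.Golay Cfsg.Agent.Lib.M24
open Cfsg.Agent.Lib.KnownSimple.Leech
open scoped commutatorElement

/-! ### The sign group -/

theorem signV_mul (c d : Finset GolayPt) (x : Vec) : signV c (signV d x) = signV (symmDiff c d) x := by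
  funext i
  simp only [signV, Finset.mem_symmDiff]
  by_cases h1 : i ∈ c <;> by_cases h2 : i ∈ d <;> simp [h1, h2]

theorem symmDiff_CSet {c d : Finset GolayPt} (hc : c ∈ CSet) (hd : d ∈ CSet) : symmDiff c d ∈ CSet :=
  Cfsg.Agent.Lib.Leech.CS_symmDiff hc hd

theorem signP_mul (c d : Finset GolayPt) (hc : c ∈ CSet) (hd : d ∈ CSet) :
    signP c hc * signP d hd = signP (symmDiff c d) (symmDiff_CSet hc hd) := by
  ext x : 1
  exact Subtype.ext (signV_mul c d x.1)

theorem signP_congr {c d : Finset GolayPt} (h : c = d) (hc : c ∈ CSet) (hd : d ∈ CSet) : signP c hc = signP d hd := by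
  subst h
  rfl

theorem signP_inv (c : Finset GolayPt) (hc : c ∈ CSet) : (signP c hc)⁻¹ = signP c hc := by
  rw [inv_eq_iff_mul_eq_one]
  ext x : 1
  exact Subtype.ext (signV_signV c x.1)

/-- The group of sign changes. -/
def AA : Subgroup ↥Co0 where
  carrier := {g | ∃ c hc, g.1 = signP c hc}
  mul_mem' := by
    rintro a b ⟨c, hc, ea⟩ ⟨d, hd, eb⟩
    exact ⟨symmDiff c d, symmDiff_CSet hc hd, by
      show a.1 * b.1 = _
      rw [ea, eb, signP_mul]⟩
  one_mem' := ⟨∅, empty_CSet, by
    ext x : 1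
    apply Subtype.ext
    funext a
    simp [signP_apply, signV]⟩
  inv_mem' := by
    rintro a ⟨c, hc, ea⟩
    exact ⟨c, hc, by
      show a.1⁻¹ = _
      rw [ea, signP_inv]⟩

instance AA_comm : IsMulCommutative AA := by
  constructor
  constructor
  rintro ⟨a, c, hc, ea⟩ ⟨b, d, hd, eb⟩
  apply Subtype.ext
  apply Subtype.ext
  show a.1 * b.1 = b.1 * a.1
  rw [ea, eb, signP_mul, signP_mul]
  exact signP_congr (symmDiff_comm _ _) _ _

/-- The sign change as an element of the group. -/
def signC (c : Finset GolayPt) (hc : c ∈ CSet) : ↥Co0 := ⟨signP c hc, signP_mem c hc⟩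

theorem signC_mem_AA (c : Finset GolayPt) (hc : c ∈ CSet) : signC c hc ∈ AA := ⟨c, hc, rfl⟩

theorem image_CSet {σ : Equiv.Perm GolayPt} (hσ : σ ∈ M24) {c : Finset GolayPt} (hc : c ∈ CSet) : c.image σ ∈ CSet :=
  Cfsg.Agent.Lib.Steiner.image_mem_of_aut hσ hc

/-- Conjugation of a sign change by a permutation. -/
theorem phi_signP (σ : ↥M24) (c : Finset GolayPt) (hc : c ∈ CSet) :
    phi σ * signP c hc * (phi σ)⁻¹ = signP (c.image σ.1) (image_CSet σ.2 hc) := by
  rw [mul_inv_eq_iff_eq_mul]
  ext x : 1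
  apply Subtype.ext
  funext a
  show signV c x.1 (σ.1.symm a) = signV (c.image σ.1) (permV σ.1 x.1) a
  unfold signV permV
  have h : a ∈ c.image σ.1 ↔ σ.1.symm a ∈ c := by
    constructor
    · intro h
      obtain ⟨b, hb, rfl⟩ := Finset.mem_image.1 h
      simpa using hb
    · intro h
      exact Finset.mem_image.2 ⟨_, h, by simp⟩
  simp only [h]

/-- The sign group is normalised by the monomial group. -/
theorem conj_AA_of_NC {n a : ↥Co0} (hn : n ∈ NCo) (ha : a ∈ AA) : n * a * n⁻¹ ∈ AA := by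
  obtain ⟨c, hc, ea⟩ := ha
  obtain ⟨σ, d, hd, e⟩ := monoData_exists_eq n.2 (mem_NCo.1 hn).2
  refine ⟨c.image σ.1, image_CSet σ.2 hc, ?_⟩
  show n.1 * a.1 * n.1⁻¹ = _
  rw [ea, e, monoE]
  have h1 := phi_signP σ c hc
  have h2 : ∀ u : Equiv.Perm LL, signP d hd * phi σ * u * (signP d hd * phi σ)⁻¹ = signP d hd * (phi σ * u * (phi σ)⁻¹) * (signP d hd)⁻¹ := by
    intro u
    group
  rw [h2, h1, signP_inv, signP_mul, signP_mul]
  apply signP_congr
  ext i
  simp only [Finset.mem_symmDiff]
  tauto

/-! ### The normal closure of the sign group -/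

abbrev Pe0 : ℕ := 343026579557397644620346101971820808
abbrev Pu0 : ℕ := 343026421096085797085756171491746056
abbrev Pw0 : ℕ := 343026421096085797085756171491746056
abbrev Pe1 : ℕ := 343026579557397644620337305878798608
abbrev Pu1 : ℕ := 343026579557397644620337305878933892
abbrev Pw1 : ℕ := 343026579557397644620337305878933644
abbrev Py1 : ℕ := 343026579557397644620337305878798856
abbrev Pu2 : ℕ := 343026421096085797085756171491746056
abbrev Pw2 : ℕ := 343026421096085797085747375398723848
abbrev Py2 : ℕ := 343026738018709492154927236358873352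

/-- The first word. -/
abbrev c1k : ℕ := 1763
/-- The second word. -/
abbrev c2k : ℕ := 2366

theorem chkS : (chkL (vP Pu0) && chkL (vP Pw0) && chkL (vP Pu1) && chkL (vP Pw1) && chkL (vP Pu2) && chkL (vP Pw2) && chkL (vP Py2) && chkL (vP Pe0)
    && chkL (vP Pe1) && chkL (vP Py1)) = true := by decide +kernel

theorem cu0 : chkL (vP Pu0) = true := by decide +kernel
theorem cw0 : chkL (vP Pw0) = true := by decide +kernel
theorem cu1 : chkL (vP Pu1) = true := by decide +kernel
theorem cw1 : chkL (vP Pw1) = true := by decide +kernel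
theorem cu2 : chkL (vP Pu2) = true := by decide +kernel
theorem cw2 : chkL (vP Pw2) = true := by decide +kernel
theorem cy2 : chkL (vP Py2) = true := by decide +kernel

theorem E8_eq0 : (E8 (pt 8)).1 = ofF (vP Pe0) := by
  funext a
  change e8 (pt 8) a = vP Pe0 (idx a)
  revert a
  decide +kernel

theorem E8_eq1 : (E8 (pt 0)).1 = ofF (vP Pe1) := by
  funext a
  change e8 (pt 0) a = vP Pe1 (idx a)
  revert a
  decide +kernel

theorem E8_eq2 : (E8 (pt 1)).1 = ofF (vP Py1) := by
  funext a
  change e8 (pt 1) a = vP Py1 (idx a)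
  revert a
  decide +kernel

theorem xi_cols : matXI.all colsOK = true := by decide +kernel

/-- Sign change on digits. -/
theorem sign_digits {k P Q : ℕ} (x y : LL) (hx : x.1 = ofF (vP P)) (hy : y.1 = ofF (vP Q))
    (h : allBelow (fun j => decide (vP Q j = bcond ((word k).testBit j) (-(vP P j)) (vP P j))) 24 = true) :
    signP (enc.finOf (word k)) (finOf_word_mem k) x = y := by
  apply Subtype.ext
  funext a
  rw [signP_apply, hy, hx]
  have h5 := of_decide_eq_true ((allBelow_iff _ _).1 h (idx a) (idx_lt a))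
  show (if a ∈ (enc.finOf (word k) : Finset GolayPt) then -vP P (idx a) else vP P (idx a)) = vP Q (idx a)
  rw [h5]
  have hm : a ∈ (enc.finOf (word k) : Finset GolayPt) ↔ (word k).testBit (idx a) = true := enc.mem_finOf
  by_cases h6 : (word k).testBit (idx a) = true
  · rw [if_pos (hm.2 h6), h6]
    rfl
  · rw [if_neg (fun h7 => h6 (hm.1 h7))]
    simp only [Bool.not_eq_true] at h6
    rw [h6]
    rfl

/-- The basic automorphism as an element of the group. -/
noncomputable def xiC : ↥Co0 := ⟨xiE, xiE_mem⟩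

/-- A conjugate of a sign change. -/
noncomputable def tC (k : ℕ) : ↥Co0 := xiC * signC (enc.finOf (word k)) (finOf_word_mem k) * xiC⁻¹

theorem tC_mem_closure (k : ℕ) : tC k ∈ Subgroup.normalClosure (AA : Set ↥Co0) :=
  (Subgroup.normalClosure_normal (s := (AA : Set ↥Co0))).conj_mem _ (Subgroup.subset_normalClosure (signC_mem_AA _ _)) _

theorem xi_apply {u y : LL} {Pu Py : ℕ} (hu : u.1 = ofF (vP Pu)) (hy : y.1 = ofF (vP Py))
    (h : allBelow (fun j => decide (dotS (rowOf matXI j) (vP Pu) = 8 * vP Py j)) 24 = true) : xiE u = y :=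
  mat_apply xi_cols xiE_act hu hy h

theorem tC_apply {k : ℕ} {e u w y : LL} {Pe Pu Pw Py : ℕ} (he : e.1 = ofF (vP Pe)) (hu : u.1 = ofF (vP Pu)) (hw : w.1 = ofF (vP Pw)) (hy : y.1 = ofF (vP Py))
    (h1 : allBelow (fun j => decide (dotS (rowOf matXI j) (vP Pu) = 8 * vP Pe j)) 24 = true)
    (h2 : allBelow (fun j => decide (vP Pw j = bcond ((word k).testBit j) (-(vP Pu j)) (vP Pu j))) 24 = true)
    (h3 : allBelow (fun j => decide (dotS (rowOf matXI j) (vP Pw) = 8 * vP Py j)) 24 = true) :
    (tC k).1 e = y := by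
  have e1 : xiE u = e := xi_apply hu he h1
  have e2 := sign_digits (k := k) u w hu hw h2
  have e3 : xiE w = y := xi_apply hw hy h3
  show xiE (signP (enc.finOf (word k)) (finOf_word_mem k) (xiE⁻¹ e)) = y
  have e4 : xiE⁻¹ e = u := by
    rw [← e1]
    simp
  rw [e4, e2, e3]

theorem t1_fix : (tC c1k).1 (E8 (pt 8)) = E8 (pt 8) :=
  tC_apply (u := repL Pu0 cu0) (w := repL Pw0 cw0) E8_eq0 rfl rfl E8_eq0 (by decide +kernel) (by decide +kernel) (by decide +kernel)

theorem t1_move : (tC c1k).1 (E8 (pt 0)) = E8 (pt 1) :=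
  tC_apply (u := repL Pu1 cu1) (w := repL Pw1 cw1) E8_eq1 rfl rfl E8_eq2 (by decide +kernel) (by decide +kernel) (by decide +kernel)

theorem t2_img : (tC c2k).1 (E8 (pt 8)) = repL Py2 cy2 :=
  tC_apply (u := repL Pu2 cu2) (w := repL Pw2 cw2) E8_eq0 rfl rfl rfl (by decide +kernel) (by decide +kernel) (by decide +kernel)

theorem t2_not : (tC c2k).1 ∉ NC := by
  intro h
  obtain ⟨d, s, _, e1⟩ := h.2 (pt 8)
  rw [t2_img] at e1
  have h1 : ofF (vP Py2) = s • e8 d := e1
  have h2 : ∀ a b : GolayPt, a ≠ b → ofF (vP Py2) a ≠ 0 → ofF (vP Py2) b ≠ 0 → False := by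
    intro a b hab ha hb
    rw [h1, smul_e8_apply] at ha hb
    by_cases h3 : a = d
    · by_cases h4 : b = d
      · exact hab (h3.trans h4.symm)
      · rw [if_neg h4] at hb
        exact hb rfl
    · rw [if_neg h3] at ha
      exact ha rfl
  refine h2 (pt 8) (pt 15) (by decide) ?_ ?_
  · rw [ofF_pt _ (by norm_num)]
    decide +kernel
  · rw [ofF_pt _ (by norm_num)]
    decide +kernel

instance instSimpleM24 : IsSimpleGroup ↥M24 := simple_M24

/-- The normal closure of the sign group is everything. -/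
theorem normalClosure_AA : Subgroup.normalClosure (AA : Set ↥Co0) = ⊤ := by
  set K := Subgroup.normalClosure (AA : Set ↥Co0) with hK
  have hKn : K.Normal := Subgroup.normalClosure_normal
  have hA : ∀ a ∈ AA, a ∈ K := fun a ha => Subgroup.subset_normalClosure ha
  -- permutations in the closure
  let I : Subgroup ↥M24 :=
    { carrier := {σ | (⟨phi σ, phi_mem σ⟩ : ↥Co0) ∈ K}
      mul_mem' := by
        intro a b ha hb
        have := K.mul_mem ha hb
        have e : (⟨phi (a * b), phi_mem (a * b)⟩ : ↥Co0) = ⟨phi a, phi_mem a⟩ * ⟨phi b, phi_mem b⟩ :=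
          Subtype.ext (map_mul phi a b)
        show (⟨phi (a * b), phi_mem (a * b)⟩ : ↥Co0) ∈ K
        rw [e]
        exact this
      one_mem' := by
        have e : (⟨phi 1, phi_mem 1⟩ : ↥Co0) = 1 := Subtype.ext (map_one phi)
        show (⟨phi 1, phi_mem 1⟩ : ↥Co0) ∈ K
        rw [e]
        exact one_mem _
      inv_mem' := by
        intro a ha
        have e : (⟨phi a⁻¹, phi_mem a⁻¹⟩ : ↥Co0) = (⟨phi a, phi_mem a⟩ : ↥Co0)⁻¹ := Subtype.ext (map_inv phi a)
        show (⟨phi a⁻¹, phi_mem a⁻¹⟩ : ↥Co0) ∈ K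
        rw [e]
        exact K.inv_mem ha }
  have hIn : I.Normal := by
    constructor
    intro a ha b
    have e : (⟨phi (b * a * b⁻¹), phi_mem (b * a * b⁻¹)⟩ : ↥Co0) =
        ⟨phi b, phi_mem b⟩ * ⟨phi a, phi_mem a⟩ * (⟨phi b, phi_mem b⟩ : ↥Co0)⁻¹ :=
      Subtype.ext (by
        show phi (b * a * b⁻¹) = phi b * phi a * (phi b)⁻¹
        rw [map_mul, map_mul, map_inv])
    show (⟨phi (b * a * b⁻¹), phi_mem (b * a * b⁻¹)⟩ : ↥Co0) ∈ K
    rw [e]
    exact hKn.conj_mem _ ha _
  -- a nontrivial element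
  have ht1 : (tC c1k).1 ∈ NC := mem_NC_of_fix (tC c1k).2 t1_fix
  obtain ⟨σ, c, hc, e⟩ := monoData_exists_eq (tC c1k).2 ht1.2
  have hσI : σ ∈ I := by
    show (⟨phi σ, phi_mem σ⟩ : ↥Co0) ∈ K
    have e1 : (⟨phi σ, phi_mem σ⟩ : ↥Co0) = signC c hc * tC c1k := by
      apply Subtype.ext
      show phi σ = signP c hc * (tC c1k).1
      rw [e, monoE, ← mul_assoc]
      have : signP c hc * signP c hc = 1 := by
        nth_rw 1 [← signP_inv c hc]
        exact inv_mul_cancel _
      rw [this, one_mul]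
    rw [e1]
    exact mul_mem (hA _ (signC_mem_AA c hc)) (tC_mem_closure _)
  have hσ1 : σ ≠ 1 := by
    rintro rfl
    have h1 := t1_move
    have h2 : ((tC c1k).1 (E8 (pt 0)) : LL) = monoE 1 c hc (E8 (pt 0)) := by rw [e]
    rw [h1] at h2
    have h3 := congrFun (congrArg Subtype.val h2) (pt 1)
    rw [monoE_apply] at h3
    have h4 : signedPerm (1 : Equiv.Perm GolayPt) c (e8 (pt 0)) (pt 1) = 0 := by
      have h7 : pt 1 ≠ pt 0 := by decide
      have h6 : (if pt 1 = pt 0 then (8 : ℤ) else 0) = 0 := if_neg h7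
      show (if pt 1 ∈ c then -(if pt 1 = pt 0 then (8 : ℤ) else 0) else (if pt 1 = pt 0 then (8 : ℤ) else 0)) = 0
      rw [h6]
      simp
    have h5 : e8 (pt 1) (pt 1) = 8 := by simp [e8]
    change e8 (pt 1) (pt 1) = signedPerm (1 : Equiv.Perm GolayPt) c (e8 (pt 0)) (pt 1) at h3
    rw [h4, h5] at h3
    norm_num at h3
  have hItop : I = ⊤ := by
    rcases hIn.eq_bot_or_eq_top with h | h
    · exfalso
      rw [h] at hσI
      exact hσ1 hσI
    · exact h
  have hNK : NCo ≤ K := by
    intro n hn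
    obtain ⟨σ', c', hc', e'⟩ := monoData_exists_eq n.2 (mem_NCo.1 hn).2
    have e1 : n = signC c' hc' * ⟨phi σ', phi_mem σ'⟩ := Subtype.ext e'
    rw [e1]
    refine mul_mem (hA _ (signC_mem_AA c' hc')) ?_
    have : σ' ∈ I := by rw [hItop]; trivial
    exact this
  have hlt : NCo < K := by
    refine lt_of_le_of_ne hNK ?_
    intro h
    have h2 : tC c2k ∈ NCo := by
      rw [h]
      exact tC_mem_closure _
    exact t2_not (mem_NCo.1 h2)
  exact NCo_coatom.2 K hlt

/-! ### Commutators -/

abbrev pS0 : ℕ := 778447126025150931434779446753964265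
abbrev d0m : ℕ := 10558
abbrev d1m : ℕ := 15777

theorem pS0_vld : vld pS0 = true := by decide +kernel
theorem d0_CS : (enc.finOf d0m : Finset GolayPt) ∈ CSet := by
  have : word 2366 = d0m := by decide +kernel
  rw [← this]
  exact finOf_word_mem _

/-- The commutator of a sign change and a permutation. -/
theorem signC_comm {d : Finset GolayPt} (hd : d ∈ CSet) (σ : ↥M24) {c : Finset GolayPt} (hc : c ∈ CSet) (h : c = symmDiff d (d.image σ.1)) :
    signC c hc ∈ _root_.commutator ↥Co0 := by
  have h1 : ⁅signC d hd, (⟨phi σ, phi_mem σ⟩ : ↥Co0)⁆ = signC c hc := by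
    apply Subtype.ext
    show signP d hd * phi σ * (signP d hd)⁻¹ * (phi σ)⁻¹ = signP c hc
    rw [signP_inv]
    have h2 : signP d hd * phi σ * signP d hd * (phi σ)⁻¹ = signP d hd * (phi σ * signP d hd * (phi σ)⁻¹) := by group
    rw [h2, phi_signP, signP_mul]
    exact signP_congr h.symm _ _
  rw [← h1]
  exact Subgroup.commutator_mem_commutator (Subgroup.mem_top _) (Subgroup.mem_top _)

theorem O0_sign_comm : signC O0 ⟨wordOf O0m, by
      have : word 1183 = O0m := by decide +kernel
      rw [← this]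
      exact word_mem _, support_wordOf _⟩ ∈ _root_.commutator ↥Co0 := by
  apply signC_comm d0_CS (gOf pS0_vld)
  have h1 : (enc.finOf d0m : Finset GolayPt).image (gOf pS0_vld).1 = enc.finOf d1m := by
    have h2 := img_finOf (vld_code pS0_vld) d0m
    rw [show imgMask (pc pS0) d0m 24 = d1m by decide +kernel] at h2
    exact h2
  rw [h1]
  ext a
  rw [Finset.mem_symmDiff, enc.mem_finOf, enc.mem_finOf, enc.mem_finOf]
  have h3 : ∀ j, j < 24 → ((O0m.testBit j = true ↔ ((d0m.testBit j = true ∧ ¬ d1m.testBit j = true) ∨ (d1m.testBit j = true ∧ ¬ d0m.testBit j = true)))) := by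
    decide +kernel
  exact h3 _ (enc.idx_lt a)

/-- Sign changes on octads are commutators. -/
theorem octad_sign_comm {o : Finset GolayPt} (ho : o ∈ octads) (hc : o ∈ CSet) : signC o hc ∈ _root_.commutator ↥Co0 := by
  obtain ⟨g, hg⟩ := octads_transitive O0_mem ho
  have hc0 : O0 ∈ CSet := O0_mem.1
  have h1 := O0_sign_comm
  have h2 : (⟨phi g, phi_mem g⟩ : ↥Co0) * signC O0 hc0 * (⟨phi g, phi_mem g⟩ : ↥Co0)⁻¹ = signC o hc := by
    apply Subtype.ext
    show phi g * signP O0 hc0 * (phi g)⁻¹ = signP o hc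
    rw [phi_signP]
    exact signP_congr hg _ _
  rw [← h2]
  exact (inferInstance : (_root_.commutator ↥Co0).Normal).conj_mem _ h1 _

theorem signC_mul {c d : Finset GolayPt} (hc : c ∈ CSet) (hd : d ∈ CSet) :
    signC c hc * signC d hd = signC (symmDiff c d) (symmDiff_CSet hc hd) := Subtype.ext (signP_mul c d hc hd)

theorem finOf_xor (a b : ℕ) : (enc.finOf (Nat.xor a b) : Finset GolayPt) = symmDiff (enc.finOf a) (enc.finOf b) := by
  ext x
  rw [Finset.mem_symmDiff, enc.mem_finOf, enc.mem_finOf, enc.mem_finOf]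
  show (a ^^^ b).testBit _ = true ↔ _
  rw [Nat.testBit_xor]
  cases a.testBit (enc.idx x) <;> cases b.testBit (enc.idx x) <;> simp

theorem signC_congr {c d : Finset GolayPt} (h : c = d) (hc : c ∈ CSet) (hd : d ∈ CSet) : signC c hc = signC d hd := by
  subst h
  rfl

/-- Sign changes on words of a span of octads are commutators. -/
theorem span_sign_comm (l : List ℕ) (hl : ∀ g ∈ l, wordOf g ∈ golayCode ∧ (enc.finOf g : Finset GolayPt) ∈ octads) (k : ℕ)
    (hc : (enc.finOf (spanWord l k) : Finset GolayPt) ∈ CSet) : signC _ hc ∈ _root_.commutator ↥Co0 := by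
  induction l generalizing k with
  | nil =>
    have h0 : signC _ hc = 1 := by
      apply Subtype.ext
      ext x : 1
      apply Subtype.ext
      show signV (enc.finOf (spanWord [] k)) x.1 = x.1
      rw [spanWord_nil, finOf_zero]
      funext a
      simp [signV]
    rw [h0]
    exact one_mem _
  | cons g l ih =>
    have hl' : ∀ g ∈ l, wordOf g ∈ golayCode ∧ (enc.finOf g : Finset GolayPt) ∈ octads := fun g' hg' => hl g' (List.mem_cons_of_mem _ hg')
    have hg := hl g List.mem_cons_self
    have hsp : (enc.finOf (spanWord l (k / 2)) : Finset GolayPt) ∈ CSet :=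
      ⟨wordOf _, spanWord_mem l (fun g' hg'' => (hl' g' hg'').1) _, support_wordOf _⟩
    have h1 := ih hl' (k / 2) hsp
    cases h2 : Nat.beq (k % 2) 1
    · have e : spanWord (g :: l) k = spanWord l (k / 2) := by
        rw [spanWord_cons, h2]
        rfl
      rw [signC_congr (congrArg _ e) hc hsp]
      exact h1
    · have e : spanWord (g :: l) k = Nat.xor g (spanWord l (k / 2)) := by
        rw [spanWord_cons, h2]
        rfl
      have e2 : (enc.finOf (spanWord (g :: l) k) : Finset GolayPt) = symmDiff (enc.finOf g) (enc.finOf (spanWord l (k / 2))) := by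
        rw [e, finOf_xor]
      rw [signC_congr e2 hc (symmDiff_CSet hg.2.1 hsp), ← signC_mul hg.2.1 hsp]
      exact mul_mem (octad_sign_comm hg.2 _) h1

theorem basis_octad {g : ℕ} (hg : g ∈ basis) : (enc.finOf g : Finset GolayPt) ∈ octads := by
  have h1 := List.all_eq_true.1 basis_octads g hg
  exact octad_of_mask h1

/-- All sign changes are commutators. -/
theorem AA_le_commutator : AA ≤ _root_.commutator ↥Co0 := by
  rintro a ⟨c, hc, e⟩
  have ha : a = signC c hc := Subtype.ext e
  rw [ha]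
  obtain ⟨k, _, rfl⟩ := mem_supports_iff.1 hc
  exact span_sign_comm basis (fun g hg => ⟨basis_mem g hg, basis_octad hg⟩) k _

/-- The group is perfect. -/
theorem commutator_eq_top : _root_.commutator ↥Co0 = ⊤ := by
  rw [eq_top_iff, ← normalClosure_AA]
  exact Subgroup.normalClosure_le_normal AA_le_commutator

/-! ### Monomial elements acting trivially modulo twice the lattice -/

/-- The vector with value four on four points. -/
noncomputable def f4V (S : Finset GolayPt) : Vec := fun a => if a ∈ S then 4 else 0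

theorem f4V_mem {S : Finset GolayPt} (hS : S.card = 4) : f4V S ∈ leechLattice := by
  apply mem_L_iff.2
  refine ⟨0, 0, Or.inl rfl, zero_mem _, fun a => ?_, ?_⟩
  · simp only [f4V, Pi.zero_apply, ZMod.val_zero]
    split_ifs <;> norm_num
  · unfold f4V
    rw [Finset.sum_ite_mem]
    simp [hS]

theorem f4V_sq {S : Finset GolayPt} (hS : S.card = 4) : sqNorm (f4V S) = 64 := by
  unfold sqNorm f4V
  have h1 : ∀ a : GolayPt, (if a ∈ S then (4 : ℤ) else 0) ^ 2 = if a ∈ S then 16 else 0 := by
    intro a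
    split_ifs <;> norm_num
  simp_rw [h1]
  rw [Finset.sum_ite_mem]
  simp [hS]

/-- A permutation acting trivially modulo twice the lattice on tetrads maps a tetrad to itself if the tetrad meets its image. -/
theorem tetrad_stable {σ : ↥M24} (H : ∀ x : LL, sqNorm x.1 = 64 → ∃ z : LL, x.1 - permV σ.1 x.1 = (2 : ℤ) • z.1)
    {S : Finset GolayPt} (hS : S.card = 4) {b : GolayPt} (hb : b ∈ S) (hb' : σ.1.symm b ∈ S) (i : GolayPt) : i ∈ S ↔ σ.1.symm i ∈ S := by
  obtain ⟨z, hz⟩ := H ⟨f4V S, f4V_mem hS⟩ (f4V_sq hS)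
  have hzv : ∀ a, f4V S a - f4V S (σ.1.symm a) = 2 * z.1 a := fun a => by
    have := congrFun hz a
    simpa [permV] using this
  obtain ⟨ε, w, hε, hw, h1, _⟩ := mem_L_iff.1 z.2
  have heven : ∀ a, z.1 a % 2 = 0 := by
    intro a
    have h2 := hzv a
    unfold f4V at h2
    split_ifs at h2 <;> omega
  have hε0 : ε = 0 := by
    have h2 := h1 b
    have h3 := heven b
    rcases hε with h | h
    · exact h
    · exfalso
      rw [h] at h2
      rcases zmod2_cases (w b) with ⟨_, h7⟩ | ⟨_, h7⟩ <;> rw [h7] at h2 <;> omega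
  subst hε0
  -- the word
  have hw' : ∀ a, a ∈ support₂ w ↔ ¬ (a ∈ S ↔ σ.1.symm a ∈ S) := by
    intro a
    have h2 := hzv a
    have h3 := h1 a
    rw [mem_support_iff]
    unfold f4V at h2
    rcases zmod2_cases (w a) with ⟨h6, h7⟩ | ⟨h6, h7⟩
    · rw [h7] at h3
      have h8 : (w a).val = 0 := by exact_mod_cast h7
      rw [h8]
      by_cases h4 : a ∈ S <;> by_cases h5 : σ.1.symm a ∈ S <;> simp only [h4, h5, if_true, if_false] at h2 ⊢ <;> simp <;> omega
    · rw [h7] at h3
      have h8 : (w a).val = 1 := by exact_mod_cast h7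
      rw [h8]
      by_cases h4 : a ∈ S <;> by_cases h5 : σ.1.symm a ∈ S <;> simp only [h4, h5, if_true, if_false] at h2 ⊢ <;> simp <;> omega
  have hsub : support₂ w ⊆ (S.erase b) ∪ (S.erase (σ.1.symm b)).image σ.1 := by
    intro a ha
    have h2 := (hw' a).1 ha
    by_cases h3 : a ∈ S
    · have h4 : σ.1.symm a ∉ S := fun h4 => h2 ⟨fun _ => h4, fun _ => h3⟩
      have h5 : a ≠ b := by
        rintro rfl
        exact h4 hb'
      exact Finset.mem_union_left _ (Finset.mem_erase.2 ⟨h5, h3⟩)
    · have h4 : σ.1.symm a ∈ S := by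
        by_contra h4
        exact h2 ⟨fun h5 => absurd h5 h3, fun h5 => absurd h5 h4⟩
      apply Finset.mem_union_right
      refine Finset.mem_image.2 ⟨σ.1.symm a, Finset.mem_erase.2 ⟨?_, h4⟩, by simp⟩
      intro h5
      have h6 : a = b := σ.1.symm.injective h5
      rw [h6] at h3
      exact h3 hb
  have hcard : (support₂ w).card ≤ 6 := by
    refine (Finset.card_le_card hsub).trans ((Finset.card_union_le _ _).trans ?_)
    have h2 : (S.erase b).card = 3 := by rw [Finset.card_erase_of_mem hb, hS]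
    have h3 : ((S.erase (σ.1.symm b)).image σ.1).card ≤ 3 := by
      refine Finset.card_image_le.trans ?_
      rw [Finset.card_erase_of_mem hb', hS]
    omega
  have h0 : (support₂ w).card = 0 := by
    rcases card_support_code hw with h | h | h | h | h <;> omega
  by_contra hi
  have := (hw' i).2 hi
  rw [Finset.card_eq_zero.1 h0] at this
  simp at this

theorem exists_out_two (T : Finset GolayPt) (hT : T.card ≤ 4) : ∃ p q, p ∉ T ∧ q ∉ T ∧ p ≠ q := by
  have h1 : 1 < (Tᶜ).card := by
    rw [Finset.card_compl]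
    have h : Fintype.card GolayPt = 24 := by simp
    omega
  obtain ⟨p, hp, q, hq, hpq⟩ := Finset.one_lt_card.1 h1
  exact ⟨p, q, Finset.mem_compl.1 hp, Finset.mem_compl.1 hq, hpq⟩

/-- A permutation of `M24` acting trivially modulo twice the lattice is trivial. -/
theorem perm_triv {σ : ↥M24} (H : ∀ x : LL, sqNorm x.1 = 64 → ∃ z : LL, x.1 - permV σ.1 x.1 = (2 : ℤ) • z.1) : σ = 1 := by
  by_contra hne
  obtain ⟨a, ha⟩ : ∃ a, σ.1 a ≠ a := by
    by_contra h
    push Not at h
    exact hne (Subtype.ext (Equiv.ext h))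
  set b := σ.1 a with hb
  have hsb : σ.1.symm b = a := by simp [hb]
  have hσb : σ.1 b = a := by
    by_contra hr
    set r := σ.1 b with hr'
    have hrb : r ≠ b := fun h => ha (σ.1.injective (by rw [← hb, ← hr', h])).symm
    obtain ⟨p, q, hp, hq, hpq⟩ := exists_out_two {a, b, r} ((Finset.card_le_three).trans (by norm_num))
    simp only [Finset.mem_insert, Finset.mem_singleton, not_or] at hp hq
    have hS : ({a, b, p, q} : Finset GolayPt).card = 4 := by
      rw [Finset.card_insert_of_notMem, Finset.card_insert_of_notMem, Finset.card_insert_of_notMem, Finset.card_singleton]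
      · simpa using hpq
      · simp only [Finset.mem_insert, Finset.mem_singleton, not_or]
        exact ⟨fun h => hp.2.1 h.symm, fun h => hq.2.1 h.symm⟩
      · simp only [Finset.mem_insert, Finset.mem_singleton, not_or]
        exact ⟨Ne.symm ha, fun h => hp.1 h.symm, fun h => hq.1 h.symm⟩
    have h1 := tetrad_stable H hS (b := b) (by simp) (by rw [hsb]; simp) r
    have h2 : σ.1.symm r = b := by simp [hr']
    rw [h2] at h1
    have h3 := h1.2 (by simp)
    simp only [Finset.mem_insert, Finset.mem_singleton] at h3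
    rcases h3 with h3 | h3 | h3 | h3
    · exact hr h3
    · exact hrb h3
    · exact hp.2.2 h3.symm
    · exact hq.2.2 h3.symm
  have hsa : σ.1.symm a = b := by rw [← hσb]; simp
  have hfix : ∀ p, p ≠ a → p ≠ b → σ.1 p = p := by
    intro p hpa hpb
    by_contra hr
    set r := σ.1 p with hr'
    have hra : r ≠ a := fun h => hpb (σ.1.injective (by rw [← hr', h, hσb]))
    have hrb : r ≠ b := fun h => hpa (σ.1.injective (by rw [← hr', h]))
    obtain ⟨q, _, hq, _, _⟩ := exists_out_two {a, b, p, r} Finset.card_le_four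
    simp only [Finset.mem_insert, Finset.mem_singleton, not_or] at hq
    have hS : ({a, b, p, q} : Finset GolayPt).card = 4 := by
      rw [Finset.card_insert_of_notMem, Finset.card_insert_of_notMem, Finset.card_insert_of_notMem, Finset.card_singleton]
      · simpa using fun h => hq.2.2.1 h.symm
      · simp only [Finset.mem_insert, Finset.mem_singleton, not_or]
        exact ⟨fun h => hpb h.symm, fun h => hq.2.1 h.symm⟩
      · simp only [Finset.mem_insert, Finset.mem_singleton, not_or]
        exact ⟨Ne.symm ha, fun h => hpa h.symm, fun h => hq.1 h.symm⟩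
    have h1 := tetrad_stable H hS (b := b) (by simp) (by rw [hsb]; simp) r
    have h2 : σ.1.symm r = p := by simp [hr']
    rw [h2] at h1
    have h3 := h1.2 (by simp)
    simp only [Finset.mem_insert, Finset.mem_singleton] at h3
    rcases h3 with h3 | h3 | h3 | h3
    · exact hra h3
    · exact hrb h3
    · exact hr h3
    · exact hq.2.2.2 h3.symm
  have hab : a ≠ b := Ne.symm ha
  obtain ⟨k, h1, h2⟩ := exists_word_sep hab
  set w := wordOf (word k) with hw
  have hwm : w ∈ golayCode := word_mem k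
  have hwa : w a = 1 := by
    rw [hw]
    unfold wordOf
    rw [if_pos h1]
  have hwb : w b = 0 := by
    rw [hw]
    unfold wordOf
    rw [if_neg (by rw [h2]; simp)]
  have hw2 : w + permWord σ.1 w ∈ golayCode := add_mem hwm (permWord_mem_of_mem_M24 σ.2 hwm)
  have hsup : support₂ (w + permWord σ.1 w) = {a, b} := by
    ext i
    rw [mem_support₂]
    simp only [Pi.add_apply, Finset.mem_insert, Finset.mem_singleton]
    show w i + w (σ.1.symm i) ≠ 0 ↔ _
    by_cases hia : i = a
    · subst hia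
      rw [hsa, hwa, hwb]
      simp
    · by_cases hib : i = b
      · subst hib
        rw [hsb, hwa, hwb]
        simp
      · have h3 : σ.1.symm i = i := by
          rw [Equiv.symm_apply_eq]
          exact (hfix i hia hib).symm
        rw [h3]
        have h4 : ∀ t : ZMod 2, t + t = 0 := by decide
        simp [h4, hia, hib]
  have hc := card_support_code hw2
  rw [hsup, Finset.card_pair hab] at hc
  omega

theorem rP35_mod : ∀ a, rP35.1 a % 4 = 1 := by
  have h : allBelow (fun j => decide (Int.emod (vP PP35 j) 4 = 1)) 24 = true := by decide +kernel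
  intro a
  exact of_decide_eq_true ((allBelow_iff _ _).1 h (idx a) (idx_lt a))

theorem sqNorm_rP35 : sqNorm rP35.1 = 64 := by
  have h : sqNorm rP35.1 = sumN (fun j => vP PP35 j ^ 2) 24 := by
    unfold sqNorm
    rw [sum_eq, sumN_eq]
    refine Finset.sum_congr rfl fun j hj => ?_
    show (vP PP35 (idx (pt j))) ^ 2 = _
    rw [idx_pt (Finset.mem_range.1 hj)]
  rw [h]
  decide +kernel

/-- A monomial automorphism acting trivially modulo twice the lattice on the vectors of norm 64 is `± 1`. -/
theorem mono_triv {g : Equiv.Perm LL} (hg : g ∈ Co0) (hP : Pres g)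
    (H : ∀ x : LL, sqNorm x.1 = 64 → ∃ z : LL, x.1 - (g x).1 = (2 : ℤ) • z.1) : g = 1 ∨ g = negE.1 := by
  obtain ⟨σ, c, hc, e⟩ := monoData_exists_eq hg hP
  have hgx : ∀ (x : LL), (g x).1 = signedPerm σ.1 c x.1 := fun x => by rw [e]; rfl
  -- the signs
  obtain ⟨z, hz⟩ := H rP35 sqNorm_rP35
  obtain ⟨ε, w, hε, _, h1, _⟩ := mem_L_iff.1 z.2
  have hzv : ∀ a, rP35.1 a - signedPerm σ.1 c rP35.1 a = 2 * z.1 a := fun a => by
    have := congrFun hz a
    rw [hgx] at this
    simpa using this
  have hzmod : ∀ a, z.1 a % 2 = ε % 2 := fun a => by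
    have h2 := h1 a
    rcases zmod2_cases (w a) with ⟨_, h7⟩ | ⟨_, h7⟩ <;> rw [h7] at h2 <;> omega
  have hcase : ∀ a, (a ∈ c ↔ ε = 1) := by
    intro a
    have h2 := hzv a
    have h3 := hzmod a
    have h4 := rP35_mod a
    have h5 := rP35_mod (σ.1.symm a)
    unfold signedPerm at h2
    by_cases h6 : a ∈ c
    · rw [if_pos h6] at h2
      simp only [h6, true_iff]
      rcases hε with rfl | rfl
      · omega
      · rfl
    · rw [if_neg h6] at h2
      simp only [h6, false_iff]
      rcases hε with rfl | rfl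
      · norm_num
      · omega
  rcases hε with rfl | rfl
  · -- no signs
    have hc0 : ∀ a, a ∉ c := fun a h => by
      have := (hcase a).1 h
      norm_num at this
    left
    have hσ : σ = 1 := by
      apply perm_triv
      intro x hx
      obtain ⟨z', hz'⟩ := H x hx
      refine ⟨z', ?_⟩
      rw [← hz', hgx]
      funext a
      simp [signedPerm, permV, hc0 a]
    rw [e, hσ]
    ext x : 1
    apply Subtype.ext
    funext a
    rw [monoE_apply]
    simp [signedPerm, hc0 a]
    rfl
  · have hc1 : ∀ a, a ∈ c := fun a => (hcase a).2 rfl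
    right
    have hσ : σ = 1 := by
      apply perm_triv
      intro x hx
      obtain ⟨z', hz'⟩ := H x hx
      refine ⟨x - z', ?_⟩
      funext a
      have h2 := congrFun hz' a
      rw [hgx] at h2
      simp only [Pi.sub_apply, signedPerm, hc1 a, if_true, Pi.smul_apply, smul_eq_mul] at h2
      show x.1 a - x.1 (σ.1.symm a) = 2 * (x.1 a - z'.1 a)
      omega
    rw [e, hσ]
    ext x : 1
    apply Subtype.ext
    funext a
    rw [monoE_apply]
    show _ = signV Finset.univ x.1 a
    rw [signV_univ]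
    simp [signedPerm, hc1 a]
    rfl

/-- A normal subgroup inside the monomial group is central. -/
theorem core_triv {M : Subgroup ↥Co0} (hMn : M.Normal) (hM : M ≤ NCo) {g : ↥Co0} (hg : g ∈ M) : g = 1 ∨ g = negE := by
  have h := mono_triv g.2 (mem_NCo.1 (hM hg)).2 (by
    intro x hx
    obtain ⟨h, hh, e⟩ := (orb64 x hx).symm
    have h1 : (⟨h, hh⟩ : ↥Co0)⁻¹ * g * ⟨h, hh⟩ ∈ M := by
      have := hMn.conj_mem g hg (⟨h, hh⟩ : ↥Co0)⁻¹
      simpa using this
    obtain ⟨d, s, hs, e1⟩ := (mem_NCo.1 (hM h1)).2 none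
    have e2 : h⁻¹ * g.1 * h = ((⟨h, hh⟩ : ↥Co0)⁻¹ * g * ⟨h, hh⟩ : ↥Co0).1 := rfl
    rw [← e2] at e1
    have e3 : (h⁻¹ * g.1 * h) (E8 none) = s • E8 d := Subtype.ext e1
    have e4 : g.1 x = h (s • E8 d) := by
      rw [← e3, ← e]
      simp
    refine ⟨h (if s = 1 then D4 none d else D4 none d + E8 d), ?_⟩
    have e5 : (2 : ℤ) • (if s = 1 then D4 none d else D4 none d + E8 d) = E8 none - s • E8 d := by
      rcases hs with rfl | rfl
      · rw [if_pos rfl, two_D4]
        simp
      · rw [if_neg (by norm_num), smul_add, two_D4]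
        abel_nf
    have e6 := congrArg h e5
    rw [map_zsmul_Co0 hh] at e6
    have e7 : h (E8 none - s • E8 d) = x - g.1 x := by
      rw [e4, ← e]
      exact map_sub (gHom hh) _ _
    rw [e7] at e6
    have e8 := congrArg Subtype.val e6
    exact e8.symm)
  rcases h with h | h
  · exact Or.inl (Subtype.ext h)
  · exact Or.inr (Subtype.ext h)

/-- The criterion of Iwasawa, for the sign group. -/
theorem sup_AA_eq_top {M : Subgroup ↥Co0} (hMn : M.Normal) (hs : M ⊔ NCo = ⊤) : M ⊔ AA = ⊤ := by
  rw [eq_top_iff, ← normalClosure_AA]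
  unfold Subgroup.normalClosure
  rw [Subgroup.closure_le]
  intro x hx
  obtain ⟨a, ha, hax⟩ := Group.mem_conjugatesOfSet_iff.1 hx
  obtain ⟨g, rfl⟩ := isConj_iff.1 hax
  have hg : g ∈ M ⊔ NCo := by rw [hs]; trivial
  have hg' : g ∈ ((M ⊔ NCo : Subgroup ↥Co0) : Set ↥Co0) := hg
  rw [Subgroup.normal_mul] at hg'
  obtain ⟨m, hm, n, hn, rfl⟩ := Set.mem_mul.1 hg'
  have h1 : n * a * n⁻¹ ∈ AA := conj_AA_of_NC hn ha
  set a' := n * a * n⁻¹ with ha'
  have h2 : m * n * a * (m * n)⁻¹ = (m * (a' * m⁻¹ * a'⁻¹)) * a' := by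
    rw [ha']
    group
  show m * n * a * (m * n)⁻¹ ∈ ((M ⊔ AA : Subgroup ↥Co0) : Set ↥Co0)
  rw [h2]
  refine mul_mem (Subgroup.mem_sup_left (mul_mem hm ?_)) (Subgroup.mem_sup_right h1)
  exact hMn.conj_mem _ (inv_mem hm) _

/-- The theorem. -/
theorem isCo1 : IsCo1 (↥Co0 ⧸ Subgroup.center ↥Co0) := by
  have hcard : Nat.card (↥Co0 ⧸ Subgroup.center ↥Co0) = 4157776806543360000 := by
    have h := Subgroup.card_eq_card_quotient_mul_card_subgroup (Subgroup.center ↥Co0)
    rw [card_Co0, card_center] at h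
    exact Nat.eq_of_mul_eq_mul_right (by norm_num : 0 < 2) (h.symm.trans (by norm_num))
  refine ⟨?_, hcard⟩
  have hfin : Finite (↥Co0 ⧸ Subgroup.center ↥Co0) := Nat.finite_of_card_ne_zero (by rw [hcard]; norm_num)
  have hnt : Nontrivial (↥Co0 ⧸ Subgroup.center ↥Co0) := by
    apply Finite.one_lt_card_iff_nontrivial.1
    rw [hcard]
    norm_num
  refine ⟨?_⟩
  intro M hM
  have hMt : (M.comap (QuotientGroup.mk' (Subgroup.center ↥Co0))).Normal := Subgroup.Normal.comap hM _
  set N := M.comap (QuotientGroup.mk' (Subgroup.center ↥Co0)) with hN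
  by_cases hle : N ≤ NCo
  · left
    rw [Subgroup.eq_bot_iff_forall]
    intro y hy
    obtain ⟨g, rfl⟩ := QuotientGroup.mk'_surjective _ y
    have hg : g ∈ N := hy
    rcases core_triv hMt hle hg with h | h
    · rw [h, map_one]
    · rw [h]
      exact (QuotientGroup.eq_one_iff _).2 negE_mem_center
  · right
    have hs : N ⊔ NCo = ⊤ := by
      apply NCo_coatom.2
      refine lt_of_le_of_ne le_sup_right ?_
      intro h
      exact hle (by rw [h]; exact le_sup_left)
    have hA := sup_AA_eq_top hMt hs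
    have hc := @Subgroup.Normal.commutator_le_of_self_sup_commutative_eq_top _ _ N hMt AA hA AA_comm
    rw [commutator_eq_top, top_le_iff] at hc
    rw [eq_top_iff]
    intro y _
    obtain ⟨g, rfl⟩ := QuotientGroup.mk'_surjective _ y
    have : g ∈ N := by rw [hc]; trivial
    exact this

end Cfsg.Agent.Lib.Conway
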