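import Cfsg.Agent.Lib.Conway.Links

/-!
# Transitivity of the automorphism group on the vectors of norms 32, 48 and 64
-/

set_option autoImplicit false

namespace Cfsg.Agent.Lib.Conway

open Cfsg Cfsg.Spor Cfsg.Agent.Lib.Compute Cfsg.Agent.Lib.Golay Cfsg.Agent.Lib.M24
open Cfsg.Agent.Lib.KnownSimple.Leech

theorem rA_eq : rA = leechU := by
  apply Subtype.ext
  funext a
  change vP PA (idx a) = vecU a
  revert a
  decide +kernel

theorem rP5_eq : rP5 = -leechV := by
  apply Subtype.ext
  funext a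
  change vP PP5 (idx a) = -vecV a
  revert a
  decide +kernel

theorem rE8_eq : rE8 = E8 none := by
  apply Subtype.ext
  funext a
  change vP PE8 (idx a) = e8 none a
  revert a
  decide +kernel

/-- All vectors of norm 32 are in the orbit of `(4, 4, 0²²)`. -/
theorem orb32 (x : LL) (hn : sqNorm x.1 = 32) : Orb x leechU := by
  rw [← rA_eq]
  rcases nf32 x hn with h | h | h
  · exact h.orb
  · exact h.orb.trans linkB
  · exact h.orb.trans linkC

/-- All vectors of norm 48 are in the orbit of `(5, 1²³)`. -/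
theorem orb48 (x : LL) (hn : sqNorm x.1 = 48) : Orb x (-leechV) := by
  rw [← rP5_eq]
  rcases nf48 x hn with h | h | h | h
  · exact h.orb
  · exact h.orb.trans linkP3
  · exact h.orb.trans linkD
  · exact h.orb.trans linkO4

/-- All vectors of norm 64 are in the orbit of `8 e_∞`. -/
theorem orb64 (x : LL) (hn : sqNorm x.1 = 64) : Orb x (E8 none) := by
  rw [← rE8_eq]
  rcases nf64 x hn with h | h | h | h | h | h | h | h | h
  · exact h.orb
  · exact h.orb.trans linkF4
  · exact h.orb.trans linkO6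
  · exact h.orb.trans linkO44
  · exact h.orb.trans linkD4
  · exact h.orb.trans linkH0
  · exact h.orb.trans linkH1
  · exact h.orb.trans linkP35
  · exact h.orb.trans linkP53

/-- The automorphism group is transitive on the vectors of a given norm. -/
theorem trans32 {v w : LL} (hv : sqNorm v.1 = 32) (hw : sqNorm w.1 = 32) : ∃ g : ↥Co0, g • v = w := by
  obtain ⟨g, hg, e⟩ := (orb32 v hv).trans (orb32 w hw).symm
  exact ⟨⟨g, hg⟩, e⟩

theorem trans48 {v w : LL} (hv : sqNorm v.1 = 48) (hw : sqNorm w.1 = 48) : ∃ g : ↥Co0, g • v = w := by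
  obtain ⟨g, hg, e⟩ := (orb48 v hv).trans (orb48 w hw).symm
  exact ⟨⟨g, hg⟩, e⟩

theorem trans64 {v w : LL} (hv : sqNorm v.1 = 64) (hw : sqNorm w.1 = 64) : ∃ g : ↥Co0, g • v = w := by
  obtain ⟨g, hg, e⟩ := (orb64 v hv).trans (orb64 w hw).symm
  exact ⟨⟨g, hg⟩, e⟩

end Cfsg.Agent.Lib.Conway
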